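import Cfsg.Agent.H5.HnxS

/-! The Harada–Norton group as a subgroup of `GL(133, 11)`. -/

set_option autoImplicit false
set_option maxRecDepth 100000

namespace Cfsg.Agent.H5.Hn

open Mdl Subgroup

theorem core_of_simple {G : Type*} [Group G] {H N : Subgroup G} (hH : IsSimpleGroup H)
    (hN : N.Normal) (h : N ≤ H) {d : G} (hd : Lc H d ≠ H) : N ≤ ⊥ := by
  rcases hH.eq_bot_or_eq_top_of_normal (N.subgroupOf H) inferInstance with e | e
  · exact ((disjoint_iff.1 (subgroupOf_eq_bot.1 e)).symm ▸ le_inf le_rfl h : N ≤ ⊥)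
  · exact absurd (le_antisymm (Lc_le _ _) ((subgroupOf_eq_top.1 e).trans (normal_le_Lc hN h d))) hd

instance fact11 : Fact (1 < 11) := ⟨by norm_num⟩

noncomputable abbrev mA := c12md (G := alternatingGroup (Fin 12))
  (Matrix.permMatrixHom.comp (alternatingGroup (Fin 12)).subtype)
  (permHom_inj.comp Subtype.val_injective)

theorem hp0 : ∀ s < 2, mA.In ⊤ (pg0 s) := fun s hs => by
  interval_cases s
  · exact ⟨⟨⟨![2, 7, 6, 8, 9, 4, 0, 1, 11, 10, 5, 3], ![6, 7, 0, 11, 5, 10, 2, 1, 3, 4, 9, 8],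
      by decide, by decide⟩, Equiv.Perm.mem_alternatingGroup.2 (by decide +kernel)⟩, mem_top _,
      by decide +kernel⟩
  · exact ⟨⟨⟨![6, 9, 1, 8, 11, 3, 5, 0, 7, 10, 4, 2], ![7, 2, 11, 5, 10, 6, 0, 8, 3, 1, 9, 4],
      by decide, by decide⟩, Equiv.Perm.mem_alternatingGroup.2 (by decide +kernel)⟩, mem_top _,
      by decide +kernel⟩

theorem card_A : Nat.card (alternatingGroup (Fin 12)) = 239500800 := by
  have := two_mul_nat_card_alternatingGroup (α := Fin 12)
  rw [Nat.card_perm, Nat.card_fin] at this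
  simp only [Nat.factorial] at this
  omega

instance simpleA : IsSimpleGroup (alternatingGroup (Fin 12)) := alternatingGroup.isSimpleGroup (by simp)

section

variable {G : Type*} [Group G] [Finite G] {φ : G →* Matrix (Fin 133) (Fin 133) (ZMod 11)}
  {inj : Function.Injective φ}

theorem graph (h0 : ∀ s < 2, (c133md φ inj).In ⊤ (hg s)) :
    (c133md φ inj).El ((c133md φ inj).gn hg 2) hE ∧
      Nonempty (alternatingGroup (Fin 12) ≃* (c133md φ inj).gn hg 2) := by
  have hD := in_prod (m := mA) (n := c133md φ inj) (h1 := pp_lt) (h2 := pp_lt1) bP hp0 h0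
  have h1 := map_fst_gn (m := mA) (n := c133md φ inj) (h1 := pp_lt) (h2 := pp_lt1) bP h0
  have h2 := map_snd_gn (m := mA) (n := c133md φ inj) (h1 := pp_lt) (h2 := pp_lt1) bP hp0
  have h3 := El.snd (m := mA) (n := c133md φ inj) (h1 := pp_lt) (h2 := pp_lt1) (bel0 hD)
  have h4 := h1.trans (eq_top_of_le_card _ (card_A.trans_le (plb0 hp0)))
  have h5 := equiv_of_diag _ h4 h2 ((bub0 hD).trans card_A.ge)
    (lt_of_lt_of_le (by norm_num) (alb0 h0))
  exact ⟨El.mono h2.le h3, h5⟩

variable (h : ∀ s < 3, (c133md φ inj).In ⊤ (dg s)) (ht : (c133md φ inj).gn dg 3 = ⊤)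
include h

theorem hb : ∀ s < 2, (c133md φ inj).In ⊤ (hg s) := top_cons h

theorem card_H : Nat.card ((c133md φ inj).gn hg 2) = 239500800 :=
  let ⟨e⟩ := (graph (hb h)).2; (Nat.card_congr e.toEquiv).symm.trans card_A

theorem el : (c133md φ inj).El ⊤ de :=
  (del (hb h) (h 0 (by decide)) (graph (hb h)).1 (card_H h).le).mono le_top

include ht

theorem card_G : Nat.card G = 273030912000000 := by
  have h1 : Nat.card G ≤ 273030912000000 := by
    rw [← card_top, ← ht]; exact dub (hb h) (h 0 (by decide)) (graph (hb h)).1 (card_H h).le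
  have a1 := (s2dv0 (in_of_chkE (el h) s2E)).trans (card_subgroup_dvd_card _)
  have a2 := (s3dv0 (in_of_chkE (el h) s3E)).trans (card_subgroup_dvd_card _)
  have a3 := (s5dv0 (in_of_chkE (el h) s5E)).trans (card_subgroup_dvd_card _)
  have a4 := (e19dv0 (in_of_chkE (el h) e19E)).trans (card_subgroup_dvd_card _)
  have a5 := (show 77 ∣ 239500800 by norm_num).trans (card_H h ▸ card_subgroup_dvd_card _)
  exact le_antisymm h1 (Nat.le_of_dvd Nat.card_pos
    (Nat.Coprime.mul_dvd_of_dvd_of_dvd (by norm_num) (Nat.Coprime.mul_dvd_of_dvd_of_dvd (by norm_num)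
      (Nat.Coprime.mul_dvd_of_dvd_of_dvd (by norm_num)
        (Nat.Coprime.mul_dvd_of_dvd_of_dvd (by norm_num) a1 a2) a3) a4) a5))

theorem simple : IsSimpleGroup G := by
  have h0 := hb h
  have h1 := h 0 (by decide)
  obtain ⟨he, ⟨e⟩⟩ := graph h0
  have hub := (card_H h).le
  refine simple_of_prim _ 19 (by rw [card_H h]; norm_num) (fun e => ?_) (fun M hM => ?_)
    (fun N hN hle => core_of_simple e.symm.isSimpleGroup hN hle
      (d := (c133md φ inj).elt (dD 1)) fun e' => ?_)
    fun N _ hN => ?_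
  · have := card_H h
    rw [e, card_top, card_G h ht] at this
    norm_num at this
  · rw [← ht]; exact dmax h0 h1 he hub M hM (ht ▸ le_top)
  · have := dex h0 h1 he hub (card_H h) (by rw [ht, card_top, card_G h ht]) 1 (by decide)
    rw [e', card_H h] at this
    exact absurd this (by decide)
  · rw [eq_top_iff, ← ht]
    exact gn_le (in_of_chkP hN (el h) dP)

end

noncomputable abbrev m0 := c133md (G := GL (Fin 133) (ZMod 11)) (Units.coeHom _) Units.val_injective

theorem h00 : ∀ s < 3, m0.In ⊤ (dg s) := in_of_chkI m0 (fun _ => rfl) dI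

/-- the group -/
noncomputable abbrev G0 := m0.gn dg 3

noncomputable abbrev m1 := c133md (G := G0) ((Units.coeHom _).comp (Subgroup.subtype _))
    (Units.val_injective.comp Subtype.val_injective)

theorem h10 : ∀ s < 3, m1.In ⊤ (dg s) := fun s hs => (in_gn h00 s hs).sub m1 (fun _ => rfl) rfl

theorem ht1 : m1.gn dg 3 = ⊤ := gn_sub_top m1 (fun _ => rfl) rfl

end Cfsg.Agent.H5.Hn
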