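import Cfsg.Agent.H5.DC4
import Cfsg.Prelude.Def_Spor_J2

/-! Coordinates for the icosian ring. -/

set_option autoImplicit false

namespace Cfsg.Agent.H5.J2

open Cfsg.Spor Quaternion

/-- `a + b τ` -/
@[ext] structure Zt where
  a : ℤ
  b : ℤ
  deriving DecidableEq

namespace Zt
def add (x y : Zt) : Zt := ⟨Int.add x.a y.a, Int.add x.b y.b⟩
def sub (x y : Zt) : Zt := ⟨Int.sub x.a y.a, Int.sub x.b y.b⟩
def neg (x : Zt) : Zt := ⟨Int.neg x.a, Int.neg x.b⟩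
def mul (x y : Zt) : Zt := ⟨Int.add (Int.mul x.a y.a) (Int.mul x.b y.b),
  Int.add (Int.mul x.a y.b) (Int.mul x.b (Int.add y.a y.b))⟩
def half (x : Zt) : Zt := ⟨x.a / 2, x.b / 2⟩

section
variable {R : Type*} [CommRing R] (τ : R)
/-- evaluation -/
def ev (x : Zt) : R := x.a + x.b * τ
theorem ev_add (x y : Zt) : (x.add y).ev τ = x.ev τ + y.ev τ := by simp [ev, add]; ring
theorem ev_sub (x y : Zt) : (x.sub y).ev τ = x.ev τ - y.ev τ := by
  change ((x.a - y.a : ℤ) : R) + ((x.b - y.b : ℤ) : R) * τ = _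
  simp [ev]; ring
theorem ev_neg (x : Zt) : x.neg.ev τ = -x.ev τ := by
  change ((-x.a : ℤ) : R) + ((-x.b : ℤ) : R) * τ = _
  simp [ev]; ring
theorem ev_mul (h : τ * τ = τ + 1) (x y : Zt) : (x.mul y).ev τ = x.ev τ * y.ev τ := by
  simp [ev, mul]; linear_combination (-x.b * y.b) * h
end

end Zt

theorem sq5 : Real.sqrt 5 * Real.sqrt 5 = 5 := Real.mul_self_sqrt (by norm_num)

theorem tau_sq : tau * tau = tau + 1 := by unfold tau; linear_combination (1 / 4) * sq5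

theorem ev_inj {x y : Zt} (h : x.ev tau = y.ev tau) : x = y := by
  have h1 : ((x.b - y.b : ℤ) : ℝ) * Real.sqrt 5 = ((2 * (y.a - x.a) - (x.b - y.b) : ℤ) : ℝ) := by
    simp only [Zt.ev, tau] at h
    push_cast; linear_combination 2 * h
  have h2 : x.b - y.b = 0 := by
    by_contra h2
    exact ((Nat.Prime.irrational_sqrt (p := 5) (by norm_num)).intCast_mul h2).ne_int _ h1
  have h3 : x.b = y.b := by omega
  refine Zt.ext ?_ h3
  simp only [Zt.ev, h3, add_left_inj, Int.cast_inj] at h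
  exact h

/-- quaternions over `ℤ[τ]` -/
@[ext] structure Q where
  r : Zt
  i : Zt
  j : Zt
  k : Zt
  deriving DecidableEq

noncomputable def fn {β : Type} (n : ℕ) (k : ℕ → β) : β :=
  Nat.rec (motive := fun _ => β) (k 0) (fun m _ => k m) (Nat.succ n)
noncomputable def fi {β : Type} (a : ℤ) (k : ℤ → β) : β :=
  Int.rec (motive := fun _ => β) (fun n => fn n fun n => k (Int.ofNat n))
    (fun n => fn n fun n => k (Int.negSucc n)) a
noncomputable def fz {β : Type} (a : Zt) (k : Zt → β) : β :=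
  fi a.a fun x => fi a.b fun y => k ⟨x, y⟩
noncomputable def fq {β : Type} (a : Q) (k : Q → β) : β :=
  fz a.r fun x => fz a.i fun y => fz a.j fun z => fz a.k fun w => k ⟨x, y, z, w⟩
theorem fn_eq {β : Type} (n : ℕ) (k : ℕ → β) : fn n k = k n := rfl
theorem fi_eq {β : Type} (a : ℤ) (k : ℤ → β) : fi a k = k a := by cases a <;> rfl
theorem fz_eq {β : Type} (a : Zt) (k : Zt → β) : fz a k = k a := by rw [fz, fi_eq, fi_eq]
theorem fq_eq {β : Type} (a : Q) (k : Q → β) : fq a k = k a := by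
  rw [fq, fz_eq, fz_eq, fz_eq, fz_eq]

namespace Q
def add (x y : Q) : Q := ⟨x.r.add y.r, x.i.add y.i, x.j.add y.j, x.k.add y.k⟩
def sub (x y : Q) : Q := ⟨x.r.sub y.r, x.i.sub y.i, x.j.sub y.j, x.k.sub y.k⟩
def neg (x : Q) : Q := ⟨x.r.neg, x.i.neg, x.j.neg, x.k.neg⟩
def conj (x : Q) : Q := ⟨x.r, x.i.neg, x.j.neg, x.k.neg⟩
def half (x : Q) : Q := ⟨x.r.half, x.i.half, x.j.half, x.k.half⟩
def mul0 (x y : Q) : Q :=
  ⟨((x.r.mul y.r).sub (x.i.mul y.i)).sub ((x.j.mul y.j).add (x.k.mul y.k)),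
    ((x.r.mul y.i).add (x.i.mul y.r)).add ((x.j.mul y.k).sub (x.k.mul y.j)),
    ((x.r.mul y.j).sub (x.i.mul y.k)).add ((x.j.mul y.r).add (x.k.mul y.i)),
    ((x.r.mul y.k).add (x.i.mul y.j)).add ((x.k.mul y.r).sub (x.j.mul y.i))⟩
noncomputable def mul (x y : Q) : Q := fq x fun x => fq y fun y => mul0 x y
theorem mul_def (x y : Q) : x.mul y = x.mul0 y := by rw [mul, fq_eq, fq_eq]
def nrm0 (x : Q) : Zt := ((x.r.mul x.r).add (x.i.mul x.i)).add ((x.j.mul x.j).add (x.k.mul x.k))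
noncomputable def nrm (x : Q) : Zt := fq x nrm0
theorem nrm_def (x : Q) : x.nrm = x.nrm0 := fq_eq _ _
noncomputable def hm (x y : Q) : Q := (x.mul y).half
def sc (n : ℤ) : Q := ⟨⟨n, 0⟩, ⟨0, 0⟩, ⟨0, 0⟩, ⟨0, 0⟩⟩
/-- the parity condition -/
def inI (x : Q) : Prop := (x.j.a + x.r.b + x.i.a + x.i.b) % 2 = 0 ∧ (x.j.b + x.r.a + x.r.b + x.i.a) % 2 = 0 ∧
  (x.k.a + x.r.a + x.r.b + x.i.b) % 2 = 0 ∧ (x.k.b + x.r.a + x.i.a + x.i.b) % 2 = 0
def decI (x : Q) : Decidable x.inI := by unfold inI; infer_instance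
noncomputable instance (x : Q) : Decidable x.inI :=
  decidable_of_iff (fq x (fun y => @decide _ (decI y)) = true) 
    (by rw [fq_eq]; exact @decide_eq_true_iff _ (_))
/-- twice an icosian -/
def ev2 (x : Q) : Prop := x = x.half.add x.half ∧ x.half.inI
noncomputable def dec2 (x : Q) : Decidable x.ev2 := by unfold ev2; infer_instance
noncomputable instance (x : Q) : Decidable x.ev2 :=
  decidable_of_iff (fq x (fun y => @decide _ (dec2 y)) = true) 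
    (by rw [fq_eq]; exact @decide_eq_true_iff _ (_))

theorem half_add (x : Q) : (x.add x).half = x := by
  ext <;> simp only [half, add, Zt.half, Zt.add, Int.add_def] <;> omega

theorem inI.add {x y : Q} (hx : x.inI) (hy : y.inI) : (x.add y).inI := by
  simp only [inI, Q.add, Zt.add, Int.add_def] at *; omega
theorem inI.neg {x : Q} (hx : x.inI) : x.neg.inI := by
  have e : ∀ a : ℤ, Int.neg a = -a := fun _ => rfl
  simp only [inI, Q.neg, Zt.neg, e] at *; omega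
theorem inI.conj {x : Q} (hx : x.inI) : x.conj.inI := by
  have e : ∀ a : ℤ, Int.neg a = -a := fun _ => rfl
  simp only [inI, Q.conj, Zt.neg, e] at *; omega
end Q

/-- half the quaternion -/
noncomputable def hf (x : Q) : ℍ[ℝ] :=
  ⟨x.r.ev tau / 2, x.i.ev tau / 2, x.j.ev tau / 2, x.k.ev tau / 2⟩

@[simp] theorem hf_re (x : Q) : (hf x).re = x.r.ev tau / 2 := rfl
@[simp] theorem hf_imI (x : Q) : (hf x).imI = x.i.ev tau / 2 := rfl
@[simp] theorem hf_imJ (x : Q) : (hf x).imJ = x.j.ev tau / 2 := rfl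
@[simp] theorem hf_imK (x : Q) : (hf x).imK = x.k.ev tau / 2 := rfl

theorem hf_inj {x y : Q} (h : hf x = hf y) : x = y := by
  have h1 := congrArg QuaternionAlgebra.re h
  have h2 := congrArg QuaternionAlgebra.imI h
  have h3 := congrArg QuaternionAlgebra.imJ h
  have h4 := congrArg QuaternionAlgebra.imK h
  simp only [hf_re, hf_imI, hf_imJ, hf_imK] at h1 h2 h3 h4
  exact Q.ext (ev_inj (by linarith)) (ev_inj (by linarith)) (ev_inj (by linarith))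
    (ev_inj (by linarith))

theorem hf_add (x y : Q) : hf (x.add y) = hf x + hf y := by
  ext <;> simp [Q.add, Zt.ev_add] <;> ring
theorem hf_sub (x y : Q) : hf (x.sub y) = hf x - hf y := by
  ext <;> simp [Q.sub, Zt.ev_sub] <;> ring
theorem hf_neg (x : Q) : hf x.neg = -hf x := by
  ext <;> simp [Q.neg, Zt.ev_neg] <;> ring
theorem hf_conj (x : Q) : hf x.conj = star (hf x) := by
  ext <;> simp [Q.conj, Zt.ev_neg] <;> ring
theorem hf_mul (x y : Q) : hf (x.mul y) = 2 * (hf x * hf y) := by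
  rw [two_mul]
  ext <;> simp [Q.mul_def, Q.mul0, Zt.ev_add, Zt.ev_sub, Zt.ev_mul _ tau_sq] <;> ring
theorem hf_sc (n : ℤ) : hf (.sc (2 * n)) = n := by
  ext <;> simp [Q.sc, Zt.ev]
theorem two_ne : (2 : ℍ[ℝ]) ≠ 0 := fun h => by
  have := congrArg QuaternionAlgebra.re (one_add_one_eq_two.trans h)
  simp at this
theorem mul_conj (x : Q) : x.mul x.conj = ⟨x.nrm, ⟨0, 0⟩, ⟨0, 0⟩, ⟨0, 0⟩⟩ := by
  have e : ∀ a : ℤ, Int.neg a = -a := fun _ => rfl
  have e2 : ∀ a b : ℤ, Int.sub a b = a - b := fun _ _ => rfl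
  ext <;> simp only [Q.mul_def, Q.mul0, Q.conj, Q.nrm_def, Q.nrm0, Zt.add, Zt.sub, Zt.mul, Zt.neg, e, e2, Int.add_def,
    Int.mul_def] <;> ring

def E : Fin 8 → Q := ![⟨⟨1, 0⟩, ⟨0, 0⟩, ⟨0, 1⟩, ⟨1, 1⟩⟩, ⟨⟨0, 1⟩, ⟨0, 0⟩, ⟨1, 1⟩, ⟨1, 0⟩⟩,
  ⟨⟨0, 0⟩, ⟨1, 0⟩, ⟨1, 1⟩, ⟨0, 1⟩⟩, ⟨⟨0, 0⟩, ⟨0, 1⟩, ⟨1, 0⟩, ⟨1, 1⟩⟩,
  ⟨⟨0, 0⟩, ⟨0, 0⟩, ⟨2, 0⟩, ⟨0, 0⟩⟩, ⟨⟨0, 0⟩, ⟨0, 0⟩, ⟨0, 2⟩, ⟨0, 0⟩⟩,
  ⟨⟨0, 0⟩, ⟨0, 0⟩, ⟨0, 0⟩, ⟨2, 0⟩⟩, ⟨⟨0, 0⟩, ⟨0, 0⟩, ⟨0, 0⟩, ⟨0, 2⟩⟩]

theorem hf_span {x : Q} (h : x.inI) : ∃ c : Fin 8 → ℤ, hf x = ∑ k, c k • hf (E k) := by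
  obtain ⟨⟨a, b⟩, ⟨c, d⟩, ⟨e, f⟩, ⟨g, k⟩⟩ := x
  simp only [Q.inI] at h
  obtain ⟨e, rfl⟩ : ∃ u, e = 2 * u + b + c + d := ⟨(e - b - c - d) / 2, by omega⟩
  obtain ⟨f, rfl⟩ : ∃ u, f = 2 * u + a + b + c := ⟨(f - b - c - a) / 2, by omega⟩
  obtain ⟨g, rfl⟩ : ∃ u, g = 2 * u + a + b + d := ⟨(g - b - a - d) / 2, by omega⟩
  obtain ⟨k, rfl⟩ : ∃ u, k = 2 * u + a + c + d := ⟨(k - a - c - d) / 2, by omega⟩
  refine ⟨![a, b, c, d, e, f, g, k], ?_⟩
  simp only [Fin.sum_univ_eight, ← Int.cast_smul_eq_zsmul ℝ]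
  ext <;> simp [E, Zt.ev] <;> ring

theorem hf_hm {x y : Q} (h : x.mul y = (x.hm y).add (x.hm y)) : hf (x.hm y) = hf x * hf y := by
  have := hf_mul x y
  rw [h, hf_add, ← two_mul] at this
  exact mul_left_cancel₀ two_ne this

/-- the icosians in coordinates -/
noncomputable def IA : AddSubgroup ℍ[ℝ] where
  carrier := {x | ∃ X : Q, X.inI ∧ hf X = x}
  add_mem' := by rintro _ _ ⟨x, hx, rfl⟩ ⟨y, hy, rfl⟩; exact ⟨_, hx.add hy, hf_add _ _⟩
  zero_mem' := ⟨.sc (2 * 0), by decide +kernel, by rw [hf_sc]; simp⟩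
  neg_mem' := by rintro _ ⟨x, hx, rfl⟩; exact ⟨_, hx.neg, hf_neg _⟩

theorem E_mul : ∀ k l, (E k).mul (E l) = ((E k).hm (E l)).add ((E k).hm (E l)) ∧
    ((E k).hm (E l)).inI := by decide +kernel

noncomputable def IR : Subring ℍ[ℝ] where
  __ := IA
  one_mem' := ⟨.sc (2 * 1), by decide +kernel, by rw [hf_sc]; simp⟩
  mul_mem' := by
    rintro _ _ ⟨x, hx, rfl⟩ ⟨y, hy, rfl⟩
    obtain ⟨c, hc⟩ := hf_span hx
    obtain ⟨d, hd⟩ := hf_span hy
    rw [hc, hd, Finset.sum_mul_sum]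
    refine IA.sum_mem fun k _ => IA.sum_mem fun l _ => ?_
    rw [smul_mul_smul_comm]
    exact IA.zsmul_mem ⟨_, (E_mul k l).2, hf_hm (E_mul k l).1⟩ _

def gi : Q := ⟨⟨0, 0⟩, ⟨2, 0⟩, ⟨0, 0⟩, ⟨0, 0⟩⟩
def gw : Q := ⟨⟨1, 0⟩, ⟨1, -1⟩, ⟨0, 0⟩, ⟨0, 1⟩⟩

theorem hf_gi : hf gi = qI := by ext <;> simp [gi, qI, Zt.ev]
theorem hf_gw : hf gw = ⟨1 / 2, sig / 2, 0, tau / 2⟩ := by
  ext <;> simp [gw, Zt.ev, sig, tau]; ring

theorem exists_of_mem {x : ℍ[ℝ]} (h : x ∈ icosians) : ∃ X : Q, X.inI ∧ hf X = x := by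
  refine (Subring.closure_le.2 ?_ : icosians ≤ IR) h
  rintro _ (rfl | rfl)
  · exact ⟨gi, by decide +kernel, hf_gi⟩
  · exact ⟨gw, by decide +kernel, hf_gw⟩

theorem hm_spec {x y : Q} (hx : x.inI) (hy : y.inI) :
    (x.hm y).inI ∧ hf (x.hm y) = hf x * hf y := by
  obtain ⟨z, hz, e⟩ := IR.mul_mem (show hf x ∈ IR from ⟨x, hx, rfl⟩) ⟨y, hy, rfl⟩
  have : x.mul y = z.add z := hf_inj (by rw [hf_mul, hf_add, e, two_mul])
  rw [Q.hm, this, Q.half_add]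
  exact ⟨hz, e⟩

/-- words in the generators -/
noncomputable def wq : List Bool → Q
  | [] => .sc (2 * 1)
  | s :: l => (if s then gw else gi).hm (wq l)

theorem wq_mem (l : List Bool) : (wq l).inI ∧ hf (wq l) ∈ icosians := by
  induction l with
  | nil => exact ⟨by decide +kernel, by rw [wq, hf_sc]; simp⟩
  | cons s l ih =>
    have h1 : (if s then gw else gi).inI ∧ hf (if s then gw else gi) ∈ icosians := by
      cases s
      · exact ⟨by decide +kernel, hf_gi ▸ Subring.subset_closure (Or.inl rfl)⟩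
      · exact ⟨by decide +kernel, hf_gw ▸ Subring.subset_closure (Or.inr rfl)⟩
    obtain ⟨h2, h3⟩ := hm_spec h1.1 ih.1
    exact ⟨h2, by rw [wq, h3]; exact mul_mem h1.2 ih.2⟩

def EW : Fin 8 → List Bool × List Bool := ![
  ([true, true, false, true], [true]),
  ([true, true, false, true], [false, true, false, true, false, false]),
  ([true, false], [true, false, true, true, false]),
  ([true, false, true], [true, false, true, true, false]),
  ([true, false, true, false], [false, true, false, true, false, false]),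
  ([true, false], [false, true, false, false]),
  ([true, false, true], [false, true, false, true, false]),
  ([false, true, false], [true])]

theorem mem_of_inI {x : Q} (h : x.inI) : hf x ∈ icosians := by
  obtain ⟨c, hc⟩ := hf_span h
  rw [hc]
  refine sum_mem fun k _ => zsmul_mem ?_ _
  have : ∀ k, E k = (wq (EW k).1).add (wq (EW k).2) := by decide +kernel
  rw [this, hf_add]
  exact add_mem (wq_mem _).2 (wq_mem _).2

theorem star_mem {x : ℍ[ℝ]} (h : x ∈ icosians) : star x ∈ icosians := by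
  obtain ⟨X, hX, rfl⟩ := exists_of_mem h
  exact hf_conj X ▸ mem_of_inI hX.conj

def HQ : Q := ⟨⟨1, -2⟩, ⟨1, 0⟩, ⟨1, 0⟩, ⟨1, 0⟩⟩

theorem hf_H : hf HQ = icoH := by
  ext <;> simp [HQ, icoH, Zt.ev, tau]; ring

theorem H_mem : icoH ∈ icosians := hf_H ▸ mem_of_inI (by decide +kernel)

theorem H_star : icoH * star icoH = 2 := by
  refine mul_left_cancel₀ two_ne ?_
  rw [← hf_H, ← hf_conj, ← hf_mul, show HQ.mul HQ.conj = .sc (2 * 4) by decide +kernel, hf_sc]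
  norm_num

theorem star_H : star icoH * icoH = 2 := by rw [star_comm_self', H_star]

theorem mem_ideal {q x : ℍ[ℝ]} (h1 : q * star q = 2) :
    x ∈ leftIdeal q ↔ ∃ a ∈ icosians, x * star q = a + a := by
  have h2 : star q * q = 2 := by rw [star_comm_self', h1]
  constructor
  · rintro ⟨a, ha, rfl⟩
    exact ⟨a, ha, by rw [mul_assoc, h1, mul_two]⟩
  · rintro ⟨a, ha, e⟩
    refine ⟨a, ha, mul_right_cancel₀ two_ne ?_⟩
    rw [← h2, ← mul_assoc, e, h2, mul_two, add_mul]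

theorem ev2_iff {x : Q} : x.ev2 ↔ ∃ a ∈ icosians, hf x = a + a := by
  constructor
  · rintro ⟨h1, h2⟩
    exact ⟨_, mem_of_inI h2, by rw [← hf_add, ← h1]⟩
  · rintro ⟨a, ha, e⟩
    obtain ⟨A, hA, rfl⟩ := exists_of_mem ha
    rw [← hf_add] at e
    rw [hf_inj e, Q.ev2, Q.half_add]
    exact ⟨rfl, hA⟩

theorem mem_H {x : Q} (hx : x.inI) : hf x ∈ leftIdeal icoH ↔ (x.hm HQ.conj).ev2 := by
  rw [mem_ideal H_star, ev2_iff, (hm_spec hx (by decide +kernel)).2, hf_conj, hf_H]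

theorem mem_Hb {x : Q} (hx : x.inI) : hf x ∈ leftIdeal (star icoH) ↔ (x.hm HQ).ev2 := by
  rw [mem_ideal (by rw [star_star, star_H]), ev2_iff, (hm_spec hx (by decide +kernel)).2, star_star, hf_H]

end Cfsg.Agent.H5.J2
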