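import Cfsg.Agent.H5.J2A

/-! The icosian Leech lattice and its reflections. -/

set_option autoImplicit false

namespace Cfsg.Agent.H5.J2

open Cfsg.Spor Quaternion

abbrev W := Fin 3 → ℍ[ℝ]

theorem qip_eq (x r : W) : qip x r = x 0 * star (r 0) + x 1 * star (r 1) + x 2 * star (r 2) := by
  simp [qip, Fin.sum_univ_three]

theorem qip_sub_left (x y r : W) : qip (x - y) r = qip x r - qip y r := by
  simp only [qip_eq, Pi.sub_apply]; noncomm_ring
theorem qip_add_left (x y r : W) : qip (x + y) r = qip x r + qip y r := by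
  simp only [qip_eq, Pi.add_apply]; noncomm_ring
theorem qip_sub_right (x y r : W) : qip r (x - y) = qip r x - qip r y := by
  simp only [qip_eq, Pi.sub_apply, star_sub]; noncomm_ring
theorem qip_smul_left (c : ℍ[ℝ]) (x r : W) : qip (c • x) r = c * qip x r := by
  simp only [qip_eq, Pi.smul_apply, smul_eq_mul]; noncomm_ring
theorem qip_smul_right (c : ℍ[ℝ]) (x r : W) : qip x (c • r) = qip x r * star c := by
  simp only [qip_eq, Pi.smul_apply, smul_eq_mul, star_mul]; noncomm_ring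
theorem star_qip (x r : W) : star (qip x r) = qip r x := by
  simp only [qip_eq, star_add, star_mul, star_star]

/-- the coefficient of the reflection -/
noncomputable def cf (r x : W) : ℍ[ℝ] := (1 / 2 : ℝ) • qip x r

theorem qrefl_eq (r x : W) : qrefl r x = x - cf r x • r := rfl

theorem cf_add_cf (r x : W) : cf r x + cf r x = qip x r := by
  rw [cf, ← add_smul]; norm_num

theorem cf_eq {r x : W} {c : ℍ[ℝ]} (h : qip x r = c + c) : cf r x = c :=
  mul_left_cancel₀ two_ne (by rw [two_mul, two_mul, cf_add_cf, h])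

theorem four_eq : (4 : ℍ[ℝ]) = 1 + 1 + 1 + 1 := by norm_num

theorem qrefl_qrefl {r : W} (hr : qip r r = 4) (x : W) : qrefl r (qrefl r x) = x := by
  have : cf r (qrefl r x) = -cf r x := cf_eq (by
    rw [qrefl_eq, qip_sub_left, qip_smul_left, hr, ← cf_add_cf, four_eq]; noncomm_ring)
  rw [qrefl_eq, this, qrefl_eq, neg_smul, sub_neg_eq_add, sub_add_cancel]

theorem qip_qrefl {r : W} (hr : qip r r = 4) (x y : W) : qip (qrefl r x) (qrefl r y) = qip x y := by
  simp only [qrefl_eq, qip_sub_left, qip_sub_right, qip_smul_left, qip_smul_right, hr]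
  rw [← star_qip y r, ← cf_add_cf r x, ← cf_add_cf r y, star_add, four_eq]
  noncomm_ring

theorem qrefl_add (r x y : W) : qrefl r (x + y) = qrefl r x + qrefl r y := by
  have : cf r (x + y) = cf r x + cf r y := by rw [cf, qip_add_left, smul_add]; rfl
  rw [qrefl_eq, this, qrefl_eq, qrefl_eq, add_smul]; abel

theorem qrefl_conj {s : W} (hs : qip s s = 4) (r x : W) :
    qrefl (qrefl s r) (qrefl s x) = qrefl s (qrefl r x) := by
  have h1 : cf (qrefl s r) (qrefl s x) = cf r x := by rw [cf, qip_qrefl hs]; rfl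
  have h2 : cf s (x - cf r x • r) = cf s x - cf r x * cf s r := cf_eq (by
    rw [qip_sub_left, qip_smul_left, ← cf_add_cf s x, ← cf_add_cf s r]; noncomm_ring)
  rw [qrefl_eq (qrefl s r), h1, qrefl_eq r, qrefl_eq s (x - _), h2, qrefl_eq, qrefl_eq, smul_sub,
    sub_smul, mul_smul]
  abel

theorem qrefl_unit {u : ℍ[ℝ]} (hu : u * star u = 1) (r x : W) : qrefl (u • r) x = qrefl r x := by
  have : cf (u • r) x = cf r x * star u := cf_eq (by
    rw [qip_smul_right, ← cf_add_cf, add_mul])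
  rw [qrefl_eq, this, smul_smul, mul_assoc, star_comm_self', hu, mul_one, qrefl_eq]

theorem ideal_smul {q c x : ℍ[ℝ]} (hc : c ∈ icosians) (hx : x ∈ leftIdeal q) :
    c * x ∈ leftIdeal q :=
  let ⟨a, ha, e⟩ := hx; ⟨c * a, mul_mem hc ha, by rw [e, mul_assoc]⟩

theorem ideal_sub {q x y : ℍ[ℝ]} (hx : x ∈ leftIdeal q) (hy : y ∈ leftIdeal q) :
    x - y ∈ leftIdeal q :=
  let ⟨a, ha, e⟩ := hx; let ⟨b, hb, e'⟩ := hy; ⟨a - b, sub_mem ha hb, by rw [e, e', sub_mul]⟩

theorem ideal_add {q x y : ℍ[ℝ]} (hx : x ∈ leftIdeal q) (hy : y ∈ leftIdeal q) :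
    x + y ∈ leftIdeal q :=
  let ⟨a, ha, e⟩ := hx; let ⟨b, hb, e'⟩ := hy; ⟨a + b, add_mem ha hb, by rw [e, e', add_mul]⟩

theorem ideal_neg {q x : ℍ[ℝ]} (hx : x ∈ leftIdeal q) : -x ∈ leftIdeal q :=
  let ⟨a, ha, e⟩ := hx; ⟨-a, neg_mem ha, by rw [e, neg_mul]⟩

theorem smul_mem_L {c : ℍ[ℝ]} (hc : c ∈ icosians) {x : W} (hx : x ∈ icoLeech) :
    c • x ∈ icoLeech := by
  obtain ⟨h1, h2, h3, h4⟩ := hx
  refine ⟨fun t => mul_mem hc (h1 t), ?_, ?_, ?_⟩ <;>
    simp only [Pi.smul_apply, smul_eq_mul, ← mul_sub, ← mul_add]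
  exacts [ideal_smul hc h2, ideal_smul hc h3, ideal_smul hc h4]

theorem sub_mem_L {x y : W} (hx : x ∈ icoLeech) (hy : y ∈ icoLeech) : x - y ∈ icoLeech := by
  obtain ⟨h1, h2, h3, h4⟩ := hx
  obtain ⟨k1, k2, k3, k4⟩ := hy
  refine ⟨fun t => sub_mem (h1 t) (k1 t), ?_, ?_, ?_⟩ <;> simp only [Pi.sub_apply]
  · convert ideal_sub h2 k2 using 1; abel
  · convert ideal_sub h3 k3 using 1; abel
  · convert ideal_sub h4 k4 using 1; abel

theorem qip_even {x r : W} (hx : x ∈ icoLeech) (hr : r ∈ icoLeech) : cf r x ∈ icosians := by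
  obtain ⟨h1, ⟨a, ha, ea⟩, ⟨b, hb, eb⟩, ⟨c, hc, ec⟩⟩ := hx
  obtain ⟨k1, ⟨a', ha', ea'⟩, ⟨b', hb', eb'⟩, ⟨c', hc', ec'⟩⟩ := hr
  have fa := congrArg star ea'
  have fb := congrArg star eb'
  have fc := congrArg star ec'
  simp only [star_sub, star_add, star_mul, star_star] at fa fb fc
  have hk : icoH * star icoH = 1 + 1 := H_star.trans one_add_one_eq_two.symm
  have kh : star icoH * icoH = 1 + 1 := star_H.trans one_add_one_eq_two.symm
  have m := star_mem H_mem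
  have ma := star_mem ha'
  have mb := star_mem hb'
  have mc := star_mem hc'
  have my := star_mem (k1 1)
  rw [cf_eq (c := c * star c' - (a - b) * (star a' - star b') - c * star icoH * star (r 1) -
    x 1 * star icoH * (star a' - star b') + a * star a' + b * star b') ?_]
  · have := h1 1
    repeat first | assumption | apply add_mem | apply sub_mem | apply mul_mem
  rw [qip_eq, eq_add_of_sub_eq ea, eq_add_of_sub_eq fa, (sub_sub_cancel _ _).symm.trans
    (congrArg (x 1 - ·) eb), (sub_sub_cancel _ _).symm.trans (congrArg (star (r 1) - ·) fb)] at *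
  generalize star icoH = k at *
  generalize icoH = h at *
  generalize star a' = a1 at *
  generalize star b' = b1 at *
  generalize star c' = c1 at *
  generalize star (r 1) = y at *
  generalize x 1 = x at *
  linear_combination (norm := noncomm_ring) ec * y + c * k * fc + ec * (k * (a1 - b1)) +
    a * hk * a1 + b * hk * b1 + c * kh * c1 - (a - b) * hk * (a1 - b1)

theorem qrefl_mem {r x : W} (hr : r ∈ icoLeech) (hx : x ∈ icoLeech) : qrefl r x ∈ icoLeech :=
  sub_mem_L hx (smul_mem_L (qip_even hx hr) hr)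

/-- the reflection as a permutation -/
noncomputable def reflP {r : W} (hr : r ∈ icoLeech) (h4 : qip r r = 4) : Equiv.Perm icoLeech :=
  Function.Involutive.toPerm (fun x => ⟨qrefl r x, qrefl_mem hr x.2⟩)
    fun x => Subtype.ext (qrefl_qrefl h4 x)

theorem sq5_mem : ((Real.sqrt 5 : ℝ) : ℍ[ℝ]) ∈ icosians := by
  have : hf ⟨⟨-2, 4⟩, ⟨0, 0⟩, ⟨0, 0⟩, ⟨0, 0⟩⟩ = (Real.sqrt 5 : ℝ) := by
    ext <;> simp [Zt.ev, tau]; ring
  exact this ▸ mem_of_inI (by decide +kernel)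

theorem even_of_ideals {x : ℍ[ℝ]} (hx : x ∈ icosians) (h1 : x ∈ leftIdeal icoH)
    (h2 : x ∈ leftIdeal (star icoH)) : ∃ a ∈ icosians, x = a + a := by
  obtain ⟨a, ha, ea⟩ := (mem_ideal H_star).1 h1
  obtain ⟨b, hb, eb⟩ := (mem_ideal (by rw [star_star, star_H])).1 h2
  rw [star_star] at eb
  have e1 : icoH + star icoH = -((Real.sqrt 5 : ℝ) : ℍ[ℝ]) := by
    rw [← hf_H]; ext <;> simp [HQ, Zt.ev, tau]; ring
  have e2 : ((Real.sqrt 5 : ℝ) : ℍ[ℝ]) * (Real.sqrt 5 : ℝ) = 1 + 1 + 1 + 1 + 1 := by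
    rw [← coe_mul, sq5]; ext <;> simp; norm_num
  refine ⟨-(a + b) * (Real.sqrt 5 : ℝ) - x - x,
    sub_mem (sub_mem (mul_mem (neg_mem (add_mem ha hb)) sq5_mem) hx) hx, ?_⟩
  generalize ((Real.sqrt 5 : ℝ) : ℍ[ℝ]) = s at *
  linear_combination (norm := noncomm_ring) x * e1 * s - ea * s - eb * s - x * e2

/-- triples -/
@[ext] structure V where
  x : Q
  y : Q
  z : Q
  deriving DecidableEq

namespace V
def inL (v : V) : Prop := v.x.inI ∧ v.y.inI ∧ v.z.inI ∧ ((v.x.sub v.y).hm HQ.conj).ev2 ∧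
  ((v.y.sub v.z).hm HQ.conj).ev2 ∧ (((v.x.add v.y).add v.z).hm HQ).ev2
noncomputable instance (v : V) : Decidable v.inL := by unfold inL; infer_instance
noncomputable def ip (v w : V) : Q := ((v.x.mul w.x.conj).add (v.y.mul w.y.conj)).add (v.z.mul w.z.conj)
noncomputable def ns (v : V) : Zt := (v.x.nrm.add v.y.nrm).add v.z.nrm
noncomputable def lm (u : Q) (v : V) : V := ⟨u.hm v.x, u.hm v.y, u.hm v.z⟩
def sub (v w : V) : V := ⟨v.x.sub w.x, v.y.sub w.y, v.z.sub w.z⟩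
def add (v w : V) : V := ⟨v.x.add w.x, v.y.add w.y, v.z.add w.z⟩
noncomputable def qr (s v : V) : V := fq (ip v s).half.half fun c => v.sub (lm c s)
end V

theorem Q.inI.sub {x y : Q} (hx : x.inI) (hy : y.inI) : (x.sub y).inI := by
  have e : ∀ a b : ℤ, Int.sub a b = a - b := fun _ _ => rfl
  simp only [Q.inI, Q.sub, Zt.sub, e] at *; omega

noncomputable def hv (v : V) : W := ![hf v.x, hf v.y, hf v.z]

@[simp] theorem hv0 (v : V) : hv v 0 = hf v.x := rfl
@[simp] theorem hv1 (v : V) : hv v 1 = hf v.y := rfl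
@[simp] theorem hv2 (v : V) : hv v 2 = hf v.z := rfl

theorem W_ext {x y : W} (h0 : x 0 = y 0) (h1 : x 1 = y 1) (h2 : x 2 = y 2) : x = y := by
  funext t; fin_cases t; exacts [h0, h1, h2]

theorem hv_inj {v w : V} (h : hv v = hv w) : v = w :=
  V.ext (hf_inj (congrFun h 0)) (hf_inj (congrFun h 1)) (hf_inj (congrFun h 2))

theorem hv_sub (v w : V) : hv (v.sub w) = hv v - hv w :=
  W_ext (hf_sub _ _) (hf_sub _ _) (hf_sub _ _)
theorem hv_add (v w : V) : hv (v.add w) = hv v + hv w :=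
  W_ext (hf_add _ _) (hf_add _ _) (hf_add _ _)

theorem inL_iff {v : V} (hx : v.x.inI) (hy : v.y.inI) (hz : v.z.inI) : v.inL ↔ hv v ∈ icoLeech := by
  simp only [V.inL, icoLeech, Set.mem_ofPred_eq, hv0, hv1, hv2, ← hf_sub, ← hf_add,
    mem_H (hx.sub hy), mem_H (hy.sub hz), mem_Hb ((hx.add hy).add hz), hx, hy, hz, true_and,
    iff_and_self]
  intro _ t
  fin_cases t
  exacts [mem_of_inI hx, mem_of_inI hy, mem_of_inI hz]

theorem V.inL.mem {v : V} (h : v.inL) : hv v ∈ icoLeech := (inL_iff h.1 h.2.1 h.2.2.1).1 h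

theorem exists_V {r : W} (h : r ∈ icoLeech) : ∃ v : V, v.inL ∧ hv v = r := by
  obtain ⟨x, hx, ex⟩ := exists_of_mem (h.1 0)
  obtain ⟨y, hy, ey⟩ := exists_of_mem (h.1 1)
  obtain ⟨z, hz, ez⟩ := exists_of_mem (h.1 2)
  have : hv ⟨x, y, z⟩ = r := W_ext ex ey ez
  exact ⟨_, (inL_iff hx hy hz).2 (this ▸ h), this⟩

theorem hf_ip (v w : V) : hf (v.ip w) = 2 * qip (hv v) (hv w) := by
  simp only [V.ip, hf_add, hf_mul, hf_conj, qip_eq, hv0, hv1, hv2, mul_add]

theorem ip_self (v : V) : v.ip v = ⟨v.ns, ⟨0, 0⟩, ⟨0, 0⟩, ⟨0, 0⟩⟩ := by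
  simp only [V.ip, mul_conj]; rfl

theorem ns_eq_of_qip {v w : V} (h : qip (hv v) (hv v) = qip (hv w) (hv w)) : v.ns = w.ns := by
  have : v.ip v = w.ip w := hf_inj (by rw [hf_ip, hf_ip, h])
  rw [ip_self, ip_self] at this
  exact congrArg Q.r this

theorem qip_iff {v : V} : qip (hv v) (hv v) = 4 ↔ v.ns = ⟨16, 0⟩ := by
  have h1 : hf (.sc (2 * 8)) = 2 * 4 := by rw [hf_sc]; norm_num
  constructor
  · intro h
    have : v.ip v = .sc (2 * 8) := hf_inj (by rw [hf_ip, h, h1])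
    rw [ip_self] at this
    exact congrArg Q.r this
  · intro h
    refine mul_left_cancel₀ two_ne ?_
    rw [← hf_ip, ip_self, h, ← h1]; rfl

theorem hv_lm {u : Q} (hu : u.inI) {v : V} (h : v.inL) : hv (v.lm u) = hf u • hv v :=
  W_ext (hm_spec hu h.1).2 (hm_spec hu h.2.1).2 (hm_spec hu h.2.2.1).2

theorem hv_qr {s v : V} (hs : s.inL) (h : v.inL) : hv (s.qr v) = qrefl (hv s) (hv v) := by
  obtain ⟨c, hc, e⟩ := exists_of_mem (qip_even h.mem hs.mem)
  have : v.ip s = (c.add c).add (c.add c) := hf_inj (by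
    rw [hf_ip, hf_add, hf_add, e, cf_add_cf, two_mul])
  rw [V.qr, fq_eq, this, Q.half_add, Q.half_add, hv_sub, hv_lm hc hs, e, qrefl_eq]

theorem unit_iff {u : Q} : hf u * star (hf u) = 1 ↔ u.nrm = ⟨4, 0⟩ := by
  have h1 : hf (.sc (2 * 2)) = 2 * 1 := by rw [hf_sc]; norm_num
  constructor
  · intro h
    have : u.mul u.conj = .sc (2 * 2) := hf_inj (by rw [hf_mul, hf_conj, h, h1])
    rw [mul_conj] at this
    exact congrArg Q.r this
  · intro h
    refine mul_left_cancel₀ two_ne ?_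
    rw [← hf_conj, ← hf_mul, mul_conj, h, ← h1]; rfl

theorem nrm_mod {x : Q} (h : x.inI) : x.nrm.a % 4 = 0 := by
  obtain ⟨h1, h2⟩ := hm_spec h h.conj
  have h3 : x.mul x.conj = (x.hm x.conj).add (x.hm x.conj) :=
    hf_inj (by rw [hf_mul, hf_add, h2, two_mul])
  rw [Q.hm, mul_conj] at h1 h3
  have h4 := congrArg (fun q => q.r.a) h3
  simp only [Q.inI, Q.half, Zt.half, Q.add, Zt.add, Int.add_def] at h1 h4
  omega

theorem nrm_a (x : Q) : x.nrm.a = x.r.a * x.r.a + x.r.b * x.r.b + x.i.a * x.i.a + x.i.b * x.i.b +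
    x.j.a * x.j.a + x.j.b * x.j.b + x.k.a * x.k.a + x.k.b * x.k.b := by
  simp only [Q.nrm_def, Q.nrm0, Zt.add, Zt.mul, Int.add_def, Int.mul_def]; ring

theorem nrm_nonneg (x : Q) : 0 ≤ x.nrm.a := by simp only [nrm_a, ← sq]; positivity

end Cfsg.Agent.H5.J2
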