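import Cfsg.Agent.H5.J2C

/-! Classification of the minimal vectors and reflections. -/

set_option autoImplicit false

namespace Cfsg.Agent.H5.J2

open Cfsg.Spor Quaternion

attribute [local irreducible] U R UQ PQ gv Q.mul Q.nrm Q.hm

def Good (r : W) : Prop := ∃ k < 120, ∃ j < 315, r = hf (U k) • hv (R j)

theorem unit_U {u : ℍ[ℝ]} (hu : u ∈ icosians) (h : u * star u = 1) : ∃ k < 120, hf (U k) = u := by
  obtain ⟨X, hX, rfl⟩ := exists_of_mem hu
  have h1 := unit_iff.1 h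
  have h2 := (leaf_ok (by rw [h1]; decide) hX).2.2.1 h1
  rw [UQ_eq] at h2
  obtain ⟨k, hk, e⟩ := List.mem_map.1 h2
  exact ⟨k, List.mem_range.1 hk, by rw [e]⟩

theorem U_unit {k : ℕ} (hk : k < 120) : hf (U k) * star (hf (U k)) = 1 := unit_iff.2 (U_ok k hk).2

theorem Good.smul {r : W} (h : Good r) {u : ℍ[ℝ]} (hu : u ∈ icosians) (h1 : u * star u = 1) :
    Good (u • r) := by
  obtain ⟨k, hk, j, hj, rfl⟩ := h
  obtain ⟨l, hl, e⟩ := unit_U (mul_mem hu (mem_of_inI (U_ok k hk).1)) (by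
    rw [star_mul, mul_assoc, ← mul_assoc (hf _), U_unit hk, one_mul, h1])
  exact ⟨l, hl, j, hj, by rw [e, mul_smul]⟩

theorem Good.of_smul {r : W} {u : ℍ[ℝ]} (hu : u ∈ icosians) (h1 : u * star u = 1)
    (h : Good (star u • r)) : Good r := by
  have := h.smul hu h1
  rwa [smul_smul, h1, one_smul] at this

theorem good_gv (c : ℕ) : Good (hv (gv c)) := by
  have h1 := Nat.mod_lt c (show 0 < 120 by decide)
  have h2 := Nat.mod_lt (c / 120) (show 0 < 315 by decide)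
  exact ⟨_, h1, _, h2, by rw [gv, fn_eq, hv_lm (U_ok _ h1).1 (R_ok _ h2).1]⟩

theorem hf_one : hf one = 1 := by rw [one, hf_sc]; simp
theorem hf_zero : hf zero = 0 := by rw [zero, hf_sc]; simp

theorem good_R {j : ℕ} (hj : j < 315) : Good (hv (R j)) := by
  obtain ⟨k, hk, e⟩ := unit_U (one_mem icosians) (by simp)
  exact ⟨k, hk, j, hj, by rw [e, one_smul]⟩

theorem inP {y z : Q} (hy : y.inI) (hz : z.inI) (h1 : hf y - 1 ∈ leftIdeal icoH)
    (h2 : hf z - 1 ∈ leftIdeal icoH) (ha : y.nrm.a + z.nrm.a = 12) (hb : y.nrm.b + z.nrm.b = 0) :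
    y ∈ PQ := by
  rw [← hf_one, ← hf_sub, mem_H (hy.sub (by decide +kernel))] at h1
  rw [← hf_one, ← hf_sub, mem_H (hz.sub (by decide +kernel))] at h2
  have h0 : ¬ ((zero.sub one).hm HQ.conj).ev2 := by decide +kernel
  have a1 := nrm_mod hy
  have a2 := nrm_mod hz
  have a3 := nrm_nonneg y
  have a4 := nrm_nonneg z
  have a5 : y.nrm.a ≠ 0 := fun e => h0 ((leaf_ok (by omega) hy).2.2.2.1 e ▸ h1)
  have a6 : z.nrm.a ≠ 0 := fun e => h0 ((leaf_ok (by omega) hz).2.2.2.1 e ▸ h2)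
  have a7 := (leaf_ok (by omega) hz).1
  exact (leaf_ok (by omega) hy).2.2.2.2 (by omega) h1

theorem ns_a (v : V) : v.ns.a = v.x.nrm.a + v.y.nrm.a + v.z.nrm.a := rfl
theorem ns_b (v : V) : v.ns.b = v.x.nrm.b + v.y.nrm.b + v.z.nrm.b := rfl

theorem diff_mem {r : W} (h : r ∈ icoLeech) (s t : Fin 3) : r s - r t ∈ leftIdeal icoH := by
  have h0 : ∀ x : ℍ[ℝ], x - x ∈ leftIdeal icoH := fun x => ⟨0, zero_mem _, by simp⟩
  have h2 := h.2.1
  have h3 := h.2.2.1
  have h4 : r 0 - r 2 ∈ leftIdeal icoH := by convert ideal_add h2 h3 using 1; abel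
  have hn : ∀ x y : ℍ[ℝ], x - y ∈ leftIdeal icoH → y - x ∈ leftIdeal icoH := fun x y h => by
    convert ideal_neg h using 1; abel
  fin_cases s <;> fin_cases t
  exacts [h0 _, h2, h4, hn _ _ h2, h0 _, h3, hn _ _ h4, hn _ _ h3, h0 _]

theorem good_one {r : W} (h : r ∈ icoLeech) (h4 : qip r r = 4) (t : Fin 3) (h1 : r t = 1) :
    Good r := by
  obtain ⟨v, hL, rfl⟩ := exists_V h
  have hn := qip_iff.1 h4
  have ha := ns_a v
  have hb := ns_b v
  rw [hn] at ha hb
  have hc : cond v := ⟨hn, hL.2.2.2.2.2⟩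
  have d0 := diff_mem h 0 t
  have d1 := diff_mem h 1 t
  have d2 := diff_mem h 2 t
  rw [h1] at d0 d1 d2
  have n1 : one.nrm = ⟨4, 0⟩ := by decide +kernel
  obtain ⟨x, y, z⟩ := v
  obtain ⟨hx, hy, hz, -⟩ := hL
  dsimp only at ha hb hx hy hz
  fin_cases t
  · obtain rfl : x = one := hf_inj (h1.trans hf_one.symm)
    rw [n1] at ha hb
    dsimp only at ha hb
    obtain ⟨c, e⟩ := cand_spec c10 (inP hy hz d1 d2 (by omega) (by omega))
      (inP hz hy d2 d1 (by omega) (by omega)) hc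
    exact e ▸ good_gv c
  · obtain rfl : y = one := hf_inj (h1.trans hf_one.symm)
    rw [n1] at ha hb
    dsimp only at ha hb
    obtain ⟨c, e⟩ := cand_spec c11 (inP hx hz d0 d2 (by omega) (by omega))
      (inP hz hx d2 d0 (by omega) (by omega)) hc
    exact e ▸ good_gv c
  · obtain rfl : z = one := hf_inj (h1.trans hf_one.symm)
    rw [n1] at ha hb
    dsimp only at ha hb
    obtain ⟨c, e⟩ := cand_spec c12 (inP hx hy d0 d1 (by omega) (by omega))
      (inP hy hx d1 d0 (by omega) (by omega)) hc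
    exact e ▸ good_gv c

theorem qip_unit {u : ℍ[ℝ]} (h : u * star u = 1) {r : W} (h4 : qip r r = 4) :
    qip (u • r) (u • r) = 4 := by
  rw [qip_smul_left, qip_smul_right, h4, four_eq, add_mul, add_mul, add_mul, one_mul, mul_add,
    mul_add, mul_add, h]

theorem good_unit {r : W} (h : r ∈ icoLeech) (h4 : qip r r = 4) (t : Fin 3)
    (h1 : r t * star (r t) = 1) : Good r := by
  have h2 : star (r t) * r t = 1 := by rw [star_comm_self', h1]
  exact Good.of_smul (h.1 t) h1 (good_one (smul_mem_L (star_mem (h.1 t)) h)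
    (qip_unit (by rw [star_star, h2]) h4) t h2)

theorem good_zero (e : ℍ[ℝ] → ℍ[ℝ] → W) (he : ∀ c x y, c • e x y = e (c * x) (c * y))
    (h1 : ∀ w ∈ UQ, w.inI → w.nrm = ⟨4, 0⟩ → icoH + hf w * icoH ∈ leftIdeal (star icoH) →
      Good (e icoH (hf w * icoH))) (h2 : Good (e 2 0)) (h3 : Good (e 0 2)) {x y : ℍ[ℝ]}
    (hx : x ∈ leftIdeal icoH) (hy : y ∈ leftIdeal icoH) (hs : x + y ∈ leftIdeal (star icoH))
    (h4 : x * star x + y * star y = 4) : Good (e x y) := by
  have k1 : ∀ x, x ∈ leftIdeal icoH → x ∈ leftIdeal (star icoH) → x * star x = 4 →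
      ∃ c ∈ icosians, c * star c = 1 ∧ x = c * 2 := by
    intro x h1 h2 h4
    obtain ⟨c, hc, rfl⟩ := even_of_ideals
      (by obtain ⟨a, ha, rfl⟩ := h1; exact mul_mem ha H_mem) h1 h2
    refine ⟨c, hc, mul_left_cancel₀ two_ne (mul_left_cancel₀ two_ne ?_), (mul_two c).symm⟩
    rw [star_add, four_eq] at h4
    simp only [two_mul]
    linear_combination (norm := noncomm_ring) h4
  have hx' := hx
  have hy' := hy
  obtain ⟨a, ha, rfl⟩ := hx
  obtain ⟨b, hb, rfl⟩ := hy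
  obtain ⟨A, hA, rfl⟩ := exists_of_mem ha
  obtain ⟨B, hB, rfl⟩ := exists_of_mem hb
  have hn : V.ns ⟨A, B, zero⟩ = V.ns ⟨HQ, zero, zero⟩ := ns_eq_of_qip (by
    refine mul_left_cancel₀ two_ne ?_
    simp only [qip_eq, hv0, hv1, hv2, hf_zero, hf_H, H_star, zero_mul, add_zero, two_mul]
    have hk : icoH * star icoH = 1 + 1 := H_star.trans one_add_one_eq_two.symm
    rw [star_mul, star_mul, four_eq] at h4
    rw [← one_add_one_eq_two]
    generalize star icoH = k at *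
    linear_combination (norm := noncomm_ring) h4 - hf A * hk * star (hf A) - hf B * hk * star (hf B))
  rw [show V.ns ⟨HQ, zero, zero⟩ = ⟨8, 0⟩ by decide +kernel] at hn
  have na := ns_a ⟨A, B, zero⟩
  have nb := ns_b ⟨A, B, zero⟩
  rw [hn, show zero.nrm = ⟨0, 0⟩ by decide +kernel] at na nb
  dsimp only at na nb
  have a1 := nrm_mod hA
  have a2 := nrm_mod hB
  have a3 := nrm_nonneg A
  have a4 := nrm_nonneg B
  have lA := leaf_ok (X := A) (by omega) hA
  have lB := leaf_ok (X := B) (by omega) hB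
  by_cases a5 : A.nrm.a = 0
  · have e0 : hf A = 0 := by rw [lA.2.2.2.1 a5, hf_zero]
    rw [e0, zero_mul] at hs h4 ⊢
    obtain ⟨c, hc, h5, e1⟩ := k1 _ hy' (by simpa using hs) (by simpa using h4)
    have := h3.smul hc h5
    rwa [he, mul_zero, ← e1] at this
  by_cases a6 : B.nrm.a = 0
  · have e0 : hf B = 0 := by rw [lB.2.2.2.1 a6, hf_zero]
    rw [e0, zero_mul] at hs h4 ⊢
    obtain ⟨c, hc, h5, e1⟩ := k1 _ hx' (by simpa using hs) (by simpa using h4)
    have := h2.smul hc h5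
    rwa [he, mul_zero, ← e1] at this
  have b1 := lA.1 (by omega)
  have b2 := lB.1 (by omega)
  have uA : hf A * star (hf A) = 1 := unit_iff.2 (Zt.ext (by dsimp only; omega) (by dsimp only; omega))
  have uB : hf B * star (hf B) = 1 := unit_iff.2 (Zt.ext (by dsimp only; omega) (by dsimp only; omega))
  have uA' : star (hf A) * hf A = 1 := by rw [star_comm_self', uA]
  obtain ⟨w, hw, ew⟩ := exists_of_mem (mul_mem (star_mem ha) hb)
  have uw := unit_iff.1 (show hf w * star (hf w) = 1 by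
    rw [ew, star_mul, star_star, mul_assoc, ← mul_assoc (hf B), uB, one_mul, uA'])
  refine Good.of_smul ha uA ?_
  rw [he, ← mul_assoc, ← mul_assoc, uA', one_mul, ← ew]
  refine h1 w ((leaf_ok (by rw [uw]; decide) hw).2.2.1 uw) hw uw ?_
  have := ideal_smul (star_mem ha) hs
  rwa [mul_add, ← mul_assoc, ← mul_assoc, uA', one_mul, ← ew] at this

theorem cond_zero {w : Q} (hw : w.inI) (hn : w.nrm = ⟨4, 0⟩) {v : V} (hx : v.x.inI) (hy : v.y.inI)
    (hz : v.z.inI) (h1 : hf v.x + hf v.y + hf v.z = icoH + hf w * icoH)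
    (h2 : qip (hv v) (hv v) = icoH * star icoH + hf w * icoH * star (hf w * icoH))
    (h : icoH + hf w * icoH ∈ leftIdeal (star icoH)) : cond v := by
  refine ⟨qip_iff.1 ?_, (mem_Hb ((hx.add hy).add hz)).1 (by rwa [hf_add, hf_add, h1])⟩
  rw [h2, star_mul, mul_assoc, ← mul_assoc icoH, H_star, two_mul, mul_add, unit_iff.2 hn]
  norm_num

theorem good_of_min {r : W} (h : r ∈ icoLeech) (h4 : qip r r = 4) : Good r := by
  by_cases hu : ∃ t, r t * star (r t) = 1
  · obtain ⟨t, ht⟩ := hu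
    exact good_unit h h4 t ht
  obtain ⟨v, hL, rfl⟩ := exists_V h
  have hn := qip_iff.1 h4
  have ha := ns_a v
  have hb := ns_b v
  rw [hn] at ha hb
  dsimp only at ha hb
  have k : ∀ x : Q, x.inI → ¬ hf x * star (hf x) = 1 → x.nrm.a % 4 = 0 ∧ 0 ≤ x.nrm.a ∧
      (x.nrm.a = 4 → x.nrm.b = 4) ∧ (x.nrm.a = 8 → -4 ≤ x.nrm.b) ∧ (x.nrm.a = 0 → hf x = 0) :=
    fun x hx h1 => ⟨nrm_mod hx, nrm_nonneg x, fun e => ((leaf_ok (by omega) hx).1 e).resolve_left
      fun e' => h1 (unit_iff.2 (Zt.ext e e')), fun e => (leaf_ok (by omega) hx).2.1 e,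
      fun e => by rw [(leaf_ok (by omega) hx).2.2.2.1 e, hf_zero]⟩
  obtain ⟨x1, x2, x3, x4, x5⟩ := k _ hL.1 fun e => hu ⟨0, e⟩
  obtain ⟨y1, y2, y3, y4, y5⟩ := k _ hL.2.1 fun e => hu ⟨1, e⟩
  obtain ⟨z1, z2, z3, z4, z5⟩ := k _ hL.2.2.1 fun e => hu ⟨2, e⟩
  have h2 : hf (.sc (2 * 2)) = 2 := by rw [hf_sc]; norm_num
  have g0 : hv (R 0) = ![2, 0, 0] := by rw [R_e.1]; exact W_ext h2 hf_zero hf_zero
  have g1 : hv (R 206) = ![0, 2, 0] := by rw [R_e.2.1]; exact W_ext hf_zero h2 hf_zero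
  have g2 : hv (R 177) = ![0, 0, 2] := by rw [R_e.2.2]; exact W_ext hf_zero hf_zero h2
  have hH : HQ.inI := by decide +kernel
  have h0 : zero.inI := by decide +kernel
  have hs := h.2.2.2
  rw [qip_eq] at h4
  simp only [hv0, hv1, hv2] at hs h4
  have : v.x.nrm.a = 0 ∨ v.y.nrm.a = 0 ∨ v.z.nrm.a = 0 := by omega
  rcases this with e | e | e
  · have d1 := diff_mem h 1 0
    have d2 := diff_mem h 2 0
    simp only [hv0, hv1, hv2, x5 e, sub_zero, zero_add, zero_mul] at d1 d2 hs h4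
    rw [show hv v = ![0, hf v.y, hf v.z] from W_ext (x5 e) rfl rfl]
    refine good_zero (fun x y => ![0, x, y]) (fun c x y => W_ext (mul_zero c) rfl rfl)
      (fun w hw h1 h2 h3 => ?_) (g1 ▸ good_R (by decide)) (g2 ▸ good_R (by decide)) d1 d2 hs h4
    obtain ⟨h5, h6⟩ := hm_spec h1 hH
    obtain ⟨c, e⟩ := cand_spec c00 (List.mem_singleton_self _) hw (cond_zero (v := ⟨zero, HQ, w.hm HQ⟩) h1 h2
      h0 hH h5
      (by simp [hf_zero, hf_H, h6]) (by simp [qip_eq, hf_zero, hf_H, h6]) h3)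
    have := good_gv c
    rwa [e, show hv ⟨zero, HQ, w.hm HQ⟩ = ![0, icoH, hf w * icoH] from
      W_ext hf_zero hf_H (h6.trans (by rw [hf_H]; rfl))] at this
  · have d1 := diff_mem h 0 1
    have d2 := diff_mem h 2 1
    simp only [hv0, hv1, hv2, y5 e, sub_zero, add_zero, zero_mul] at d1 d2 hs h4
    rw [show hv v = ![hf v.x, 0, hf v.z] from W_ext rfl (y5 e) rfl]
    refine good_zero (fun x y => ![x, 0, y]) (fun c x y => W_ext rfl (mul_zero c) rfl)
      (fun w hw h1 h2 h3 => ?_) (g0 ▸ good_R (by decide)) (g2 ▸ good_R (by decide)) d1 d2 hs h4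
    obtain ⟨h5, h6⟩ := hm_spec h1 hH
    obtain ⟨c, e⟩ := cand_spec c01 (List.mem_singleton_self _) hw (cond_zero (v := ⟨HQ, zero, w.hm HQ⟩) h1 h2
      hH h0 h5
      (by simp [hf_zero, hf_H, h6]) (by simp [qip_eq, hf_zero, hf_H, h6]) h3)
    have := good_gv c
    rwa [e, show hv ⟨HQ, zero, w.hm HQ⟩ = ![icoH, 0, hf w * icoH] from
      W_ext hf_H hf_zero (h6.trans (by rw [hf_H]; rfl))] at this
  · have d1 := diff_mem h 0 2
    have d2 := diff_mem h 1 2
    simp only [hv0, hv1, hv2, z5 e, sub_zero, add_zero, zero_mul] at d1 d2 hs h4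
    rw [show hv v = ![hf v.x, hf v.y, 0] from W_ext rfl rfl (z5 e)]
    refine good_zero (fun x y => ![x, y, 0]) (fun c x y => W_ext rfl rfl (mul_zero c))
      (fun w hw h1 h2 h3 => ?_) (g0 ▸ good_R (by decide)) (g1 ▸ good_R (by decide)) d1 d2 hs h4
    obtain ⟨h5, h6⟩ := hm_spec h1 hH
    obtain ⟨c, e⟩ := cand_spec c02 (List.mem_singleton_self _) hw (cond_zero (v := ⟨HQ, w.hm HQ, zero⟩) h1 h2
      hH h5 h0
      (by simp [hf_zero, hf_H, h6]) (by simp [qip_eq, hf_zero, hf_H, h6]) h3)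
    have := good_gv c
    rwa [e, show hv ⟨HQ, w.hm HQ, zero⟩ = ![icoH, hf w * icoH, 0] from
      W_ext hf_H (h6.trans (by rw [hf_H]; rfl)) hf_zero] at this

theorem R_mem {j : ℕ} (hj : j < 315) : hv (R j) ∈ icoLeech := (R_ok j hj).1.mem
theorem R_qip {j : ℕ} (hj : j < 315) : qip (hv (R j)) (hv (R j)) = 4 := qip_iff.2 (R_ok j hj).2

/-- the reflections -/
noncomputable def F (j : Fin 315) : Equiv.Perm icoLeech := reflP (R_mem j.2) (R_qip j.2)

theorem F_apply (j : Fin 315) (x : icoLeech) : (F j x : W) = qrefl (hv (R j)) x := rfl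

theorem isRefl_iff {f : Equiv.Perm icoLeech} : IsIcoReflection f ↔ ∃ j, F j = f := by
  constructor
  · rintro ⟨r, h4, e⟩
    obtain ⟨k, hk, j, hj, e'⟩ := good_of_min r.2 h4
    exact ⟨⟨j, hj⟩, Equiv.ext fun x => Subtype.ext (by rw [e, e', qrefl_unit (U_unit hk), F_apply])⟩
  · rintro ⟨j, rfl⟩
    exact ⟨⟨_, R_mem j.2⟩, R_qip j.2, fun _ => rfl⟩

theorem inj_of_qrefl {i j : ℕ} (hi : i < 315) (hj : j < 315)
    (h : qrefl (hv (R i)) (hv xg) = qrefl (hv (R j)) (hv xg)) : i = j := by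
  rw [← hv_qr (R_ok i hi).1 xg_ok, ← hv_qr (R_ok j hj).1 xg_ok] at h
  have h1 := congrArg hash (hv_inj h)
  rw [hash_eq i hi, hash_eq j hj, List.getD_eq_getElem _ _ (HL_len ▸ hi),
    List.getD_eq_getElem _ _ (HL_len ▸ hj)] at h1
  exact (HL_nodup.getElem_inj_iff).1 h1

theorem F_inj : Function.Injective F := fun i j h => Fin.ext (inj_of_qrefl i.2 j.2 (by
  have := congrArg (fun f : Equiv.Perm icoLeech => (f ⟨_, xg_ok.mem⟩ : W)) h
  exact this))

theorem F_sq (j : Fin 315) : F j * F j = 1 :=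
  Equiv.ext fun x => Subtype.ext (qrefl_qrefl (R_qip j.2) x)

theorem gs_lt (s : Fin 4) : gs s < 315 := by revert s; decide

/-- the generating reflections -/
noncomputable def Fg (s : Fin 4) : Equiv.Perm icoLeech := F ⟨gs s, gs_lt s⟩

theorem F_conj (j : Fin 315) :
    ∃ g ∈ Subgroup.closure (Set.range Fg), g * F 0 * g⁻¹ = F j := by
  obtain ⟨j, hj⟩ := j
  induction j using Nat.strong_induction_on with
  | _ j ih =>
    rcases Nat.eq_zero_or_pos j with rfl | h0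
    · exact ⟨1, one_mem _, by simp⟩
    obtain ⟨h1, h2⟩ := tree j hj h0
    generalize (⟨TL.getD j 0 % 4, _⟩ : Fin 4) = s at h2
    have hk := Nat.mod_lt (TL.getD j 0 / 4) (show 0 < 120 by decide)
    generalize TL.getD j 0 / 4 % 120 = k at h2 hk
    generalize TL.getD j 0 / 480 = i at h1 h2
    obtain ⟨g, hg, e⟩ := ih i h1 (by omega)
    refine ⟨Fg s * g, mul_mem (Subgroup.subset_closure ⟨s, rfl⟩) hg, ?_⟩
    rw [mul_inv_rev, mul_assoc, mul_assoc, ← mul_assoc (F 0), ← mul_assoc g, ← mul_assoc g, e,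
      ← mul_assoc, mul_inv_eq_iff_eq_mul]
    have h3 := congrArg hv h2
    rw [hv_qr (R_ok _ (gs_lt s)).1 (R_ok i (by omega)).1, hv_lm (U_ok k hk).1 (R_ok j hj).1] at h3
    refine Equiv.ext fun x => Subtype.ext ?_
    change qrefl _ (qrefl _ _) = qrefl _ (qrefl _ _)
    rw [← qrefl_conj (R_qip (gs_lt s)), h3, qrefl_unit (U_unit hk)]

theorem closure_Fg : Subgroup.closure (Set.range Fg) = twoJ2 := by
  refine le_antisymm (Subgroup.closure_mono ?_) ((Subgroup.closure_le _).2 ?_)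
  · rintro _ ⟨s, rfl⟩; exact isRefl_iff.2 ⟨_, rfl⟩
  · intro f hf
    obtain ⟨j, rfl⟩ := isRefl_iff.1 hf
    obtain ⟨g, hg, e⟩ := F_conj j
    exact e ▸ mul_mem (mul_mem hg (Subgroup.subset_closure ⟨0, rfl⟩)) (inv_mem hg)

theorem card_refl : {f : Equiv.Perm icoLeech | IsIcoReflection f}.ncard = 315 := by
  have : {f : Equiv.Perm icoLeech | IsIcoReflection f} = Set.range F := Set.ext fun f => isRefl_iff
  rw [this, Set.ncard_range_of_injective F_inj]; simp

theorem card_min : {r : W | r ∈ icoLeech ∧ qip r r = 4}.ncard = 37800 := by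
  let f : Fin 120 × Fin 315 → W := fun p => hf (U p.1) • hv (R p.2)
  have h1 : {r : W | r ∈ icoLeech ∧ qip r r = 4} = Set.range f := by
    ext r
    constructor
    · rintro ⟨h, h4⟩
      obtain ⟨k, hk, j, hj, e⟩ := good_of_min h h4
      exact ⟨(⟨k, hk⟩, ⟨j, hj⟩), e.symm⟩
    · rintro ⟨⟨k, j⟩, rfl⟩
      exact ⟨smul_mem_L (mem_of_inI (U_ok _ k.2).1) (R_mem j.2), qip_unit (U_unit k.2) (R_qip j.2)⟩
  have h2 : Function.Injective f := by
    rintro ⟨k, i⟩ ⟨l, j⟩ e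
    have e1 : hf (U k) • hv (R i) = hf (U l) • hv (R j) := e
    obtain rfl : i = j := Fin.ext (inj_of_qrefl i.2 j.2 (by
      rw [← qrefl_unit (U_unit k.2), e1, qrefl_unit (U_unit l.2)]))
    have e2 := congrArg (fun x => qip x (hv (R i))) e1
    simp only [qip_smul_left, R_qip i.2] at e2
    have e3 := hf_inj (mul_right_cancel₀ (by
      rw [show (4 : ℍ[ℝ]) = 2 * 2 by norm_num]; exact mul_ne_zero two_ne two_ne) e2)
    obtain rfl : k = l := by
      rcases lt_trichotomy k l with h | h | h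
      · exact absurd e3.symm (U_ne _ l.2 _ h)
      · exact h
      · exact absurd e3 (U_ne _ k.2 _ h)
    rfl
  rw [h1, Set.ncard_range_of_injective h2]; simp

end Cfsg.Agent.H5.J2
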