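import Cfsg.Agent.H5.J2D

/-! A faithful representation of the icosian reflection group over the field with 11 elements. -/

set_option autoImplicit false

namespace Cfsg.Agent.H5.J2

open Cfsg.Spor Quaternion

def ofc (c : Fin 24 → ℤ) : V :=
  ⟨⟨⟨c 0, c 1⟩, ⟨c 2, c 3⟩, ⟨c 4, c 5⟩, ⟨c 6, c 7⟩⟩, ⟨⟨c 8, c 9⟩, ⟨c 10, c 11⟩, ⟨c 12, c 13⟩, ⟨c 14, c 15⟩⟩,
    ⟨⟨c 16, c 17⟩, ⟨c 18, c 19⟩, ⟨c 20, c 21⟩, ⟨c 22, c 23⟩⟩⟩

def toc (v : V) : Fin 24 → ℤ := ![v.x.r.a, v.x.r.b, v.x.i.a, v.x.i.b, v.x.j.a, v.x.j.b, v.x.k.a,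
  v.x.k.b, v.y.r.a, v.y.r.b, v.y.i.a, v.y.i.b, v.y.j.a, v.y.j.b, v.y.k.a, v.y.k.b,
  v.z.r.a, v.z.r.b, v.z.i.a, v.z.i.b, v.z.j.a, v.z.j.b, v.z.k.a, v.z.k.b]

theorem ofc_toc (v : V) : ofc (toc v) = v := rfl

theorem toc_ofc (c : Fin 24 → ℤ) : toc (ofc c) = c := by
  funext i; fin_cases i <;> rfl

noncomputable def hz : (Fin 24 → ℤ) →+ W := AddMonoidHom.mk' (fun c => hv (ofc c)) fun a b =>
  hv_add (ofc a) (ofc b)

theorem hz_apply (c : Fin 24 → ℤ) : hz c = hv (ofc c) := rfl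

theorem hz_inj : Function.Injective hz := fun a b h => by
  rw [← toc_ofc a, hv_inj h, toc_ofc]

theorem ns_ofc (c : Fin 24 → ℤ) : (ofc c).ns.a = ∑ i, c i * c i := by
  simp only [ns_a, nrm_a, ofc, Fin.sum_univ_succ, Fin.sum_univ_zero]
  simp only [Fin.succ_zero_eq_one, Fin.succ_one_eq_two, Fin.reduceSucc]
  ring

def bc (a : Fin 24) : Fin 24 → ℤ := fun i => if i = a then 4 else 0

theorem bc_ok : ∀ a, (ofc (bc a)).inL ∧ (ofc (bc a)).ns.a = 16 := by decide +kernel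

noncomputable def bs (a : Fin 24) : icoLeech := ⟨hz (bc a), (bc_ok a).1.mem⟩

noncomputable def cz (x : icoLeech) : Fin 24 → ℤ := toc (exists_V x.2).choose

theorem hz_cz (x : icoLeech) : hz (cz x) = x := (exists_V x.2).choose_spec.2

theorem four_smul (c : Fin 24 → ℤ) : (4 : ℤ) • c = ∑ a, c a • bc a := by
  funext i; simp [bc, Finset.sum_apply, mul_comm]

def Lin (g : Equiv.Perm icoLeech) : Prop :=
  ∃ L : W →+ W, (∀ x : icoLeech, (g x : W) = L x) ∧ ∀ x, qip (L x) (L x) = qip x x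

theorem lin_of_mem {g : Equiv.Perm icoLeech} (hg : g ∈ twoJ2) : Lin g := by
  refine closure_ind_fin (fun f hf => ?_) ⟨.id _, fun _ => rfl, fun _ => rfl⟩ ?_ g hg
  · obtain ⟨j, rfl⟩ := isRefl_iff.1 hf
    exact isOfFinOrder_iff_pow_eq_one.2 ⟨2, two_pos, by rw [sq, F_sq]⟩
  · rintro f ⟨r, h4, e⟩ g ⟨L, h1, h2⟩
    refine ⟨(AddMonoidHom.mk' (qrefl r) (qrefl_add r)).comp L, fun x => ?_, fun x => ?_⟩
    · rw [Equiv.Perm.mul_apply, e, h1]; rfl
    · exact (qip_qrefl h4 _ _).trans (h2 x)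

theorem Lin.exp {g : Equiv.Perm icoLeech} (h : Lin g) (x : icoLeech) :
    (4 : ℤ) • cz (g x) = ∑ a, cz x a • cz (g (bs a)) := by
  obtain ⟨L, h1, -⟩ := h
  apply hz_inj
  rw [map_zsmul, hz_cz, h1, ← hz_cz x, ← map_zsmul, ← map_zsmul, four_smul, map_sum, map_sum,
    map_sum]
  exact Finset.sum_congr rfl fun a _ => by rw [map_zsmul, map_zsmul, map_zsmul, hz_cz, h1]; rfl

theorem cz_bs (a : Fin 24) : cz (bs a) = bc a := hz_inj (hz_cz _)

theorem Lin.small {g : Equiv.Perm icoLeech} (h : Lin g) (a i : Fin 24) :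
    -4 ≤ cz (g (bs a)) i ∧ cz (g (bs a)) i ≤ 4 := by
  obtain ⟨L, h1, h2⟩ := h
  have h3 : (ofc (cz (g (bs a)))).ns = (ofc (bc a)).ns := ns_eq_of_qip (by
    rw [← hz_apply, hz_cz, h1, h2]; rfl)
  have h4 := congrArg Zt.a h3
  rw [(bc_ok a).2, ns_ofc] at h4
  have h5 := Finset.single_le_sum (f := fun i => cz (g (bs a)) i * cz (g (bs a)) i)
    (fun i _ => mul_self_nonneg _) (Finset.mem_univ i)
  constructor <;> nlinarith

/-- the representation -/
noncomputable def φ : twoJ2 →* Matrix (Fin 24) (Fin 24) (ZMod 11) where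
  toFun g := .of fun i a => 3 * (cz (g.1 (bs a)) i : ℤ)
  map_one' := by
    funext i a
    simp only [OneMemClass.coe_one, Equiv.Perm.one_apply, cz_bs, bc, Matrix.of_apply,
      Matrix.one_apply]
    split_ifs <;> decide
  map_mul' g h := by
    funext i a
    have := congrArg (Int.cast : ℤ → ZMod 11) (congrFun ((lin_of_mem g.2).exp (h.1 (bs a))) i)
    simp only [Finset.sum_apply, Pi.smul_apply, smul_eq_mul] at this
    push_cast at this
    simp only [Matrix.mul_apply, Matrix.of_apply, Subgroup.coe_mul, Equiv.Perm.mul_apply]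
    rw [show (3 : ZMod 11) = 9 * 4 by decide, mul_assoc, this, Finset.mul_sum]
    exact Finset.sum_congr rfl fun b _ => by
      rw [show (9 * 4 : ZMod 11) = 3 by decide]; ring

theorem act_of_scalar {g : twoJ2} {e : ℤ} (he : e = 1 ∨ e = -1) (h : φ g = e • 1) (x : icoLeech) :
    (g.1 x : W) = e • (x : W) := by
  have h1 : ∀ a, cz (g.1 (bs a)) = e • bc a := fun a => funext fun i => by
    have h2 : 3 * ((cz (g.1 (bs a)) i : ℤ) : ZMod 11) = _ := congrFun (congrFun h i) a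
    obtain ⟨h3, h4⟩ := (lin_of_mem g.2).small a i
    simp only [Matrix.smul_apply, Matrix.one_apply, Pi.smul_apply, bc] at h2 ⊢
    generalize cz (g.1 (bs a)) i = c at *
    rcases he with rfl | rfl <;> split_ifs at h2 ⊢ <;> interval_cases c <;> revert h2 <;> decide
  have h2 := (lin_of_mem g.2).exp x
  simp only [h1, smul_comm _ e, ← Finset.smul_sum, ← four_smul] at h2
  rw [smul_comm] at h2
  rw [← hz_cz, smul_right_injective _ (by norm_num) h2, map_zsmul, hz_cz]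

theorem φ_inj : Function.Injective φ := (injective_iff_map_eq_one φ).2 fun g h =>
  Subtype.ext (Equiv.ext fun x => Subtype.ext (by
    rw [act_of_scalar (Or.inl rfl) (by rw [h, one_smul]), one_smul]; rfl))

instance : Finite twoJ2 := Finite.of_injective φ φ_inj

theorem F_mem (j : Fin 315) : F j ∈ twoJ2 := Subgroup.subset_closure (isRefl_iff.2 ⟨j, rfl⟩)

theorem φ_F (j : Fin 315) : φ ⟨F j, F_mem j⟩ =
    fun i a => 3 * ((toc ((R j).qr (ofc (bc a))) i : ℤ) : ZMod 11) := by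
  funext i a
  change 3 * ((cz (F j (bs a)) i : ℤ) : ZMod 11) = _
  rw [hz_inj (a₁ := cz (F j (bs a))) (a₂ := toc ((R j).qr (ofc (bc a)))) (by
    rw [hz_cz, hz_apply, ofc_toc, hv_qr (R_ok j j.2).1 (bc_ok a).1]; rfl)]

end Cfsg.Agent.H5.J2
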