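import Cfsg.Agent.H5.J2E
import Cfsg.Agent.H5.J2xS

/-! Order, centre and simplicity for the icosian reflection group. -/

set_option autoImplicit false
set_option maxRecDepth 100000

namespace Cfsg.Agent.H5.J2

open Cfsg.Spor Quaternion Mdl

noncomputable abbrev m0 := c24md φ φ_inj

noncomputable def gm (s : Fin 4) : Matrix (Fin 24) (Fin 24) (ZMod 11) :=
  fun i a => 3 * ((toc ((R (gs s)).qr (ofc (bc a))) i : ℤ) : ZMod 11)

theorem gm0 : ∀ a i, gm 0 i a = c24.ev (ZMod 11) 24 (ag0 0) i a := by decide +kernel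
theorem gm1 : ∀ a i, gm 1 i a = c24.ev (ZMod 11) 24 (ag0 1) i a := by decide +kernel
theorem gm2 : ∀ a i, gm 2 i a = c24.ev (ZMod 11) 24 (ag0 2) i a := by decide +kernel
theorem gm3 : ∀ a i, gm 3 i a = c24.ev (ZMod 11) 24 (ag0 3) i a := by decide +kernel

theorem φ_Fg (s : Fin 4) : m0.φ ⟨Fg s, F_mem _⟩ = m0.ev (ag0 s) := by
  refine (φ_F ⟨gs s, gs_lt s⟩).trans (funext fun i => funext fun a => ?_)
  fin_cases s
  exacts [gm0 a i, gm1 a i, gm2 a i, gm3 a i]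

theorem h0 : ∀ s < 4, m0.In ⊤ (ag0 s) := fun s hs => ⟨_, Subgroup.mem_top _, φ_Fg ⟨s, hs⟩⟩

theorem ht : m0.gn ag0 4 = ⊤ := by
  rw [eq_top_iff]
  rintro ⟨g, hg⟩ -
  have : Subgroup.closure (Set.range Fg) ≤ (m0.gn ag0 4).map twoJ2.subtype := by
    rw [Subgroup.closure_le]
    rintro _ ⟨s, rfl⟩
    exact ⟨_, (in_gn h0 s s.2).mem (φ_Fg s), rfl⟩
  obtain ⟨x, hx, rfl⟩ := this (closure_Fg.symm ▸ hg)
  exact hx

theorem card_G : Nat.card twoJ2 = 1209600 := by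
  rw [← Subgroup.card_top, ← ht]; exact (aex0 h0).2.2.1

theorem card_K : Nat.card (m0.gn ag1 2) = 12096 := (aex0 h0).2.2.2

theorem ev_z : c24.ev (ZMod 11) 24 (zt 0) = -1 := by decide +kernel
theorem ag4_eq : ∀ s < 2, ag4 s = zt 0 := by decide +kernel

theorem in_z : m0.In (m0.gn ag4 2) (zt 0) := ag4_eq 0 two_pos ▸ aeg4 h0 0

/-- the central involution -/
noncomputable def z : twoJ2 := m0.elt (zt 0)

theorem φ_z : φ z = -1 := in_z.elt.trans ev_z

theorem z_mem : z ∈ Subgroup.center twoJ2 :=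
  Subgroup.mem_center_iff.2 fun g => φ_inj (by simp [φ_z])

theorem nc : c24.mul (ag1 0) (ag1 1) ≠ c24.mul (ag1 1) (ag1 0) ∧
    c24.mul (ag1 0) (ag1 1) ≠ c24.mul (c24.mul (ag1 1) (ag1 0)) (zt 0) := by decide +kernel

theorem canon : m0.Canon := @Cfg.Ok.canon _ _ c24 c24_ok _ _ (ZMod.charP 11) _ rfl rfl φ φ_inj

theorem Z_le : m0.gn ag4 2 ≤ Subgroup.zpowers z := gn_le fun s hs =>
  ⟨z, Subgroup.mem_zpowers _, by rw [ag4_eq s hs]; exact in_z.elt⟩

theorem simple : Subgroup.center twoJ2 = m0.gn ag4 2 ∧ IsSimpleGroup Cfsg.Spor.J2 := by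
  refine simple_of_dichotomy _ (Z_le.trans (Subgroup.zpowers_le.2 z_mem))
    (normal_dichotomy _ _ 5 (by rw [card_K]; norm_num) (amax h0 ht) (acore4 h0) fun N _ hN => ?_)
    ⟨m0.elt (ag1 0), m0.elt (ag1 1), fun e => ne_of_canon canon nc.1 ?_⟩
  · rw [eq_top_iff, ← ht]
    exact (gn_le (in_of_chkP hN ((ael0 h0).mono le_top) aP)).trans le_sup_left
  · rw [← (aeg1 h0 0).elt, ← (aeg1 h0 1).elt, ← map_mul, e, map_mul]

theorem card_Z : Nat.card (Subgroup.center twoJ2) = 2 := simple.1 ▸ (aex3 h0).2.2.2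

theorem z_ne : z ≠ 1 := fun h => by
  have := congrFun (congrFun (φ_z.symm.trans (congrArg φ h)) 0) 0
  rw [map_one] at this
  revert this; decide

theorem mem_Z {g : twoJ2} (h : g ∈ Subgroup.center twoJ2) : g = 1 ∨ g = z := by
  obtain ⟨y, -, hy⟩ := (Nat.card_eq_two_iff' (1 : Subgroup.center twoJ2)).1 card_Z
  by_cases h1 : g = 1
  · exact Or.inl h1
  · exact Or.inr (congrArg Subtype.val ((hy ⟨g, h⟩ fun e => h1 (congrArg Subtype.val e)).trans
      (hy ⟨z, z_mem⟩ fun e => z_ne (congrArg Subtype.val e)).symm))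

theorem noncomm : ∃ a b : Cfsg.Spor.J2, a * b ≠ b * a := by
  refine ⟨(m0.elt (ag1 0) : twoJ2), (m0.elt (ag1 1) : twoJ2), fun e => ?_⟩
  rw [← QuotientGroup.mk_mul, ← QuotientGroup.mk_mul, eq_comm, QuotientGroup.eq] at e
  rcases mem_Z e with e | e
  · refine ne_of_canon canon nc.1 ?_
    rw [← (aeg1 h0 0).elt, ← (aeg1 h0 1).elt, ← map_mul, ← inv_mul_eq_one.1 e, map_mul]
  · refine ne_of_canon canon nc.2 ?_
    rw [show m0.ev (c24.mul (ag1 1) (ag1 0)) = _ from m0.ev_mul _ _, ← (aeg1 h0 0).elt,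
      ← (aeg1 h0 1).elt, ← in_z.elt, ← map_mul,
      inv_mul_eq_iff_eq_mul.1 e, map_mul, map_mul, z]

theorem card_J2 : Nat.card Cfsg.Spor.J2 = 604800 := by
  have := (Subgroup.center twoJ2).card_eq_card_quotient_mul_card_subgroup
  rw [card_G, card_Z] at this
  change Nat.card (twoJ2 ⧸ Subgroup.center twoJ2) = _
  omega

end Cfsg.Agent.H5.J2
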