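import Cfsg.Agent.H5.J2F
import Cfsg.Agent.H2.PGroup
import Cfsg.Prelude.Def_Transfer

/-! The centraliser of a reflection. -/

set_option autoImplicit false
set_option maxRecDepth 100000

namespace Cfsg.Agent.H5

open Subgroup
open scoped commutatorElement

theorem extraspecial_of {P : Type*} [Group P] [Finite P] {k : ℕ} (hc : Nat.card P = 2 ^ (k + 2))
    {t : P} (h1 : t ≠ 1) (h2 : t * t = 1) (h3 : t ∈ center P) (ha : ∀ x : P, x * x = 1 ∨ x * x = t)
    (hb : ∀ x ∈ center P, x = 1 ∨ x = t) : Cfsg.IsExtraspecial 2 P := by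
  have hp : IsPGroup 2 P := IsPGroup.of_card hc
  have hz : Nat.card (center P) = 2 := (Nat.card_eq_two_iff' 1).2 ⟨⟨t, h3⟩,
    fun e => h1 (congrArg Subtype.val e), fun y hy =>
      Subtype.ext ((hb y y.2).resolve_left fun e => hy (Subtype.ext e))⟩
  have hs : ∀ x : P, x * x ∈ center P := fun x => by
    rcases ha x with e | e <;> rw [e]
    exacts [one_mem _, h3]
  have h4 : commutator P ≤ center P := commutator_le.2 fun x _ y _ => by
    have : ⁅x, y⁆ = x * x * (x⁻¹ * y * (x⁻¹ * y)) * (y * y)⁻¹ := by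
      rw [commutatorElement_def]; group
    rw [this]
    exact mul_mem (mul_mem (hs _) (hs _)) (inv_mem (hs _))
  have h5 : center P ≤ commutator P := by
    by_contra h
    have h6 : commutator P = ⊥ := by
      rw [eq_bot_iff]
      intro x hx
      rcases hb x (h4 hx) with e | e
      · exact e
      · exact absurd (fun y hy => by
          rcases hb y hy with e' | e' <;> rw [e']
          exacts [one_mem _, e ▸ hx]) h
    rw [commutator_eq_bot_iff_center_eq_top] at h6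
    rw [h6, card_top, hc, pow_add] at hz
    omega
  exact ⟨⟨hp, le_antisymm (H2.frattini_le_of_commutator_le_of_pow_mem (p := 2) h4
    fun x => by rw [sq]; exact hs x) (h5.trans (H2.commutator_le_frattini hp)),
    le_antisymm h4 h5⟩, hz⟩

theorem extra_quot {C B A : Type*} [Group C] [Group B] [Group A] [Finite C] (π : C →* B)
    (hπ : Function.Surjective π) (ψ : C →* A) (hψ : Function.Surjective ψ) {z f : C}
    (hk : ∀ x, π x = 1 ↔ x = 1 ∨ x = z) (hz : ψ z = 1) (hf : ψ f = 1) (hc : Nat.card ψ.ker = 64)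
    (z1 : z ≠ 1) (f1 : f ≠ 1) (fz : f ≠ z) (f2 : f * f = 1) (fc : ∀ x, x * f = f * x)
    (ha : ∀ x ∈ ψ.ker, x * x = 1 ∨ x * x = z ∨ x * x = f ∨ x * x = f * z)
    (hb : ∀ x ∈ ψ.ker, (x = 1 ∨ x = z ∨ x = f ∨ x = f * z) ∨
      ∃ y ∈ ψ.ker, x * y ≠ y * x ∧ x * y ≠ y * x * z) :
    ∃ (Q : Subgroup B) (_ : Q.Normal), Nat.card Q = 32 ∧ Cfsg.IsExtraspecial 2 Q ∧
      Nonempty (B ⧸ Q ≃* A) := by
  have : Finite B := Finite.of_surjective π hπ
  have hle : π.ker ≤ ψ.ker := fun x hx => by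
    rcases (hk x).1 hx with rfl | rfl
    exacts [one_mem _, hz]
  let χ : B →* A := π.liftOfSurjective hπ ⟨ψ, hle⟩
  have hχ : ∀ x, χ (π x) = ψ x := fun x => π.liftOfRightInverse_comp_apply _ _ ⟨ψ, hle⟩ x
  let ρ : ψ.ker →* χ.ker := (π.comp ψ.ker.subtype).codRestrict _ fun x => (hχ x).trans x.2
  have hρ : Function.Surjective ρ := fun ⟨y, hy⟩ => by
    obtain ⟨x, rfl⟩ := hπ y
    exact ⟨⟨x, (hχ x).symm.trans hy⟩, rfl⟩
  have πz : π z = 1 := (hk z).2 (Or.inr rfl)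
  have h2 : Nat.card ρ.ker = 2 := (Nat.card_eq_two_iff' 1).2
    ⟨⟨⟨z, hz⟩, Subtype.ext πz⟩, fun e => z1 (congrArg (fun x => x.1.1) e), fun y hy =>
      Subtype.ext (Subtype.ext (((hk _).1 (congrArg Subtype.val y.2)).resolve_left
        fun e => hy (Subtype.ext (Subtype.ext e))))⟩
  have h3 : Nat.card χ.ker = 32 := by
    have := ρ.ker.card_eq_card_quotient_mul_card_subgroup
    rw [hc, h2, Nat.card_congr (QuotientGroup.quotientKerEquivOfSurjective ρ hρ).toEquiv] at this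
    omega
  have key : ∀ x : ψ.ker, (x.1 = 1 ∨ x.1 = z ∨ x.1 = f ∨ x.1 = f * z) →
      ρ x = 1 ∨ ρ x = ρ ⟨f, hf⟩ := by
    rintro ⟨x, hx⟩ (rfl | rfl | rfl | rfl)
    exacts [Or.inl (map_one ρ), Or.inl (Subtype.ext πz), Or.inr rfl,
      Or.inr (Subtype.ext (by change π (f * z) = π f; rw [map_mul, πz, mul_one]))]
  refine ⟨χ.ker, inferInstance, h3, extraspecial_of (k := 3) h3 (t := ρ ⟨f, hf⟩) (fun e => ?_) ?_
    (mem_center_iff.2 fun y => ?_) (fun y => ?_) fun y hy => ?_,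
    ⟨QuotientGroup.quotientKerEquivOfSurjective χ fun a => ?_⟩⟩
  · exact ((hk f).1 (congrArg Subtype.val e)).elim f1 fz
  · rw [← map_mul, ← map_one ρ]; exact congrArg ρ (Subtype.ext f2)
  · obtain ⟨x, rfl⟩ := hρ y
    rw [← map_mul, ← map_mul]; exact congrArg ρ (Subtype.ext (fc x))
  · obtain ⟨x, rfl⟩ := hρ y
    rw [← map_mul]; exact key _ (ha x x.2)
  · obtain ⟨x, rfl⟩ := hρ y
    rcases hb x x.2 with h | ⟨w, hw, h4, h5⟩
    · exact key x h
    · have h6 : π w * π x = π x * π w := congrArg Subtype.val (mem_center_iff.1 hy (ρ ⟨w, hw⟩))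
      have h7 : π ((w * x)⁻¹ * (x * w)) = 1 := by
        rw [map_mul, map_inv, map_mul, map_mul, h6, inv_mul_cancel]
      rcases (hk _).1 h7 with e | e
      · exact absurd (inv_mul_eq_one.1 e).symm h4
      · exact absurd (inv_mul_eq_iff_eq_mul.1 e) h5
  · obtain ⟨x, rfl⟩ := hψ a
    exact ⟨π x, hχ x⟩

theorem permMatrixHom_inj {n R : Type*} [Fintype n] [DecidableEq n] [NonAssocSemiring R]
    [Nontrivial R] : Function.Injective (Matrix.permMatrixHom : Equiv.Perm n →* Matrix n n R) :=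
  fun _ _ h => inv_injective (Equiv.ext fun x => Option.some_injective _
    (DFunLike.congr_fun (PEquiv.toMatrix_injective h) x))

theorem Mdl.pair_one {G M H N : Type*} [Group G] [Monoid M] [Group H] [Monoid N] {m : Mdl G M}
    {n : Mdl H N} {W : ℕ} {h1 : ∀ a b, m.mul a b < 2 ^ W} {h2 : m.one < 2 ^ W}
    {D : Subgroup (G × H)} {gl g1 : ℕ → ℕ} {s : ℕ} (h : chkPr W gl g1 (fun _ => n.one) s = 0)
    (hD : (m.prod n W h1 h2).In D (gl s)) : ∃ x, (x, 1) ∈ D ∧ m.φ x = m.ev (g1 s) := by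
  obtain ⟨⟨x, y⟩, hp, e⟩ := hD
  obtain ⟨e1, e2⟩ := add_eq_zero' h
  obtain rfl : y = 1 := n.inj ((congrArg Prod.snd e).trans
    ((congrArg n.ev (xor_eq_zero' e2)).trans (n.ev_one.trans (map_one _).symm)))
  exact ⟨x, hp, (congrArg Prod.fst e).trans (congrArg m.ev (xor_eq_zero' e1))⟩

namespace J2

open Cfsg.Spor Mdl

attribute [local irreducible] ag0 cg0 qg0 qT0 zt eg0 pg0 qp ee0 ae0 nmem F

/-- the first reflection -/
noncomputable def f0 : twoJ2 := ⟨F 0, F_mem 0⟩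

theorem φ_f0 : m0.φ f0 = m0.ev (ag0 0) := φ_Fg 0

theorem hc0 : ∀ s < 2, m0.In ⊤ (cg0 s) := fun s hs => (in_of_chkE (ael0 h0) cE s hs).top

theorem C_eq : m0.gn cg0 2 = MulAction.stabilizer twoJ2 (⟨m0.ev (ag0 0)⟩ : Cj m0.φ) ∧
    Nat.card (m0.gn cg0 2) = 3840 := by
  have h1 : m0.gn cg0 2 ≤ MulAction.stabilizer twoJ2 (⟨m0.ev (ag0 0)⟩ : Cj m0.φ) :=
    gn_le fun s hs => ⟨_, (mem_stab_iff φ_f0).2 (m0.inj (by
      rw [map_mul, map_mul, (hc0 s hs).elt, φ_f0, ← m0.ev_mul, ← m0.ev_mul]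
      exact congrArg m0.ev (xor_eq_zero' (cZ s hs)))), (hc0 s hs).elt⟩
  have h2 := card_eq_orbit (⊤ : Subgroup twoJ2) (⟨m0.ev (ag0 0)⟩ : Cj m0.φ)
  rw [card_top, card_G, top_inf_eq] at h2
  have h3 : 315 ≤ (MulAction.orbit (⊤ : Subgroup twoJ2) (⟨m0.ev (ag0 0)⟩ : Cj m0.φ)).ncard := by
    refine le_of_eq_of_le ?_ (Set.ncard_le_ncard
      (s := Set.range fun j => (⟨φ ⟨F j, F_mem j⟩⟩ : Cj m0.φ)) ?_ (orbit_finite _ _))
    · rw [Set.ncard_range_of_injective fun i j h =>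
        F_inj (congrArg Subtype.val (φ_inj (congrArg Cj.x h)))]; simp
    · rintro _ ⟨j, rfl⟩
      obtain ⟨g, hg, e⟩ := F_conj j
      refine ⟨⟨⟨g, closure_Fg ▸ hg⟩, mem_top _⟩, Cj.ext ?_⟩
      change φ _ * (m0.ev (ag0 0) * φ _) = _
      rw [← φ_f0]
      change φ _ * (φ _ * φ _) = φ _
      rw [← map_mul, ← map_mul, ← mul_assoc]
      exact congrArg φ (Subtype.ext e)
  have h4 := clb0 hc0
  have h5 := card_le_of_le h1
  exact ⟨eq_of_le_of_card_ge h1 (by nlinarith), by nlinarith⟩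

theorem mem_C {g : twoJ2} : g ∈ m0.gn cg0 2 ↔ g * f0 = f0 * g := by
  rw [C_eq.1, mem_stab_iff φ_f0]

noncomputable abbrev m5 := c5md (G := alternatingGroup (Fin 5))
  (Matrix.permMatrixHom.comp (alternatingGroup (Fin 5)).subtype)
  (permMatrixHom_inj.comp Subtype.val_injective)

theorem hp0 : ∀ s < 2, m5.In ⊤ (pg0 s) := fun s hs => by
  interval_cases s
  · exact ⟨⟨⟨![1, 2, 3, 4, 0], ![4, 0, 1, 2, 3], by decide, by decide⟩,
      Equiv.Perm.mem_alternatingGroup.2 (by decide)⟩, mem_top _, by decide +kernel⟩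
  · exact ⟨⟨⟨![0, 3, 4, 1, 2], ![0, 3, 4, 1, 2], by decide, by decide⟩,
      Equiv.Perm.mem_alternatingGroup.2 (by decide)⟩, mem_top _, by decide +kernel⟩

theorem card_A5 : Nat.card (alternatingGroup (Fin 5)) = 60 := by
  have := two_mul_nat_card_alternatingGroup (α := Fin 5)
  rw [Nat.card_perm, Nat.card_fin] at this
  simp only [Nat.factorial] at this
  omega

theorem exists_psi : ∃ ψ : m0.gn cg0 2 →* alternatingGroup (Fin 5), Function.Surjective ψ ∧
    (∀ s < 5, m0.In ⊤ (qg0 s)) ∧ ψ.ker.map (Subgroup.subtype _) = m0.gn qg0 5 ∧ Nat.card ψ.ker = 64 := by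
  have hD := in_prod (m := m0) (n := m5) (h1 := p5_lt) (h2 := p5_lt1) eP hc0 hp0
  have h1 := map_fst_gn (m := m0) (n := m5) (h1 := p5_lt) (h2 := p5_lt1) eP hp0
  have h2 := (eub0 hD).trans C_eq.2.ge
  have h3 := exists_hom_of_diag _ h1 h2
  obtain ⟨ψ, h2, h3⟩ := h3
  have h7 := map_snd_gn (m := m0) (n := m5) (h1 := p5_lt) (h2 := p5_lt1) eP hc0
  replace h2 := MonoidHom.range_eq_top.1 (h2.trans (h7.trans
    (eq_top_of_le_card _ (card_A5.trans_le (plb0 hp0)))))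
  have h4 : ∀ s < 5, m0.In (ψ.ker.map (Subgroup.subtype _)) (qg0 s) := fun s hs => by
    have h8 := in_of_chkE (eel0 hD) qE s hs
    have h9 := pair_one (m := m0) (n := m5) (h1 := p5_lt) (h2 := p5_lt1) (qP s hs) h8
    obtain ⟨x, hp, e⟩ := h9
    have hx : x ∈ m0.gn cg0 2 := h1.le ⟨_, hp, rfl⟩
    exact ⟨x, ⟨⟨x, hx⟩, h3 ⟨x, hx⟩ 1 hp, rfl⟩, e⟩
  have h5 : Nat.card ψ.ker = 64 := by
    have := ψ.ker.card_eq_card_quotient_mul_card_subgroup
    rw [C_eq.2, Nat.card_congr (QuotientGroup.quotientKerEquivOfSurjective ψ h2).toEquiv,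
      card_A5] at this
    omega
  have h6 := fun s hs => (h4 s hs).top
  exact ⟨ψ, h2, h6, (eq_of_le_of_card_ge (gn_le h4) (by
    rw [card_map_of_injective (subtype_injective _), h5]; exact qlb0 h6)).symm, h5⟩

noncomputable def four : List ℕ := [c24.one, zt 0, ag0 0, c24.mul (ag0 0) (zt 0)]

theorem qa : ∀ i < 64, nmem four (c24.mul (qT0 i) (qT0 i)) = 0 := by decide +kernel
theorem qb : ∀ i < 64, nmem four (qT0 i) = 0 ∨ ∃ s < 5,
    c24.mul (qT0 i) (qg0 s) ≠ c24.mul (qg0 s) (qT0 i) ∧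
    c24.mul (qT0 i) (qg0 s) ≠ c24.mul (c24.mul (qg0 s) (qT0 i)) (zt 0) := by decide +kernel
theorem qc : (∃ i < 64, qT0 i = zt 0) ∧ ∃ i < 64, qT0 i = ag0 0 := by decide +kernel
theorem tr_f : (c24.ev (ZMod 11) 24 (ag0 0)).trace = 8 := by decide +kernel

theorem of_four {x : twoJ2} {a : ℕ} (e : m0.φ x = m0.ev a) (h : nmem four a = 0) :
    x = 1 ∨ x = z ∨ x = f0 ∨ x = f0 * z := by
  have := mem_of_nmem h
  simp only [four, List.mem_cons, List.not_mem_nil, or_false] at this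
  refine this.imp (fun h => m0.inj ?_) (Or.imp (fun h => m0.inj ?_)
    (Or.imp (fun h => m0.inj ?_) fun h => m0.inj ?_)) <;> rw [e, h]
  exacts [m0.ev_one.trans (map_one _).symm, in_z.elt.symm, φ_f0.symm, (rep_mul φ_f0 in_z.elt).symm]

theorem tr_f0 : (φ f0).trace = 8 := (congrArg Matrix.trace φ_f0).trans tr_f

theorem centr (g : twoJ2) : ∃ (Q : Subgroup (centralizer {((g * f0 * g⁻¹ : twoJ2) : Cfsg.Spor.J2)}))
    (_ : Q.Normal), Nat.card Q = 32 ∧ Cfsg.IsExtraspecial 2 Q ∧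
    Nonempty (centralizer {((g * f0 * g⁻¹ : twoJ2) : Cfsg.Spor.J2)} ⧸ Q ≃*
      alternatingGroup (Fin 5)) := by
  obtain ⟨ψ, h1, h2, h3, h4⟩ := exists_psi
  have hk : ∀ x : m0.gn cg0 2, x ∈ ψ.ker ↔ x.1 ∈ m0.gn qg0 5 := fun x => by
    rw [← h3]; exact (mem_map_iff_mem (subtype_injective _)).symm
  have hT := (qsch0 h2).2.1
  have zc := mem_center_iff.1 z_mem
  let π : m0.gn cg0 2 →* centralizer {((g * f0 * g⁻¹ : twoJ2) : Cfsg.Spor.J2)} :=
    (((QuotientGroup.mk' _).comp (MulAut.conj g).toMonoidHom).comp (Subgroup.subtype _)).codRestrict _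
      fun x => mem_centralizer_singleton_iff.2 (by
        change ((g * x * g⁻¹ * (g * f0 * g⁻¹) : twoJ2) : Cfsg.Spor.J2) =
          (g * f0 * g⁻¹ * (g * x * g⁻¹) : twoJ2)
        rw [conj_mul, conj_mul, mem_C.1 x.2])
  refine extra_quot π (fun ⟨y, hy⟩ => ?_) ψ h1 (z := ⟨z, mem_C.2 (zc _).symm⟩)
    (f := ⟨f0, mem_C.2 rfl⟩) (fun x => ?_) ((hk _).2 ?_) ((hk _).2 ?_) h4
    (fun e => z_ne (congrArg Subtype.val e)) (fun e => ?_) (fun e => ?_)
    (Subtype.ext (Subtype.ext (F_sq 0))) (fun x => Subtype.ext (mem_C.1 x.2)) (fun x hx => ?_)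
    fun x hx => ?_
  · obtain ⟨y, rfl⟩ := QuotientGroup.mk_surjective y
    refine ⟨⟨g⁻¹ * y * g, mem_C.2 ?_⟩, Subtype.ext (congrArg QuotientGroup.mk (by
      change g * (g⁻¹ * y * g) * g⁻¹ = y; group))⟩
    have h5 := mem_centralizer_singleton_iff.1 hy
    rw [← QuotientGroup.mk_mul, ← QuotientGroup.mk_mul, QuotientGroup.eq] at h5
    rcases mem_Z h5 with e | e
    · calc _ = g⁻¹ * (y * (g * f0 * g⁻¹)) * g := by group
        _ = _ := by rw [inv_mul_eq_one.1 e]; group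
    · have h6 : (g⁻¹ * y⁻¹ * g) * f0 * (g⁻¹ * y⁻¹ * g)⁻¹ = f0 * z := by
        rw [show z = g⁻¹ * z * g by rw [mul_assoc, ← zc g, inv_mul_cancel_left], ← e]; group
      have h7 := congrArg (fun a => (φ a).trace) h6
      simp only [map_mul φ f0, φ_z, mul_neg, mul_one, Matrix.trace_neg, tr_f0] at h7
      rw [map_mul, Matrix.trace_mul_comm, ← map_mul, inv_mul_cancel_left, tr_f0] at h7
      exact absurd h7 (by decide)
  · rw [Subtype.ext_iff, Subtype.ext_iff (a1 := x), Subtype.ext_iff (a1 := x)]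
    change ((g * x * g⁻¹ : twoJ2) : Cfsg.Spor.J2) = 1 ↔ x.1 = 1 ∨ x.1 = z
    rw [QuotientGroup.eq_one_iff]
    refine ⟨fun h => mem_Z (by simpa [mul_assoc] using Normal.conj_mem inferInstance _ h g⁻¹), fun h => ?_⟩
    refine Normal.conj_mem inferInstance _ ?_ g
    rcases h with h | h <;> rw [h]
    exacts [one_mem _, z_mem]
  · obtain ⟨i, hi, e⟩ := qc.1
    exact (e ▸ hT i hi).mem in_z.elt
  · obtain ⟨i, hi, e⟩ := qc.2
    exact (e ▸ hT i hi).mem φ_f0
  · have := tr_f0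
    rw [show f0 = 1 from congrArg Subtype.val e, map_one] at this
    revert this; decide
  · have := tr_f0
    rw [show f0 = z from congrArg Subtype.val e, φ_z] at this
    revert this; decide
  · obtain ⟨i, hi, e⟩ := (qsch0 h2).1 x ((hk x).1 hx)
    exact (of_four (rep_mul (exists_of_cos_bot e) (exists_of_cos_bot e)) (qa i hi)).imp Subtype.ext
      (Or.imp Subtype.ext (Or.imp Subtype.ext Subtype.ext))
  · obtain ⟨i, hi, e⟩ := (qsch0 h2).1 x ((hk x).1 hx)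
    have e := exists_of_cos_bot e
    rcases qb i hi with h | ⟨s, hs, h5, h6⟩
    · exact Or.inl ((of_four e h).imp Subtype.ext
        (Or.imp Subtype.ext (Or.imp Subtype.ext Subtype.ext)))
    · obtain ⟨y', hy', ey⟩ := in_gn h2 s hs
      obtain ⟨y, hy, rfl⟩ := h3.ge hy'
      have ey : m0.φ y.1 = m0.ev (qg0 s) := ey
      refine Or.inr ⟨y, hy, fun h => h5 (canon _ _ _ _ ?_), fun h => h6 (canon _ _ _ _ ?_)⟩
      · have h7 : x.1 * y.1 = y.1 * x.1 := congrArg Subtype.val h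
        exact (rep_mul e ey).symm.trans ((congrArg m0.φ h7).trans (rep_mul ey e))
      · have h7 : x.1 * y.1 = y.1 * x.1 * z := congrArg Subtype.val h
        exact (rep_mul e ey).symm.trans ((congrArg m0.φ h7).trans
          (rep_mul (rep_mul ey e) in_z.elt))

end J2

end Cfsg.Agent.H5
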