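import Cfsg.Agent.H5.DC5
import Cfsg.Prelude.Def_Classical

/-! Upper bounds for the orders of special unitary groups, and matrix models over the prime field. -/

set_option autoImplicit false

namespace Cfsg.Agent.H5

open Subgroup Matrix

section bound

variable {F : Type*} [Field F] [Fintype F] {n q : ℕ}

theorem card_sphere (f : ℕ → F → ℕ) (h0 : 1 ≤ f 0 0)
    (hs : ∀ k < n, ∀ c, ∑ x, f k (c - x * x ^ q) ≤ f (k + 1) c) (s : Finset (Fin n)) (c : F) :
    Nat.card {v : Fin n → F | (∀ i ∉ s, v i = 0) ∧ ∑ i ∈ s, v i * v i ^ q = c} ≤ f s.card c := by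
  induction s using Finset.induction_on generalizing c with
  | empty =>
    by_cases hc : c = 0
    · subst hc
      refine le_trans (Finite.card_le_one_iff_subsingleton.2 ⟨fun x y => Subtype.ext
        (funext fun i => ?_)⟩) h0
      rw [x.2.1 i (by simp), y.2.1 i (by simp)]
    · have : IsEmpty {v : Fin n → F | (∀ i ∉ (∅ : Finset (Fin n)), v i = 0) ∧
          ∑ i ∈ (∅ : Finset (Fin n)), v i * v i ^ q = c} := ⟨fun x => hc (x.2.2.symm.trans rfl)⟩
      rw [Nat.card_of_isEmpty]; exact Nat.zero_le _
  | insert a s ha ih =>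
    have hk : s.card < n := by
      have := Finset.card_le_univ (insert a s)
      rw [Finset.card_insert_of_notMem ha, Fintype.card_fin] at this; omega
    rw [Finset.card_insert_of_notMem ha]
    refine le_trans ?_ ((Finset.sum_le_sum fun x _ => ih (c - x * x ^ q)).trans (hs _ hk c))
    rw [← Nat.card_sigma]
    refine Nat.card_le_card_of_injective (fun v => ⟨v.1 a, Function.update v.1 a 0,
      fun i hi => ?_, ?_⟩) fun v w e => ?_
    · by_cases h : i = a
      · rw [h, Function.update_self]
      · rw [Function.update_of_ne h, v.2.1 i (by simp [h, hi])]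
    · rw [← eq_sub_of_add_eq' ((Finset.sum_insert ha).symm.trans v.2.2)]
      exact Finset.sum_congr rfl fun i hi => by
        rw [Function.update_of_ne (show i ≠ a from fun h => ha (h ▸ hi))]
    · have e1 := congrArg Sigma.fst e
      have e2 := congrArg (fun x : Σ x : F, {v : Fin n → F | (∀ i ∉ s, v i = 0) ∧
        ∑ i ∈ s, v i * v i ^ q = c - x * x ^ q} => x.2.1) e
      refine Subtype.ext (funext fun i => ?_)
      by_cases h : i = a
      · rw [h]; exact e1
      · simpa [Function.update_of_ne h] using congrFun e2 i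

theorem herm_single (hq : q ≠ 0) (v : Fin n → F) (i : Fin n) :
    hermForm n F q v (Pi.single i 1) = v i := by
  delta hermForm
  rw [Finset.sum_eq_single i (fun j _ h => by simp [h, hq]) (by simp)]; simp

/-- the natural representation -/
abbrev suM (n : ℕ) (F : Type*) [Field F] (q : ℕ) : SU n F q →* Matrix (Fin n) (Fin n) F :=
  (slToMat n F).comp (SU n F q).subtype

theorem card_SU_le (hq : q ≠ 0) (f : ℕ → F → ℕ) (h0 : 1 ≤ f 0 0)
    (hs : ∀ k < n, ∀ c, ∑ x, f k (c - x * x ^ q) ≤ f (k + 1) c) :
    Nat.card (SU n F q) ≤ ∏ k ∈ Finset.range (n - 1), f (k + 2) 1 := by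
  classical
  let e : Fin n → Vc (suM n F q) := fun i => ⟨Pi.single i 1⟩
  let H : Finset (Fin n) → Subgroup (SU n F q) := fun t => ⨅ i ∉ t, MulAction.stabilizer _ (e i)
  have mH : ∀ t g, g ∈ H t ↔ ∀ i ∉ t, suM n F q g *ᵥ Pi.single i 1 = Pi.single i 1 := fun t g => by
    simp only [H, mem_iInf, MulAction.mem_stabilizer_iff, Vc.ext_iff]; rfl
  have col : ∀ t g, g ∈ H t → ∀ a, ∀ i ∉ t, i ≠ a → (suM n F q g *ᵥ Pi.single a 1) i = 0 :=
    fun t g hg a i hi hia => by
      rw [← herm_single hq (suM n F q g *ᵥ Pi.single a 1) i, ← (mH t g).1 hg i hi]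
      exact (g.2 _ _).trans ((herm_single hq _ i).trans (by simp [hia]))
  have one : ∀ a, H {a} = ⊥ := fun a => eq_bot_iff.2 fun g hg => by
    have h1 : suM n F q g = diagonal (Function.update 1 a (suM n F q g a a)) := by
      ext i j
      by_cases hj : j = a
      · subst hj
        by_cases hi : i = j
        · simp [hi]
        · simpa [hi] using col _ g hg j i (by simpa using hi) hi
      · have := congrFun ((mH _ g).1 hg j (by simpa using hj)) i
        by_cases hi : i = j
        · subst hi; simpa [hj] using this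
        · simpa [hi] using this
    have h2 : (suM n F q g).det = 1 := g.1.2
    rw [h1, det_diagonal, Finset.prod_update_of_mem (Finset.mem_univ _)] at h2
    simp only [Pi.one_apply, Finset.prod_const_one, mul_one] at h2
    rw [h2] at h1
    exact Subtype.ext (Subtype.ext (h1.trans (by simp)))
  have key : ∀ t, Nat.card (H t) ≤ ∏ k ∈ Finset.range (t.card - 1), f (k + 2) 1 := by
    intro t
    induction t using Finset.induction_on with
    | empty =>
      rcases n with _ | n
      · exact Finite.card_le_one_iff_subsingleton.2 inferInstance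
      · refine (card_le_of_le (K := H {0}) fun g hg => (mH _ g).2 fun i _ =>
          (mH _ g).1 hg i (by simp)).trans (by rw [one]; simp)
    | insert a t ha ih =>
      rcases t.eq_empty_or_nonempty with rfl | ht
      · rw [show insert a (∅ : Finset (Fin n)) = {a} from rfl, one]; simp
      obtain ⟨k, hk⟩ := Nat.exists_eq_succ_of_ne_zero ht.card_ne_zero
      have h1 := card_sphere (q := q) f h0 hs (insert a t) 1
      rw [Finset.card_insert_of_notMem ha, hk] at h1 ⊢
      rw [hk] at ih
      rw [card_eq_orbit _ (e a), Nat.add_sub_cancel, Finset.prod_range_succ, mul_comm]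
      refine Nat.mul_le_mul ((card_le_of_le fun g hg => (mH _ g).2 fun i hi => ?_).trans ih)
        (le_trans ?_ h1)
      · by_cases h : i = a
        · rw [h]; exact congrArg Vc.v hg.2
        · exact (mH _ g).1 hg.1 i (by simp [h, hi])
      · refine Set.ncard_le_ncard_of_injOn Vc.v ?_ fun _ _ _ _ h => Vc.ext h
        rintro _ ⟨⟨g, hg⟩, rfl⟩
        have h2 := fun i hi => col _ g hg a i hi fun h => hi (by simp [h])
        refine ⟨h2, ?_⟩
        rw [Finset.sum_subset (Finset.subset_univ _) fun i _ hi => by
          rw [show ((fun m : H (insert a t) => m • e a) ⟨g, hg⟩).v i = 0 from h2 i hi, zero_mul]]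
        exact (g.2 _ _).trans ((herm_single hq _ a).trans (Pi.single_eq_same _ _))
  have := key Finset.univ
  rwa [show H Finset.univ = ⊤ from eq_top_iff.2 fun g _ => (mH _ g).2 fun i hi =>
    absurd (Finset.mem_univ i) hi, card_top, Finset.card_univ, Fintype.card_fin] at this

omit [Fintype F] in
theorem mem_SU (σ : F →+* F) (hσ : ∀ x, σ x = x ^ q) {g : SpecialLinearGroup (Fin n) F}
    (h : g.1ᵀ * g.1.map σ = 1) : g ∈ SU n F q := fun u v => by
  have h1 : ∀ u v, hermForm n F q u v = u ⬝ᵥ (σ ∘ v) := fun u v => by
    delta hermForm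
    simp [dotProduct, hσ]
  have h2 : σ ∘ (g.1 *ᵥ v) = g.1.map σ *ᵥ (σ ∘ v) := funext fun i => σ.map_mulVec _ _ i
  change hermForm n F q (g.1 *ᵥ u) (g.1 *ᵥ v) = _
  rw [h1, h1, h2, ← vecMul_transpose, ← dotProduct_mulVec, mulVec_mulVec, h, one_mulVec]

end bound

section reg

variable {R : Type*} [CommRing R] (a b : R)

/-- the regular representation -/
def blk : QuadraticAlgebra R a b →+* Matrix (Fin 2) (Fin 2) R where
  toFun x := !![x.re, a * x.im; x.im, x.re + b * x.im]
  map_one' := by
    ext i j; fin_cases i <;> fin_cases j <;> simp [QuadraticAlgebra.re_one, QuadraticAlgebra.im_one]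
  map_zero' := by ext i j; fin_cases i <;> fin_cases j <;> simp
  map_add' x y := by ext i j; fin_cases i <;> fin_cases j <;> simp <;> ring
  map_mul' x y := by
    ext i j; fin_cases i <;> fin_cases j <;> simp [Matrix.mul_apply, Fin.sum_univ_two] <;> ring

/-- matrices over a quadratic extension as matrices over the ground ring -/
def reg (n : ℕ) : Matrix (Fin n) (Fin n) (QuadraticAlgebra R a b) →+*
    Matrix (Fin (n * 2)) (Fin (n * 2)) R :=
  (reindexRingEquiv R finProdFinEquiv).toRingHom.comp
    ((compRingEquiv (Fin n) (Fin 2) R).toRingHom.comp (blk a b).mapMatrix)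

theorem reg_inj (n : ℕ) : Function.Injective (reg a b n) :=
  (reindexRingEquiv R finProdFinEquiv).injective.comp
    ((compRingEquiv (Fin n) (Fin 2) R).injective.comp (Matrix.map_injective (f := blk a b) fun x y h =>
      QuadraticAlgebra.ext (congrFun (congrFun h 0) 0) (congrFun (congrFun h 1) 0)))

instance [Fintype R] : Fintype (QuadraticAlgebra R a b) :=
  Fintype.ofEquiv _ (QuadraticAlgebra.equivProd a b).symm

theorem card_quad [Fintype R] :
    Fintype.card (QuadraticAlgebra R a b) = Fintype.card R * Fintype.card R := by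
  rw [Fintype.ofEquiv_card, Fintype.card_prod]

end reg

end Cfsg.Agent.H5
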