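import Cfsg.Agent.H5.J2G
import Cfsg.Agent.H5.SUc

/-! The subgroup of index 100. -/

set_option autoImplicit false
set_option maxRecDepth 100000

namespace Cfsg.Agent.H5

open Subgroup Matrix

instance fact9 : Fact (∀ r : ZMod 3, r ^ 2 ≠ 2 + 0 * r) := ⟨by decide⟩

abbrev F9 := QuadraticAlgebra (ZMod 3) 2 0

theorem star9 : ∀ x : F9, starRingEnd F9 x = x ^ 3 := by decide +kernel

def f9 (k : ℕ) (c : F9) : ℕ :=
  if c = 0 then [1, 1, 33, 225, 2241].getD k 0 else if c.im = 0 then [0, 4, 24, 252, 2160].getD k 0 else 0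

theorem f9_ok : ∀ k < 4, ∀ c, ∑ x, f9 k (c - x * x ^ 3) ≤ f9 (k + 1) c := by decide +kernel

theorem card_SU33 : Nat.card (SU 3 F9 3) ≤ 6048 :=
  (card_SU_le (by norm_num) f9 (by decide) fun k hk => f9_ok k (by omega)).trans (by decide +kernel)

theorem center_SU33 : center (SU 3 F9 3) = ⊥ := by
  rw [eq_bot_iff]
  rintro ⟨⟨A, hA⟩, h⟩ hc
  have h1 : (_ : Matrix (Fin 3) (Fin 3) F9) * A = A * _ := congrArg (fun g => g.1.1)
    (mem_center_iff.1 hc ⟨⟨!![1, 0, 0; 0, ⟨0, 1⟩, 0; 0, 0, ⟨0, 2⟩], by decide +kernel⟩,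
      mem_SU _ star9 (by decide +kernel)⟩)
  have h2 : (_ : Matrix (Fin 3) (Fin 3) F9) * A = A * _ := congrArg (fun g => g.1.1)
    (mem_center_iff.1 hc ⟨⟨!![0, 1, 0; 0, 0, 1; 1, 0, 0], by decide +kernel⟩,
      mem_SU _ star9 (by decide +kernel)⟩)
  have k : ∀ u v x : F9, u ≠ v → u * x = x * v → x = 0 := fun u v x h1 h2 => by
    by_contra h; exact h1 (mul_right_cancel₀ h (h2.trans (mul_comm _ _)))
  have e := fun i j => congrFun (congrFun h1 i) j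
  have e' := fun i j => congrFun (congrFun h2 i) j
  simp only [mul_apply, Fin.sum_univ_three] at e e'
  have a01 := k 1 ⟨0, 1⟩ (A 0 1) (by decide) (by simpa using e 0 1)
  have a02 := k 1 ⟨0, 2⟩ (A 0 2) (by decide) (by simpa using e 0 2)
  have a10 := k ⟨0, 1⟩ 1 (A 1 0) (by decide) (by simpa using e 1 0)
  have a12 := k ⟨0, 1⟩ ⟨0, 2⟩ (A 1 2) (by decide) (by simpa using e 1 2)
  have a20 := k ⟨0, 2⟩ 1 (A 2 0) (by decide) (by simpa using e 2 0)
  have a21 := k ⟨0, 2⟩ ⟨0, 1⟩ (A 2 1) (by decide) (by simpa using e 2 1)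
  have b1 : A 1 1 = A 0 0 := by simpa using e' 0 1
  have b2 : A 2 2 = A 1 1 := by simpa using e' 1 2
  have hA' := hA
  rw [det_fin_three, a01, a02, a10, a12, a20, a21, b2, b1] at hA'
  have b0 : A 0 0 = 1 := (show ∀ x : F9, x * x * x - x * 0 * 0 - 0 * 0 * x + 0 * 0 * 0 + 0 * 0 * 0 -
    0 * x * 0 = 1 → x = 1 by decide +kernel) _ hA'
  refine Subtype.ext (Subtype.ext (Matrix.ext fun i j => ?_))
  fin_cases i <;> fin_cases j <;> simp [*]

namespace J2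

open Cfsg.Spor Mdl

attribute [local irreducible] ag0 ag1 sg0 dg0 zt zp de0 F

noncomputable abbrev m6 := c6md (G := SU 3 F9 3) ((reg 2 0 3).toMonoidHom.comp (suM 3 F9 3))
  ((reg_inj 2 0 3).comp fun _ _ h => Subtype.ext (Subtype.ext h))

theorem hs0 : ∀ s < 2, m6.In ⊤ (sg0 s) := fun s hs => by
  interval_cases s
  · exact ⟨⟨⟨!![⟨0, 2⟩, ⟨1, 1⟩, ⟨0, 2⟩; ⟨2, 1⟩, ⟨0, 0⟩, ⟨1, 2⟩; ⟨2, 0⟩, ⟨2, 1⟩, ⟨2, 0⟩],
      by decide +kernel⟩, mem_SU _ star9 (by decide +kernel)⟩, mem_top _, by decide +kernel⟩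
  · exact ⟨⟨⟨!![⟨1, 2⟩, ⟨2, 0⟩, ⟨1, 0⟩; ⟨2, 1⟩, ⟨2, 0⟩, ⟨1, 0⟩; ⟨0, 0⟩, ⟨1, 1⟩, ⟨1, 1⟩],
      by decide +kernel⟩, mem_SU _ star9 (by decide +kernel)⟩, mem_top _, by decide +kernel⟩

theorem Z_le_K : center twoJ2 ≤ m0.gn ag1 2 :=
  simple.1.le.trans ((ale3 h0).trans ((ale2 h0).trans (ale1 h0)))

theorem iso_K : Nonempty ((m0.gn ag1 2).map (QuotientGroup.mk' (center twoJ2)) ≃* PSU 3 F9 3) := by
  have hD := in_prod (m := m0) (n := m6) (h1 := p6_lt) (h2 := p6_lt1) dP (atop1 h0) hs0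
  have h1 := map_fst_gn (m := m0) (n := m6) (h1 := p6_lt) (h2 := p6_lt1) dP hs0
  have h2 := (dub0 hD).trans card_K.ge
  have h3 := exists_hom_of_diag _ h1 h2
  obtain ⟨ψ, h2, h3⟩ := h3
  have h7 := map_snd_gn (m := m0) (n := m6) (h1 := p6_lt) (h2 := p6_lt1) dP (atop1 h0)
  have h4 := slb0 hs0
  replace h2 := MonoidHom.range_eq_top.1 (h2.trans (h7.trans
    (eq_top_of_le_card _ (card_SU33.trans h4))))
  have h5 : Nat.card ψ.ker ≤ 2 := by
    have := ψ.ker.card_eq_card_quotient_mul_card_subgroup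
    rw [card_K, Nat.card_congr (QuotientGroup.quotientKerEquivOfSurjective ψ h2).toEquiv] at this
    have h6 := h4.trans (card_le_card_group _)
    nlinarith
  have h8 := in_of_chkE (del0 hD) zE 0 one_pos
  have h9 := pair_one (m := m0) (n := m6) (h1 := p6_lt) (h2 := p6_lt1) (zP 0 one_pos) h8
  obtain ⟨x, hp, e⟩ := h9
  obtain rfl : x = z := m0.inj (e.trans in_z.elt.symm)
  have hz := h3 ⟨z, Z_le_K z_mem⟩ 1 hp
  have hle : (center twoJ2).subgroupOf (m0.gn ag1 2) ≤ ψ.ker := fun g hg => by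
    rcases mem_Z hg with e | e
    · rw [show g = 1 from Subtype.ext e]; exact one_mem _
    · rw [show g = ⟨z, Z_le_K z_mem⟩ from Subtype.ext e]; exact hz
  have heq := eq_of_le_of_card_ge hle (by
    rwa [Nat.card_congr (subgroupOfEquivOfLe Z_le_K).toEquiv, card_Z])
  refine ⟨(equivOfKer ((QuotientGroup.mk' _).subgroupMap _) ψ
    (MonoidHom.subgroupMap_surjective _ _) h2 ?_).trans
    ((QuotientGroup.quotientMulEquivOfEq center_SU33).trans QuotientGroup.quotientBot).symm⟩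
  rw [← heq]
  ext g
  exact Subtype.ext_iff.trans (QuotientGroup.eq_one_iff _)

theorem sub100 : ∃ H : Subgroup Cfsg.Spor.J2, H.index = 100 ∧ Nonempty (H ≃* PSU 3 F9 3) ∧
    ∃ c₁ c₂ : Cfsg.Spor.J2 ⧸ H, (MulAction.orbit H c₁).ncard = 36 ∧
      (MulAction.orbit H c₂).ncard = 63 := by
  have hk : (QuotientGroup.mk' (center twoJ2)).ker ≤ m0.gn ag1 2 := by
    rw [QuotientGroup.ker_mk']; exact Z_le_K
  have hs := (aex0 h0).2.1
  rw [ht, top_inf_eq] at hs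
  obtain ⟨t1, e1⟩ := vmem h0
  obtain ⟨t2, e2⟩ := wmem h0
  refine ⟨_, ?_, iso_K, _, _, (ncard_orbit_quot _ (QuotientGroup.mk'_surjective _) hs hk t1).trans ?_,
    (ncard_orbit_quot _ (QuotientGroup.mk'_surjective _) hs hk t2).trans ?_⟩
  · rw [index_map_eq _ (QuotientGroup.mk'_surjective _) hk]
    have := (m0.gn ag1 2).card_mul_index
    rw [card_K, card_G] at this
    omega
  · exact (congrArg (fun y => (MulAction.orbit (m0.gn ag1 2) y).ncard) e1).trans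
      ((congrArg Set.ncard (aex1 h0).1).trans (ncard_image_range _ _ ay1D))
  · exact (congrArg (fun y => (MulAction.orbit (m0.gn ag1 2) y).ncard) e2).trans
      ((congrArg Set.ncard (worb h0)).trans (ncard_image_range _ _ wD))

end J2

end Cfsg.Agent.H5
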