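import Cfsg.Agent.H5.J3Chk1
import Cfsg.Prelude.Def_Spor_J3

/-! The third Janko group: the model and the coset enumeration. -/

set_option autoImplicit false

namespace Cfsg.Agent.H5.J3

open Matrix Cfsg.Spor Finset

def ι (z : F9) : ℕ := 3 * z.1.val + z.2.val
def zz (i : ℕ) : F9 := (((i / 3 : ℕ) : ZMod 3), ((i % 3 : ℕ) : ZMod 3))
theorem ι_lt : ∀ z : F9, ι z < 9 := by decide
theorem zz_ι : ∀ z : F9, zz (ι z) = z := by decide
theorem ι_zz : ∀ i < 9, ι (zz i) = i := by decide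

theorem sum_ι {R : Type*} [AddCommMonoid R] (f : ℕ → R) :
    ∑ z : F9, f (ι z) = ∑ j ∈ range 9, f j :=
  sum_nbij' ι zz (fun z _ => mem_range.2 (ι_lt z)) (fun _ _ => mem_univ _) (fun z _ => zz_ι z)
    (fun i hi => ι_zz i (mem_range.1 hi)) (fun _ _ => rfl)

variable {F : Type} [Field F] [CharP F 2] {ω : F}

def ev (ω : F) (A : ℕ) : Matrix F9 F9 F := fun w z => ent4 F ω 9 A (ι w) (ι z)
def vec (ω : F) (v : ℕ) : F9 → F := fun z => ent4 F ω 9 v 0 (ι z)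

theorem ev_mulJ (hω : ω ^ 2 + ω + 1 = 0) (A B : ℕ) : ev ω (mulJ A B) = ev ω A * ev ω B := by
  ext w z
  rw [mulJ_eq, ev, ent4_mul4 hω A B (ι_lt w) (ι_lt z), mul_apply, ← sum_ι]; rfl

omit [CharP F 2] in
theorem ev_eq {A : ℕ} {M : Matrix F9 F9 F} (e : F9 → F9 → ℕ) (h : ∀ w z, e4 9 A (ι w) (ι z) = e w z)
    (h2 : ∀ w z, M w z = el4 ω (e w z)) : ev ω A = M := by
  ext w z; rw [ev, ent4_eq_el4, h, h2]

omit [CharP F 2] in
theorem ev_cone : ev ω cone = 1 :=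
  ev_eq (fun w z => if w = z then 1 else 0) (by decide +kernel) fun w z => by
    rw [one_apply]; split_ifs <;> simp [el4_zero, el4_one]

omit [CharP F 2] in
theorem ev_cw : ev ω cw = ω • (1 : Matrix F9 F9 F) :=
  ev_eq (fun w z => if w = z then 2 else 0) (by decide +kernel) fun w z => by
    rw [Matrix.smul_apply, one_apply]; split_ifs <;> simp [el4_zero, el4_two]

theorem ev_inj (hω : ω ^ 2 + ω + 1 = 0) {A B : ℕ} (hA : A < 2 ^ 162) (hB : B < 2 ^ 162)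
    (e : ev ω A = ev ω B) : A = B := by
  refine eq_of_e4 (d := 9) (r := 9) hA hB fun i hi j hj => ?_
  have := congrFun (congrFun e (zz i)) (zz j)
  simp only [ev, ι_zz i hi, ι_zz j hj, ent4_eq_el4] at this
  exact el4_inj hω (e4_lt _ _ _ _) (e4_lt _ _ _ _) this

theorem vec_inj (hω : ω ^ 2 + ω + 1 = 0) {A B : ℕ} (hA : A < 2 ^ 18) (hB : B < 2 ^ 18)
    (e : vec ω A = vec ω B) : A = B := by
  refine eq_of_e4 (d := 9) (r := 1) hA hB fun i hi j hj => ?_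
  have := congrFun e (zz j)
  obtain rfl : i = 0 := by omega
  simp only [vec, ι_zz j hj, ent4_eq_el4] at this
  exact el4_inj hω (e4_lt _ _ _ _) (e4_lt _ _ _ _) this

theorem vec_surj [Fintype F] (hF : Fintype.card F = 4) (hω : ω ^ 2 + ω + 1 = 0) (x : F9 → F) :
    ∃ v < 2 ^ 18, vec ω v = x := by
  choose e he hx using el4_surj hF hω
  refine ⟨mk4 9 1 (fun _ j => e (x (zz j))), mk4_lt _ _ _, ?_⟩
  ext z
  rw [vec, ent4_eq_el4, e4_mk4 _ (by norm_num) (ι_lt z) (he _), hx, zz_ι]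

noncomputable def mdl (hω : ω ^ 2 + ω + 1 = 0) : Mdl (threeJ3 F ω) (Matrix F9 F9 F) where
  φ := (Units.coeHom _).comp (Subgroup.subtype _)
  inj := fun a b h => Subtype.ext (Units.ext h)
  ev := ev ω
  mul := mulJ
  ev_mul := ev_mulJ hω
  one := cone
  ev_one := ev_cone

theorem omegaPow_eq (hω : ω ^ 2 + ω + 1 = 0) (n : ZMod 3) :
    omegaPow F ω n = el4 ω (n.val + 1) := by
  have : n.val < 3 := n.val_lt
  unfold omegaPow
  generalize n.val = k at *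
  interval_cases k <;> simp [el4_one, el4_two, el4_three, omega_sq hω]

theorem off_A (hω : ω ^ 2 + ω + 1 = 0) (Z : F9) : ev ω (off (ι Z)) = j3A F ω Z :=
  ev_eq (fun w z => if w = z then (Z.1 * w.1 + Z.2 * w.2).val + 1 else 0)
    (by revert Z; decide +kernel) fun w z => by
    rw [j3A, diagonal_apply]; split_ifs <;> simp [el4_zero, omegaPow_eq hω]

theorem off_E (hω : ω ^ 2 + ω + 1 = 0) (Z : F9) : ev ω (off (9 + ι Z)) = j3E F ω Z :=
  ev_eq (fun w z => if w = z then ((Z.1 - w.1) ^ 2 + (Z.2 - w.2) ^ 2).val + 1 else 0)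
    (by revert Z; decide +kernel) fun w z => by
    rw [j3E, diagonal_apply]; split_ifs <;> simp [el4_zero, omegaPow_eq hω]

theorem off_D (hω : ω ^ 2 + ω + 1 = 0) (Z : F9) : ev ω (off (18 + ι Z)) = j3D F ω Z :=
  ev_eq (fun w z => if w = z + Z then (if z = 0 then 1 else if F9.div Z z = F9.I - F9.one then 2
      else if F9.div Z z = -F9.I - F9.one then 3 else 1) else 0)
    (by revert Z; decide +kernel) fun w z => by
    rw [j3D, of_apply, j3Lam]
    split_ifs <;> simp [el4_zero, el4_one, el4_two, el4_three, omega_sq hω]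

omit [CharP F 2] in
theorem off_B (Z : F9) (hZ : Z ≠ 0) : ev ω (off (27 + ι Z)) = j3B F Z :=
  ev_eq (fun w z => if w = F9.mul Z z then 1 else 0)
    (by revert Z; decide +kernel) fun w z => by
    rw [j3B, of_apply]; split_ifs <;> simp [el4_zero, el4_one]

omit [CharP F 2] in
theorem off_C (Z : F9) (hZ : Z ≠ 0) : ev ω (off (36 + ι Z)) = j3C F Z :=
  ev_eq (fun w z => if z = 0 then (if w = 0 then 1 else 0) else if w = -F9.div Z z ∨
      w = F9.mul F9.I (F9.div Z z) ∨ w = -F9.mul F9.I (F9.div Z z) then 1 else 0)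
    (by revert Z; decide +kernel) fun w z => by
    rw [j3C, of_apply]; split_ifs <;> simp [el4_zero, el4_one]

theorem off_pow : sumTo (fun i => Nat.xor (powJ (off i) 72) cone) 45 = 0 := by decide +kernel
theorem off_id : off 27 = cone ∧ off 36 = cone := by decide +kernel

variable (hω : ω ^ 2 + ω + 1 = 0)

theorem powJ_eq (a n : ℕ) : powJ a n = (mdl hω).powC a n := rfl
theorem prodJ_eq (l : List ℕ) : prodJ l = (mdl hω).prodL l := rfl

theorem in_of_mem_gens {i : ℕ} (hi : i < 45) (h : ev ω (off i) ∈ j3Gens F ω) :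
    (mdl hω).In ⊤ (off i) := by
  have h1 : ev ω (off i) ^ 72 = 1 := by
    have := xor_eq_zero' (sumTo_zero off_pow i hi)
    rw [powJ_eq hω] at this
    exact ((mdl hω).ev_powC _ _).symm.trans (by rw [this]; exact ev_cone)
  obtain ⟨u, hu⟩ := IsUnit.of_pow_eq_one h1 (by norm_num)
  exact ⟨⟨u, Subgroup.subset_closure (by simpa [hu] using h)⟩, trivial, hu⟩

theorem in_off : ∀ i < 45, (mdl hω).In ⊤ (off i) := by
  intro i hi
  have e : ι (zz (i % 9)) = i % 9 := ι_zz _ (Nat.mod_lt _ (by norm_num))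
  have z0 : i % 9 ≠ 0 → zz (i % 9) ≠ 0 := fun h h' => h (by rw [← e, h']; rfl)
  by_cases h27 : i = 27
  · rw [h27, off_id.1]; exact Mdl.in_one (m := mdl hω) ⊤
  by_cases h36 : i = 36
  · rw [h36, off_id.2]; exact Mdl.in_one (m := mdl hω) ⊤
  apply in_of_mem_gens hω hi
  simp only [j3Gens, Set.mem_union, Set.mem_range, Set.mem_ofPred_eq]
  rcases (show i < 9 ∨ (9 ≤ i ∧ i < 18) ∨ (18 ≤ i ∧ i < 27) ∨ (27 ≤ i ∧ i < 36) ∨ 36 ≤ i by omega)
    with h | h | h | h | h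
  · refine Or.inl (Or.inl (Or.inl (Or.inl ⟨zz (i % 9), ?_⟩)))
    rw [← off_A hω, e]; congr 2; omega
  · refine Or.inl (Or.inl (Or.inl (Or.inr ⟨zz (i % 9), ?_⟩)))
    rw [← off_E hω, e]; congr 2; omega
  · refine Or.inl (Or.inl (Or.inr ⟨zz (i % 9), ?_⟩))
    rw [← off_D hω, e]; congr 2; omega
  · refine Or.inl (Or.inr ⟨zz (i % 9), z0 (by omega), ?_⟩)
    rw [← off_B (ω := ω) _ (z0 (by omega)), e]; congr 2; omega
  · refine Or.inr ⟨zz (i % 9), z0 (by omega), ?_⟩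
    rw [← off_C (ω := ω) _ (z0 (by omega)), e]; congr 2; omega

theorem top_le_of_off {H : Subgroup (threeJ3 F ω)} (h : ∀ i < 45, (mdl hω).In H (off i)) :
    H = ⊤ := by
  have := Subgroup.closure_preimage_eq_top {g : GL F9 F | (g : Matrix F9 F9 F) ∈ j3Gens F ω}
  rw [eq_top_iff]
  refine this.ge.trans ((Subgroup.closure_le _).2 ?_)
  intro g hg
  have key : ∀ i < 45, ((g : GL F9 F) : Matrix F9 F9 F) = ev ω (off i) → g ∈ H :=
    fun i hi e => (h i hi).mem e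
  have hg' : ((g : GL F9 F) : Matrix F9 F9 F) ∈ j3Gens F ω := hg
  simp only [j3Gens, Set.mem_union, Set.mem_range, Set.mem_ofPred_eq] at hg'
  rcases hg' with (((⟨Z, e⟩ | ⟨Z, e⟩) | ⟨Z, e⟩) | ⟨Z, hZ, e⟩) | ⟨Z, hZ, e⟩ <;> have := ι_lt Z
  · exact key (ι Z) (by omega) (by rw [off_A hω, e])
  · exact key (9 + ι Z) (by omega) (by rw [off_E hω, e])
  · exact key (18 + ι Z) (by omega) (by rw [off_D hω, e])
  · exact key (27 + ι Z) (by omega) (by rw [off_B _ hZ, e])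
  · exact key (36 + ι Z) (by omega) (by rw [off_C _ hZ, e])

theorem in_words {l : List ℕ} (hl : ∀ i ∈ l, i < 45) : (mdl hω).In ⊤ (prodJ (l.map off)) := by
  rw [prodJ_eq hω]
  refine Mdl.in_prodL fun a ha => ?_
  obtain ⟨i, hi, rfl⟩ := List.mem_map.1 ha
  exact in_off hω i (hl i hi)

theorem in_a : (mdl hω).In ⊤ ca := cwords.1 ▸ in_words hω (by decide)
theorem in_b : (mdl hω).In ⊤ cb := by
  rw [← cwords.2.1, powJ_eq hω]; exact (in_words hω (by decide)).pow 5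
theorem in_c : (mdl hω).In ⊤ cc := cwords.2.2.1 ▸ in_off hω 37 (by norm_num)

noncomputable def KK : Subgroup (threeJ3 F ω) := (mdl hω).gen [ca, cb]
noncomputable def LL : Subgroup (threeJ3 F ω) := (mdl hω).gen [ca, cl]

theorem aK : (mdl hω).In (KK hω) ca := Mdl.in_gen (by simp) (in_a hω)
theorem bK : (mdl hω).In (KK hω) cb := Mdl.in_gen (by simp) (in_b hω)
theorem lK : (mdl hω).In (KK hω) cl := by
  rw [← cwords.2.2.2.1, prodJ_eq hω]
  refine Mdl.in_prodL fun a ha => ?_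
  obtain ⟨i, _, rfl⟩ := List.mem_map.1 ha
  rw [ifz_eq]; split_ifs
  exacts [aK hω, bK hω]
theorem wK : (mdl hω).In (KK hω) cw := by
  rw [← cwords.2.2.2.2, powJ_eq hω]; exact (aK hω).pow 34
theorem aL : (mdl hω).In (LL hω) ca := Mdl.in_gen (by simp) (in_a hω)
theorem lL : (mdl hω).In (LL hω) cl := Mdl.in_gen (by simp) (lK hω).top
theorem L_le_K : LL hω ≤ KK hω := Mdl.gen_le (by simp [aK, lK])

theorem ifz_zero {c a : ℕ} (h : ifz c 0 a = 0) : c = 0 ∨ a = 0 := by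
  rw [ifz_eq] at h; split_ifs at h with h1
  exacts [Or.inl h1, Or.inr h]

theorem c3_spec (i : ℕ) (hi : i < 204) : ∃ j1 < 204, ∃ j2 < 204, mulJ ca (t3 i) = t3 j1 ∧
    mulJ cl (t3 i) = t3 j2 ∧ (i = 0 ∨ j1 < i ∨ j2 < i) := by
  have h := sumTo_zero c3 i hi
  obtain ⟨h, h5⟩ := add_eq_zero' h
  obtain ⟨h, h4⟩ := add_eq_zero' h
  obtain ⟨h, h3⟩ := add_eq_zero' h
  obtain ⟨h1, h2⟩ := add_eq_zero' h
  refine ⟨_, lt_of_nlt h3, _, lt_of_nlt h4, xor_eq_zero' h1, xor_eq_zero' h2, ?_⟩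
  exact (ifz_zero h5).imp_right fun h => (Nat.mul_eq_zero.1 h).imp lt_of_nlt lt_of_nlt

theorem t3_in : ∀ i < 256, (mdl hω).In (LL hω) (t3 i) := by
  have : ∀ i < 204, (mdl hω).In (LL hω) (t3 i) := by
    refine Mdl.in_of_desc (K := ⊥) bot_le fun i hi => ?_
    obtain ⟨j1, _, j2, _, e1, e2, h | h | h⟩ := c3_spec i hi
    · left; rw [h, t_zero.2.2]; exact Mdl.in_one (m := mdl hω) _
    · exact Or.inr ⟨_, aL hω, j1, h, Mdl.step_of_eq' e1⟩
    · exact Or.inr ⟨_, lL hω, j2, h, Mdl.step_of_eq' e2⟩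
  intro i hi
  by_cases h : i < 204
  · exact this i h
  · have := xor_eq_zero' (sumTo_zero c3' (i - 204) (by omega))
    rw [show 204 + (i - 204) = i by omega] at this
    rw [this]; exact Mdl.in_one (m := mdl hω) _

variable [Fintype F]

theorem card_L : Nat.card (LL hω) ≤ 204 := by
  have := Mdl.card_le_of_cover (m := mdl hω) (H := LL hω) (K := ⊥) (T := t3) (n := 204)
    (Mdl.cover (fun g _ => isOfFinOrder_of_finite g) (by norm_num) (t_zero.2.2 ▸ ev_cone) (by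
      intro s hs i hi
      obtain ⟨j1, h1, j2, h2, e1, e2, _⟩ := c3_spec i hi
      simp only [List.mem_cons, List.not_mem_nil, or_false] at hs
      rcases hs with rfl | rfl
      exacts [⟨j1, h1, Mdl.step_of_eq' e1⟩, ⟨j2, h2, Mdl.step_of_eq' e2⟩]))
  simpa using this.2

omit [Fintype F] in
theorem step_kel {s i m : ℕ} (e : mulJ s (t2 i) = kel m) :
    (mdl hω).Step (LL hω) t2 s i (m &&& 127) :=
  Mdl.step_of_eq (t3_in hω _ (Nat.lt_succ_of_le Nat.and_le_right)) e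

omit [Fintype F] in
theorem c2_spec (i : ℕ) (hi : i < 120) : ∃ j1 < 120, ∃ j2 < 120, (mdl hω).Step (LL hω) t2 ca i j1 ∧
    (mdl hω).Step (LL hω) t2 cb i j2 ∧ (i = 0 ∨ j1 < i ∨ j2 < i) := by
  have h := sumTo_zero c2 i hi
  obtain ⟨h, h5⟩ := add_eq_zero' h
  obtain ⟨h, h4⟩ := add_eq_zero' h
  obtain ⟨h, h3⟩ := add_eq_zero' h
  obtain ⟨h1, h2⟩ := add_eq_zero' h
  refine ⟨_, lt_of_nlt h3, _, lt_of_nlt h4, step_kel hω (xor_eq_zero' h1),
    step_kel hω (xor_eq_zero' h2), ?_⟩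
  exact (ifz_zero h5).imp_right fun h => (Nat.mul_eq_zero.1 h).imp lt_of_nlt lt_of_nlt

omit [Fintype F] in
theorem t2_in : ∀ i < 128, (mdl hω).In (KK hω) (t2 i) := by
  have : ∀ i < 120, (mdl hω).In (KK hω) (t2 i) := by
    refine Mdl.in_of_desc (L_le_K hω) fun i hi => ?_
    obtain ⟨j1, _, j2, _, e1, e2, h | h | h⟩ := c2_spec hω i hi
    · left; rw [h, t_zero.2.1]; exact Mdl.in_one (m := mdl hω) _
    · exact Or.inr ⟨_, aK hω, j1, h, e1⟩
    · exact Or.inr ⟨_, bK hω, j2, h, e2⟩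
  intro i hi
  by_cases h : i < 120
  · exact this i h
  · have := xor_eq_zero' (sumTo_zero c2' (i - 120) (by omega))
    rw [show 120 + (i - 120) = i by omega] at this
    rw [this]; exact Mdl.in_one (m := mdl hω) _

theorem card_K : Nat.card (KK hω) ≤ 24480 := by
  have := Mdl.card_le_of_cover (m := mdl hω) (H := KK hω) (K := LL hω) (T := t2) (n := 120)
    (Mdl.cover (fun g _ => isOfFinOrder_of_finite g) (by norm_num) (t_zero.2.1 ▸ ev_cone) (by
      intro s hs i hi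
      obtain ⟨j1, h1, j2, h2, e1, e2, _⟩ := c2_spec hω i hi
      simp only [List.mem_cons, List.not_mem_nil, or_false] at hs
      rcases hs with rfl | rfl
      exacts [⟨j1, h1, e1⟩, ⟨j2, h2, e2⟩]))
  have h2 := card_L hω
  have := this.2
  omega

omit [Fintype F] in
theorem kel_in (m : ℕ) : (mdl hω).In (KK hω) (kel m) :=
  (t2_in hω _ (Nat.lt_succ_of_le Nat.and_le_right)).mul
    ((t3_in hω _ (Nat.lt_succ_of_le Nat.and_le_right)).mono (L_le_K hω))

omit [Fintype F] in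
theorem step_gel {s i m : ℕ} (e : mulJ s (t1 i) = gel m) :
    (mdl hω).Step (KK hω) t1 s i (m &&& 8191) := Mdl.step_of_eq (kel_in hω _) e

theorem btw_zero {j i : ℕ} (h : btw j i = 0) : j < i ∧ 0 < j :=
  (add_eq_zero' h).imp lt_of_nlt lt_of_nlt

omit [Fintype F] in
theorem c1_spec (i : ℕ) (hi : i < 6156) : ∃ j1 < 6156, ∃ j2 < 6156, ∃ j3 < 6156,
    (mdl hω).Step (KK hω) t1 ca i j1 ∧ (mdl hω).Step (KK hω) t1 cb i j2 ∧
    (mdl hω).Step (KK hω) t1 cc i j3 ∧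
    ((j1 < i ∧ 0 < j1) ∨ (j2 < i ∧ 0 < j2) ∨ i = 0 ∨ i ∈ reps) := by
  have h := c1 i hi
  obtain ⟨h, h7⟩ := add_eq_zero' h
  obtain ⟨h, h6⟩ := add_eq_zero' h
  obtain ⟨h, h5⟩ := add_eq_zero' h
  obtain ⟨h, h4⟩ := add_eq_zero' h
  obtain ⟨h, h3⟩ := add_eq_zero' h
  obtain ⟨h1, h2⟩ := add_eq_zero' h
  refine ⟨_, lt_of_nlt h4, _, lt_of_nlt h5, _, lt_of_nlt h6, step_gel hω (xor_eq_zero' h1),
    step_gel hω (xor_eq_zero' h2), step_gel hω (xor_eq_zero' h3), ?_⟩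
  rcases ifz_zero h7 with h | h
  · rcases Nat.mul_eq_zero.1 h with h | h
    exacts [Or.inl (btw_zero h), Or.inr (Or.inl (btw_zero h))]
  · exact Or.inr (Or.inr ((ifz_zero h).imp_right mem_of_notmem))

omit [Fintype F] in
theorem altW_in {H : Subgroup (threeJ3 F ω)} (hK : KK hω ≤ H) {x : ℕ} (hx : (mdl hω).In H x)
    (w : List ℕ) : (mdl hω).In H (altW x w) := by
  induction w with
  | nil => exact Mdl.in_one (m := mdl hω) _
  | cons e w ih =>
    refine Mdl.In.mul (m := mdl hω) ?_ ih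
    rw [ifz_eq]; split_ifs
    exacts [hx, (kel_in hω _).mono hK]

theorem rep_spec {r : ℕ} (hr : r ∈ reps) : ∃ w1 w2, altW cc w1 = t1 r ∧ altW (t1 r) w2 = cc := by
  rw [← crep'] at hr
  obtain ⟨x, hx, rfl⟩ := List.mem_map.1 hr
  obtain ⟨h1, h2⟩ := add_eq_zero' (sumL_zero crep x hx)
  exact ⟨_, _, xor_eq_zero' h1, xor_eq_zero' h2⟩

omit [Fintype F] in
theorem t1_in {H : Subgroup (threeJ3 F ω)} (hK : KK hω ≤ H) (hc : (mdl hω).In H cc) :
    ∀ i < 6156, (mdl hω).In H (t1 i) := by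
  refine Mdl.in_of_desc hK fun i hi => ?_
  obtain ⟨j1, _, j2, _, j3, _, e1, e2, _, h | h | h | h⟩ := c1_spec hω i hi
  · exact Or.inr ⟨_, (aK hω).mono hK, j1, h.1, e1⟩
  · exact Or.inr ⟨_, (bK hω).mono hK, j2, h.1, e2⟩
  · left; rw [h, t_zero.1]; exact Mdl.in_one (m := mdl hω) _
  · obtain ⟨w1, _, e, _⟩ := rep_spec h
    exact Or.inl (e ▸ altW_in hω hK hc w1)

omit [Fintype F] in
theorem gel_in {H : Subgroup (threeJ3 F ω)} (hK : KK hω ≤ H) (hc : (mdl hω).In H cc) {m : ℕ}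
    (hm : m &&& 8191 < 6156) : (mdl hω).In H (gel m) :=
  (t1_in hω hK hc _ hm).mul ((kel_in hω _).mono hK)

omit [Fintype F] in
theorem eq_top_of {H : Subgroup (threeJ3 F ω)} (hK : KK hω ≤ H) (hc : (mdl hω).In H cc) : H = ⊤ :=
  top_le_of_off hω fun i hi => by
    obtain ⟨h1, h2⟩ := add_eq_zero' (sumTo_zero coff i hi)
    exact xor_eq_zero' h1 ▸ gel_in hω hK hc (lt_of_nlt h2)

omit [Fintype F] in
theorem eq_top_of_abc {H : Subgroup (threeJ3 F ω)} (ha : (mdl hω).In H ca) (hb : (mdl hω).In H cb)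
    (hc : (mdl hω).In H cc) : H = ⊤ :=
  eq_top_of hω (Mdl.gen_le (by simp [ha, hb])) hc

omit [Fintype F] in
theorem gen_abc : (mdl hω).gen [ca, cb, cc] = ⊤ :=
  eq_top_of_abc hω (Mdl.in_gen (by simp) (in_a hω)) (Mdl.in_gen (by simp) (in_b hω))
    (Mdl.in_gen (by simp) (in_c hω))

theorem cover1 (g : threeJ3 F ω) : ∃ i < 6156, (mdl hω).Cos (KK hω) t1 g i := by
  refine Mdl.cover (l := [ca, cb, cc]) (fun g _ => isOfFinOrder_of_finite g) (by norm_num)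
    (t_zero.1 ▸ ev_cone) ?_ g (gen_abc hω ▸ trivial)
  intro s hs i hi
  obtain ⟨j1, h1, j2, h2, j3, h3, e1, e2, e3, _⟩ := c1_spec hω i hi
  simp only [List.mem_cons, List.not_mem_nil, or_false] at hs
  rcases hs with rfl | rfl | rfl
  exacts [⟨j1, h1, e1⟩, ⟨j2, h2, e2⟩, ⟨j3, h3, e3⟩]

theorem card_le : Nat.card (threeJ3 F ω) ≤ 6156 * Nat.card (KK hω) := by
  have := (Mdl.card_le_of_cover (H := ⊤) fun g _ => cover1 hω g).2
  rwa [Subgroup.card_top] at this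

theorem K_max : ∀ H : Subgroup (threeJ3 F ω), KK hω ≤ H → H = KK hω ∨ H = ⊤ := by
  refine Mdl.maximal_of_desc (t_zero.1 ▸ ev_cone) (cover1 hω) fun i hi hpos => ?_
  obtain ⟨j1, _, j2, _, j3, _, e1, e2, _, h | h | h | h⟩ := c1_spec hω i hi
  · exact Or.inr ⟨_, aK hω, j1, h.1, h.2, e1⟩
  · exact Or.inr ⟨_, bK hω, j2, h.1, h.2, e2⟩
  · omega
  · obtain ⟨_, w2, _, e⟩ := rep_spec h
    exact Or.inl fun H hH hT => eq_top_of hω hH (e ▸ altW_in hω hH hT w2)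

include hω in
omit [Fintype F] in
theorem gen19 (N : Subgroup (threeJ3 F ω)) (h : ∀ x : threeJ3 F ω, x ^ 19 = 1 → x ∈ N) : N = ⊤ := by
  have key : ∀ r ∈ dec19, (mdl hω).In N r.1 := by
    intro r hr
    have h0 := sumL_zero c19 r hr
    simp only [Nat.add_eq_zero_iff] at h0
    obtain ⟨⟨⟨⟨h1, h2⟩, h3⟩, h4⟩, h5⟩ := h0
    have hh : ∀ m, Nat.xor (powJ (gel m) 19) cone = 0 → nlt (Nat.land m 8191) 6156 = 0 →
        (mdl hω).In N (gel m) := by
      intro m e1 e2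
      obtain ⟨g, _, e⟩ := gel_in hω le_top (in_c hω) (lt_of_nlt e2)
      exact ⟨g, h g (Mdl.pow_eq_one_of_powC e ((powJ_eq hω _ _).symm.trans (xor_eq_zero' e1))), e⟩
    exact xor_eq_zero' h1 ▸ Mdl.In.mul (m := mdl hω) (hh _ h2 h4) (hh _ h3 h5)
  exact eq_top_of_abc hω (key _ List.mem_cons_self)
    (key _ (List.mem_cons_of_mem _ List.mem_cons_self))
    (key _ (List.mem_cons_of_mem _ (List.mem_cons_of_mem _ List.mem_cons_self)))

include hω in
omit [Fintype F] in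
theorem noncomm : ∃ a b : threeJ3 F ω, a * b ≠ b * a := by
  obtain ⟨a, _, ea⟩ := in_a hω
  obtain ⟨b, _, eb⟩ := in_b hω
  refine ⟨a, b, fun h => cab (ev_inj hω ?_ ?_ ?_)⟩
  · rw [mulJ_eq]; exact mul4_lt 9 9 _ _ (by norm_num)
  · rw [mulJ_eq]; exact mul4_lt 9 9 _ _ (by norm_num)
  · have := congrArg (mdl hω).φ h
    rw [map_mul, map_mul, ea, eb] at this
    rw [ev_mulJ hω, ev_mulJ hω]; exact this

end Cfsg.Agent.H5.J3
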