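import Cfsg.Agent.H5.J3Ops

set_option autoImplicit false

namespace Cfsg.Agent.H5.J3

theorem cV_0 : s256 chkV 0 = 4440 := by decide +kernel
theorem cV_1 : s256 chkV 1 = 4320 := by decide +kernel
theorem cV_2 : s256 chkV 2 = 4384 := by decide +kernel
theorem cV_3 : s256 chkV 3 = 4384 := by decide +kernel
theorem cV_4 : s256 chkV 4 = 4384 := by decide +kernel
theorem cV_5 : s256 chkV 5 = 4384 := by decide +kernel
theorem cV_6 : s256 chkV 6 = 4320 := by decide +kernel
theorem cV_7 : s256 chkV 7 = 4320 := by decide +kernel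
theorem cV_8 : s256 chkV 8 = 4384 := by decide +kernel
theorem cV_9 : s256 chkV 9 = 4384 := by decide +kernel
theorem cV_10 : s256 chkV 10 = 4320 := by decide +kernel
theorem cV_11 : s256 chkV 11 = 4320 := by decide +kernel
theorem cV_12 : s256 chkV 12 = 4320 := by decide +kernel
theorem cV_13 : s256 chkV 13 = 4320 := by decide +kernel
theorem cV_14 : s256 chkV 14 = 4384 := by decide +kernel
theorem cV_15 : s256 chkV 15 = 4400 := by decide +kernel

theorem cV : ∑ q ∈ Finset.range 4096, chkV q = 69768 := by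
  have := (s256_blk chkV).sum 16
  rw [← this]
  simp only [Finset.sum_range_succ, Finset.sum_range_zero, cV_0, cV_1, cV_2, cV_3, cV_4, cV_5, cV_6, cV_7, cV_8, cV_9, cV_10, cV_11, cV_12, cV_13, cV_14, cV_15]

end Cfsg.Agent.H5.J3
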