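import Cfsg.Agent.H5.J3A
import Cfsg.Agent.H5.J3Chk2

/-! The third Janko group: orbits on vectors, order, simplicity. -/

set_option autoImplicit false

namespace Cfsg.Agent.H5

open Finset

theorem ent4_cj {F : Type*} [Field F] [CharP F 2] {ω : F} (hω : ω ^ 2 + ω + 1 = 0) {d r A i k : ℕ}
    (hi : i < r) (hk : k < d) :
    ent4 F ω d (A ^^^ ((A >>> d) &&& lo4 d r)) i k = ent4 F ω d A i k ^ 2 := by
  have h2 : (2 : F) = 0 := CharTwo.two_eq_zero
  have h1 : ¬ (d + k < d) := by omega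
  simp only [ent4, bit, Nat.testBit_xor, Nat.testBit_and, Nat.testBit_shiftRight,
    testBit_lo4 hi (show k < 2 * d by omega), testBit_lo4 hi (show d + k < 2 * d by omega), hk, h1,
    show d + (2 * d * i + k) = 2 * d * i + (d + k) by ring]
  cases A.testBit (2 * d * i + k) <;> cases A.testBit (2 * d * i + (d + k)) <;> simp
  · linear_combination (-1) * hω + (1 + ω) * h2
  · linear_combination (-1) * hω

namespace J3

open Matrix Cfsg.Spor

variable {F : Type} [Field F] [CharP F 2] {ω : F} (hω : ω ^ 2 + ω + 1 = 0)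

theorem trChk_spec {A B : ℕ} (h : trChk A B = 0) : ∀ i < 9, ∀ j < 9, e4 9 A i j = e4 9 B j i :=
  fun i hi j hj => xor_eq_zero' (sumTo_zero (sumTo_zero h i hi) j hj)

omit [CharP F 2] in
theorem ev_tr {A B : ℕ} (h : trChk A B = 0) : ev ω B = (ev ω A)ᵀ := by
  ext w z
  rw [transpose_apply, ev, ev, ent4_eq_el4, ent4_eq_el4, trChk_spec h _ (ι_lt z) _ (ι_lt w)]

theorem tr_all : (trChk ca caT = 0 ∧ trChk cb cbT = 0 ∧ trChk cc ccT = 0) ∧
    trChk ch0 ch0T = 0 ∧ trChk ch1 ch1T = 0 ∧ trChk ch2 ch2T = 0 := by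
  have := ctr
  omega

include hω in
theorem vec_row {s sT : ℕ} (h : trChk s sT = 0) {r : ℕ} (A : ℕ) {i : ℕ} (hi : i < r) :
    vec ω (fld (mul4 9 r A sT) 18 262143 i) = ev ω s *ᵥ vec ω (fld A 18 262143 i) := by
  ext z
  have e : ∀ Y k, k < 9 → ent4 F ω 9 (fld Y 18 262143 i) 0 k = ent4 F ω 9 Y i k := by
    intro Y k hk
    rw [ent4_eq_el4, ent4_eq_el4]; congr 1; exact e4_fld 9 Y i k hk
  rw [vec, e _ _ (ι_lt z), ent4_mul4 hω _ _ hi (ι_lt z), ← sum_ι, mulVec, dotProduct]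
  refine sum_congr rfl fun w _ => ?_
  have := congrFun (congrFun (ev_tr (ω := ω) h) w) z
  rw [vec, e _ _ (ι_lt w), mul_comm]
  congr 1

theorem fld_zero {v : ℕ} (h : v < 2 ^ 18) : fld v 18 262143 0 = v := by
  have := fld_eq v 18 0
  simp only [pow_zero, Nat.div_one] at this
  rw [Nat.mod_eq_of_lt h] at this
  exact this

theorem act1_lt (v B : ℕ) : act1 v B < 2 ^ 18 := by
  rw [act1_eq]; exact mul4_lt 9 1 _ _ (by norm_num)

include hω in
theorem vec_act1 {s sT : ℕ} (h : trChk s sT = 0) {v : ℕ} (hv : v < 2 ^ 18) :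
    vec ω (act1 v sT) = ev ω s *ᵥ vec ω v := by
  have := vec_row hω h v (r := 1) (i := 0) (by norm_num)
  rwa [← act1_eq, fld_zero (act1_lt _ _), fld_zero hv] at this

theorem fld_block {q i : ℕ} (hq : q < 4096) (hi : i < 64) :
    fld (BASE + M64 * (64 * q)) 18 262143 i = 64 * q + i := by
  rw [← BASE_eq, ← M64_eq, col1, pack_mul, pack_add]
  have := fld_eq (pack (2 ^ 18) (fun i => i + 1 * (64 * q)) 64) 18 i
  rw [digit_pack (fun j hj => by omega) hi] at this
  rw [show 64 * q + i = i + 1 * (64 * q) by ring]; exact this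

/-- image of the vector `v` as computed in blocks -/
noncomputable def img (sT v : ℕ) : ℕ :=
  fld (actB (BASE + M64 * (64 * (v / 64))) sT) 18 262143 (v % 64)

theorem img_lt (sT v : ℕ) : img sT v < 2 ^ 18 := Nat.lt_succ_of_le (fld_le _ _ _ _)

include hω in
theorem vec_img {s sT : ℕ} (h : trChk s sT = 0) {v : ℕ} (hv : v < 2 ^ 18) :
    vec ω (img sT v) = ev ω s *ᵥ vec ω v := by
  rw [img, actB_eq, vec_row hω h _ (Nat.mod_lt _ (by norm_num)),
    fld_block (by omega) (Nat.mod_lt _ (by norm_num)), Nat.div_add_mod]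

noncomputable def Gv (v : ℕ) : ℕ := chkv' v (vv v) (img caT v) (img cbT v) (img ccT v)

theorem sum_Gv : ∑ v ∈ range (2 ^ 18), Gv v = 69768 := by
  have : Blk chkV Gv 64 := by
    intro q
    change s64 _ 0 = _
    rw [s64_blk]
    refine sum_congr rfl fun i hi => ?_
    have hi' := mem_range.1 hi
    have e1 : (q * 64 + i) / 64 = q := by omega
    have e2 : (q * 64 + i) % 64 = i := by omega
    simp only [Gv, img, e1, e2, zero_mul, zero_add]
    rw [mul_comm q 64]
    rfl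
  have h := this.sum 4096
  rw [cV, show 4096 * 64 = 2 ^ 18 by norm_num] at h
  exact h.symm

def PP (v : ℕ) : Prop := vv v &&& 128 ≠ 0
def OO (v : ℕ) : Prop := vv v &&& 256 ≠ 0

noncomputable def failV (v : ℕ) : ℕ :=
  descV v (vv v) (img caT v) (img cbT v) (img ccT v) ((vv v >>> 5) &&& 3) +
    if vv v &&& 128 = 0 then 0 else chkP v (vv v) (vv (img caT v)) (vv (img cbT v)) (vv (img ccT v))

theorem Gv_eq (v : ℕ) : Gv v = (if vv v &&& 128 = 0 then 0 else 1) + 1048576 * failV v := by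
  rw [Gv, chkv', ifz_eq, failV]
  change (if vv v &&& 128 = 0 then _ else _) = _
  split_ifs
  · rw [zero_add, add_zero]; rfl
  · rw [add_comm 1]; rfl

theorem fail_zero : (∀ v < 2 ^ 18, failV v = 0) ∧
    ∑ v ∈ range (2 ^ 18), (if vv v &&& 128 = 0 then 0 else 1) = 69768 := by
  have key : ∀ N, N < 1048576 → ∀ n, ∑ v ∈ range n, Gv v = N → (∀ v < n, failV v = 0) ∧
      ∑ v ∈ range n, (if vv v &&& 128 = 0 then 0 else 1) = N := by
    intro N hN n h
    simp only [Gv_eq, sum_add_distrib, ← mul_sum] at h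
    have h2 : ∑ v ∈ range n, failV v = 0 := by omega
    exact ⟨fun v hv => sum_eq_zero_iff.1 h2 v (mem_range.2 hv), by omega⟩
  exact key _ (by norm_num) _ sum_Gv

theorem land_of_xor {a m : ℕ} (h : Nat.xor (a &&& m) m = 0) (hm : m ≠ 0) : a &&& m ≠ 0 := by
  rw [xor_eq_zero' h]; exact hm

theorem and_ne_left {a b m : ℕ} (h : (a &&& b) &&& m ≠ 0) : a &&& m ≠ 0 := fun h' => h (by
  rw [Nat.and_comm a b, Nat.and_assoc, h', Nat.and_zero])
theorem and_ne_right {a b m : ℕ} (h : (a &&& b) &&& m ≠ 0) : b &&& m ≠ 0 := fun h' => h (by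
  rw [Nat.and_assoc, h', Nat.and_zero])
theorem and_ne_of {a b k : ℕ} (ha : a &&& 2 ^ k ≠ 0) (hb : b &&& 2 ^ k ≠ 0) :
    (a &&& b) &&& 2 ^ k ≠ 0 := by
  rw [Nat.and_two_pow] at *
  rw [Nat.testBit_and]
  revert ha hb
  cases a.testBit k <;> cases b.testBit k <;> simp

theorem desc_spec {v : ℕ} (hv : v < 2 ^ 18) : v ∈ [0, 1, 73, 72] ∨
    ∃ p ∈ [(ca, caT), (cb, cbT), (cc, ccT)], vv (img p.2 v) &&& 31 < vv v &&& 31 := by
  have h := (Nat.add_eq_zero_iff.1 (fail_zero.1 v hv)).1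
  rw [descV, ifz_eq] at h
  split_ifs at h
  · exact Or.inl (mem_of_notmem h)
  · right
    have := lt_of_nlt h
    rw [ifz_eq, ifz_eq] at this
    split_ifs at this
    exacts [⟨(ca, caT), by simp, this⟩, ⟨(cb, cbT), by simp, this⟩, ⟨(cc, ccT), by simp, this⟩]

theorem P_spec {v : ℕ} (hv : v < 2 ^ 18) (hP : PP v) :
    (PP (img caT v) ∧ PP (img cbT v) ∧ PP (img ccT v)) ∧
    (OO v → (OO (img caT v) ∧ OO (img cbT v)) ∧
      (OO (act1 v ch0T) → OO (act1 v ch1T) → OO (act1 v ch2T) → v ∈ [1, 512, 513])) := by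
  have h := (Nat.add_eq_zero_iff.1 (fail_zero.1 v hv)).2
  rw [if_neg hP] at h
  obtain ⟨h1, h2⟩ := add_eq_zero' h
  have h3 := land_of_xor h1 (by norm_num)
  refine ⟨⟨and_ne_left (and_ne_left h3), and_ne_right (and_ne_left h3), and_ne_right h3⟩, ?_⟩
  intro hO
  obtain ⟨h4, h5⟩ := add_eq_zero' ((ifz_zero h2).resolve_left hO)
  have h6 := land_of_xor h4 (by norm_num)
  refine ⟨⟨and_ne_left h6, and_ne_right h6⟩, fun a b c => ?_⟩
  rcases ifz_zero h5 with h | h
  · exact mem_of_notmem h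
  · exact absurd h (and_ne_of (k := 8) (and_ne_of (k := 8) a b) c)

/-- the action on vectors -/
noncomputable def act (g : threeJ3 F ω) (x : F9 → F) : F9 → F := (mdl hω).φ g *ᵥ x

theorem act_mul (g h : threeJ3 F ω) (x : F9 → F) : act hω (g * h) x = act hω g (act hω h x) := by
  rw [act, map_mul, ← mulVec_mulVec]; rfl

theorem act_one (x : F9 → F) : act hω 1 x = x := by rw [act, map_one, one_mulVec]

theorem act_inv {g : threeJ3 F ω} {x y : F9 → F} (h : act hω g x = y) : act hω g⁻¹ y = x := by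
  rw [← h, ← act_mul, inv_mul_cancel, act_one]

theorem act_smul (g : threeJ3 F ω) (c : F) (x : F9 → F) : act hω g (c • x) = c • act hω g x :=
  mulVec_smul _ _ _

theorem gens_spec : ∀ p ∈ [(ca, caT), (cb, cbT), (cc, ccT)], (mdl hω).In ⊤ p.1 ∧ trChk p.1 p.2 = 0 := by
  simp only [List.mem_cons, List.not_mem_nil, or_false, forall_eq_or_imp, forall_eq]
  exact ⟨⟨in_a hω, tr_all.1.1⟩, ⟨in_b hω, tr_all.1.2.1⟩, in_c hω, tr_all.1.2.2⟩

theorem P_img {v : ℕ} (hv : v < 2 ^ 18) (hP : PP v) :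
    ∀ p ∈ [(ca, caT), (cb, cbT), (cc, ccT)], PP (img p.2 v) := by
  simp only [List.mem_cons, List.not_mem_nil, or_false, forall_eq_or_imp, forall_eq]
  exact (P_spec hv hP).1

theorem reach : ∀ v, v < 2 ^ 18 → ∃ r ∈ [0, 1, 73, 72], (PP v → PP r) ∧
    ∃ g, act hω g (vec ω v) = vec ω r := by
  refine descent _ _ (fun v => vv v &&& 31) fun v hv => ?_
  rcases desc_spec hv with h | ⟨p, hp, h⟩
  · exact Or.inl ⟨v, h, id, 1, act_one hω _⟩
  · refine Or.inr ⟨_, img_lt _ _, h, ?_⟩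
    rintro ⟨r, hr, h1, g, hg⟩
    obtain ⟨⟨s, _, hs⟩, ht⟩ := gens_spec hω p hp
    refine ⟨r, hr, fun hP => h1 (P_img hv hP p hp), g * s, ?_⟩
    rw [act_mul, ← hg, vec_img hω ht hv, act, act, hs]; rfl

def S1 (ω : F) : Set (F9 → F) := vec ω '' {v | v < 2 ^ 18 ∧ PP v}
def SO (ω : F) : Set (F9 → F) := vec ω '' {v | v < 2 ^ 18 ∧ PP v ∧ OO v}

theorem reach1 {x : F9 → F} (hx : x ∈ S1 ω) : ∃ g, act hω g (vec ω 1) = x := by
  obtain ⟨v, ⟨hv, hP⟩, rfl⟩ := hx
  obtain ⟨r, hr, h1, g, hg⟩ := reach hω v hv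
  have h2 := h1 hP
  obtain ⟨-, -, f0, f73, f72, -⟩ := cflags
  simp only [List.mem_cons, List.not_mem_nil, or_false] at hr
  rcases hr with rfl | rfl | rfl | rfl
  exacts [absurd f0 h2, ⟨_, act_inv hω hg⟩, absurd f73 h2, absurd f72 h2]

variable [Fintype F]

theorem S1_inv (g : threeJ3 F ω) : ∀ x ∈ S1 ω, act hω g x ∈ S1 ω := by
  have hg : g ∈ (mdl hω).gen [ca, cb, cc] := gen_abc hω ▸ trivial
  refine closure_ind_fin (fun g _ => isOfFinOrder_of_finite g)
    (P := fun g => ∀ x ∈ S1 ω, act hω g x ∈ S1 ω) (fun x hx => by rwa [act_one]) ?_ g hg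
  rintro s ⟨a, ha, e⟩ g ih x hx
  obtain ⟨v, ⟨hv, hP⟩, e2⟩ := ih x hx
  obtain ⟨p, hp, rfl⟩ : ∃ p ∈ [(ca, caT), (cb, cbT), (cc, ccT)], p.1 = a := by
    simp only [List.mem_cons, List.not_mem_nil, or_false] at ha
    rcases ha with rfl | rfl | rfl <;> simp
  refine ⟨_, ⟨img_lt _ _, P_img hv hP p hp⟩, ?_⟩
  rw [act_mul, ← e2, vec_img hω (gens_spec hω p hp).2 hv, act, e]; rfl

theorem SO_inv (g : threeJ3 F ω) (hg : g ∈ KK hω) : ∀ x ∈ SO ω, act hω g x ∈ SO ω := by
  refine closure_ind_fin (fun g _ => isOfFinOrder_of_finite g)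
    (P := fun g => ∀ x ∈ SO ω, act hω g x ∈ SO ω) (fun x hx => by rwa [act_one]) ?_ g hg
  rintro s ⟨a, ha, e⟩ g ih x hx
  obtain ⟨v, ⟨hv, hP, hO⟩, e2⟩ := ih x hx
  obtain ⟨h1, h2⟩ := P_spec hv hP
  simp only [List.mem_cons, List.not_mem_nil, or_false] at ha
  rcases ha with rfl | rfl
  · refine ⟨_, ⟨img_lt _ _, h1.1, (h2 hO).1.1⟩, ?_⟩
    rw [act_mul, ← e2, vec_img hω tr_all.1.1 hv, act, e]; rfl
  · refine ⟨_, ⟨img_lt _ _, h1.2.1, (h2 hO).1.2⟩, ?_⟩
    rw [act_mul, ← e2, vec_img hω tr_all.1.2.1 hv, act, e]; rfl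

omit [Fintype F] in
include hω in
theorem ncard_S1 : (S1 ω).ncard = 69768 := by
  classical
  rw [S1, Set.InjOn.ncard_image fun a ha b hb e => vec_inj hω ha.1 hb.1 e, ← fail_zero.2]
  have : {v | v < 2 ^ 18 ∧ PP v} = ↑((range (2 ^ 18)).filter PP) := by ext; simp
  rw [this, Set.ncard_coe_finset, card_filter]
  refine sum_congr rfl fun v _ => ?_
  by_cases h : PP v
  · rw [if_pos h, if_neg h]
  · rw [if_neg h, if_pos (not_not.1 h)]

omit [Fintype F] in
theorem hs_in : (mdl hω).In ⊤ ch0 ∧ (mdl hω).In ⊤ ch1 ∧ (mdl hω).In ⊤ ch2 := by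
  obtain ⟨⟨e0, e1, e2⟩, ⟨l0, l1, l2⟩, -⟩ := chs
  rw [← e0, ← e1, ← e2]
  exact ⟨gel_in hω le_top (in_c hω) l0, gel_in hω le_top (in_c hω) l1,
    gel_in hω le_top (in_c hω) l2⟩

omit [Fintype F] in
include hω in
theorem hs_fix : ev ω ch0 *ᵥ vec ω 1 = vec ω 1 ∧ ev ω ch1 *ᵥ vec ω 1 = vec ω 1 ∧
    ev ω ch2 *ᵥ vec ω 1 = vec ω 1 := by
  obtain ⟨-, -, e0, e1, e2⟩ := chs
  rw [← vec_act1 hω tr_all.2.1 (by norm_num), ← vec_act1 hω tr_all.2.2.1 (by norm_num),
    ← vec_act1 hω tr_all.2.2.2 (by norm_num), e0, e1, e2]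
  simp

theorem xv_lt (i : ℕ) : xv i < 2 ^ 18 := Nat.lt_succ_of_le Nat.and_le_right

theorem X_spec : ∀ i < 2160, chkX i = 0 :=
  (s64_blk _).zero_below (c := 34) (sumTo_zero cX) (by norm_num)

include hω in
theorem card_ge : 69768 * 2160 ≤ Nat.card (threeJ3 F ω) := by
  let H0 := (mdl hω).gen [ch0, ch1]
  have i0 : (mdl hω).In H0 ch0 := Mdl.in_gen (by simp) (hs_in hω).1
  have i1 : (mdl hω).In H0 ch1 := Mdl.in_gen (by simp) (hs_in hω).2.1
  have h1 : 2160 ≤ Nat.card H0 := by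
    have := card_ge_of_orbit (act hω) (act_mul hω) H0 ⊥ bot_le (vec ω xv0)
      (fun h hh => by rw [Subgroup.mem_bot.1 hh, act_one])
      ((fun i => vec ω (xv i)) '' {i | i < 2160}) (by
        rintro _ ⟨i, hi, rfl⟩
        revert i
        refine descent _ (fun i => ∃ g ∈ H0, act hω g (vec ω xv0) = vec ω (xv i)) xd fun i hi => ?_
        have h := (add_eq_zero' (X_spec i hi)).1
        rw [ifz_eq] at h
        split_ifs at h
        · exact Or.inl ⟨1, H0.one_mem, by rw [act_one, xor_eq_zero' h]⟩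
        · obtain ⟨h, h3⟩ := add_eq_zero' h
          obtain ⟨h1, h2⟩ := add_eq_zero' h
          refine Or.inr ⟨_, lt_of_nlt h3, lt_of_nlt h2, ?_⟩
          rintro ⟨g, hg, e⟩
          rw [xor_eq_zero' h1, ifz_eq]
          split_ifs
          · obtain ⟨s, hs, es⟩ := i0
            refine ⟨s * g, H0.mul_mem hs hg, ?_⟩
            rw [act_mul, e, vec_act1 hω tr_all.2.1 (xv_lt _), act, es]; rfl
          · obtain ⟨s, hs, es⟩ := i1
            refine ⟨s * g, H0.mul_mem hs hg, ?_⟩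
            rw [act_mul, e, vec_act1 hω tr_all.2.2.1 (xv_lt _), act, es]; rfl)
    rw [ncard_image_range] at this
    · simpa using this
    · intro i hi j hj e
      refine inj_of_succ_lt (fun i hi => ?_) i hi j hj (vec_inj hω (xv_lt _) (xv_lt _) e)
      have h := (add_eq_zero' (X_spec i (by omega))).2
      rw [below_eq, if_pos (show i < 2159 by omega)] at h
      exact lt_of_nlt h
  have h2 := card_ge_of_orbit (act hω) (act_mul hω) ⊤ H0 le_top (vec ω 1) (by
      refine closure_ind_fin (fun g _ => isOfFinOrder_of_finite g)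
        (P := fun g => act hω g (vec ω 1) = vec ω 1) (act_one hω _) ?_
      rintro s ⟨a, ha, e⟩ g ih
      rw [act_mul, ih, act, e]
      simp only [List.mem_cons, List.not_mem_nil, or_false] at ha
      rcases ha with rfl | rfl
      exacts [(hs_fix hω).1, (hs_fix hω).2.1]) (S1 ω)
    (fun y hy => let ⟨g, hg⟩ := reach1 hω hy; ⟨g, trivial, hg⟩)
  rw [ncard_S1 hω, Subgroup.card_top] at h2
  exact le_trans (Nat.mul_le_mul_left _ h1) h2

include hω in
theorem card_G : Nat.card (threeJ3 F ω) = 150698880 := by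
  have := card_ge hω; have := card_le hω; have := card_K hω; omega

theorem card_KK : Nat.card (KK hω) = 24480 := by
  have := card_ge hω; have := card_le hω; have := card_K hω; omega

omit [Fintype F] [CharP F 2] in
theorem vec_eq {v : ℕ} {x : F9 → F} (e : F9 → ℕ) (h : ∀ z, e4 9 v 0 (ι z) = e z)
    (h2 : ∀ z, x z = el4 ω (e z)) : vec ω v = x := by
  ext z; rw [vec, ent4_eq_el4, h, h2]

omit [Fintype F] [CharP F 2] in
theorem vec_two_pow (w : F9) : vec ω (2 ^ ι w) = Pi.single w 1 :=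
  vec_eq (fun z => if z = w then 1 else 0) (by revert w; decide +kernel) fun z => by
    rw [Pi.single_apply]; split_ifs <;> simp [el4_zero, el4_one]

omit [Fintype F] [CharP F 2] in
theorem vec_one : vec ω 1 = Pi.single 0 1 := vec_two_pow 0

omit [Fintype F] [CharP F 2] in
theorem vec_511 : vec ω 511 = 1 :=
  vec_eq (fun _ => 1) (by decide +kernel) fun z => by simp [el4_one]

omit [Fintype F] [CharP F 2] in
theorem vec_512 : vec ω 512 = ω • vec ω 1 := by
  rw [vec_one]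
  exact vec_eq (fun z => if z = 0 then 2 else 0) (by decide +kernel) fun z => by
    rw [Pi.smul_apply, Pi.single_apply]; split_ifs <;> simp [el4_zero, el4_two]

omit [Fintype F] [CharP F 2] in
theorem vec_513 : vec ω 513 = (1 + ω) • vec ω 1 := by
  rw [vec_one]
  exact vec_eq (fun z => if z = 0 then 3 else 0) (by decide +kernel) fun z => by
    rw [Pi.smul_apply, Pi.single_apply]; split_ifs <;> simp [el4_zero, el4_three]

noncomputable def zeta : threeJ3 F ω := (wK hω).choose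
omit [Fintype F] in
theorem zeta_mem : zeta hω ∈ KK hω := (wK hω).choose_spec.1
omit [Fintype F] in
theorem zeta_eq : (mdl hω).φ (zeta hω) = ω • 1 := (wK hω).choose_spec.2.trans ev_cw

noncomputable def ZZ : Subgroup (threeJ3 F ω) := Subgroup.zpowers (zeta hω)

omit [Fintype F] in
theorem ZZ_le : ZZ hω ≤ Subgroup.center _ := by
  rw [ZZ, Subgroup.zpowers_le, Subgroup.mem_center_iff]
  intro g
  apply (mdl hω).inj
  rw [map_mul, map_mul, zeta_eq]; simp

omit [Fintype F] in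
include hω in
theorem omega_cube : ω ^ 3 = 1 := by linear_combination (ω - 1) * hω

omit [Fintype F] in
theorem card_ZZ : Nat.card (ZZ hω) = 3 := by
  rw [ZZ, Nat.card_zpowers]
  haveI : Fact (Nat.Prime 3) := ⟨by norm_num⟩
  apply orderOf_eq_prime
  · apply (mdl hω).inj
    rw [map_pow, zeta_eq, map_one, smul_pow, omega_cube hω]; simp
  · intro h
    have := zeta_eq hω
    rw [h, map_one] at this
    have := congrFun (congrFun this 0) 0
    simp at this
    exact omega_ne_one hω this.symm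

theorem core (hF : Fintype.card F = 4) (N : Subgroup (threeJ3 F ω)) (hN : N.Normal)
    (hK : N ≤ KK hω) : N ≤ ZZ hω := by
  have one_mem : vec ω 1 ∈ SO ω := ⟨1, ⟨by norm_num, cflags.1, cflags.2.1⟩, rfl⟩
  have k1 : ∀ n ∈ N, ∃ c : F, act hω n (vec ω 1) = c • vec ω 1 := by
    intro n hn
    obtain ⟨v, ⟨hv, hP, hO⟩, e⟩ := SO_inv hω n (hK hn) _ one_mem
    have key : ∀ h hT, (mdl hω).In ⊤ h → trChk h hT = 0 → ev ω h *ᵥ vec ω 1 = vec ω 1 →
        OO (act1 v hT) := by
      rintro h hT ⟨g, _, eg⟩ ht hf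
      obtain ⟨u, ⟨hu, -, hO'⟩, e'⟩ := SO_inv hω _ (hK (hN.conj_mem n hn g)) _ one_mem
      have hf' : act hω g (vec ω 1) = vec ω 1 := by rw [act, eg]; exact hf
      rw [act_mul, act_mul, act_inv hω hf', ← e, act, eg] at e'
      have := vec_act1 hω ht hv
      rwa [vec_inj hω (act1_lt _ _) hu (this.trans e'.symm)]
    have := ((P_spec hv hP).2 hO).2 (key _ _ (hs_in hω).1 tr_all.2.1 (hs_fix hω).1)
      (key _ _ (hs_in hω).2.1 tr_all.2.2.1 (hs_fix hω).2.1)
      (key _ _ (hs_in hω).2.2 tr_all.2.2.2 (hs_fix hω).2.2)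
    simp only [List.mem_cons, List.not_mem_nil, or_false] at this
    rw [← e]
    rcases this with rfl | rfl | rfl
    exacts [⟨1, by simp⟩, ⟨_, vec_512⟩, ⟨_, vec_513⟩]
  have k2 : ∀ n ∈ N, ∀ x ∈ S1 ω, ∃ c : F, act hω n x = c • x := by
    intro n hn x hx
    obtain ⟨g, rfl⟩ := reach1 hω hx
    obtain ⟨c, hc⟩ := k1 _ (hN.conj_mem' n hn g)
    refine ⟨c, ?_⟩
    rw [← act_smul, ← hc, ← act_mul, ← act_mul]; congr 1; group
  intro n hn
  have k3 : ∀ w : F9, ∃ c : F, act hω n (Pi.single w 1) = c • Pi.single w 1 := fun w =>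
    k2 n hn _ ⟨2 ^ ι w, ⟨Nat.pow_lt_pow_right (by norm_num) (by have := ι_lt w; omega),
      cflags.2.2.2.2.2.2 _ (ι_lt w)⟩, vec_two_pow w⟩
  choose d hd using k3
  obtain ⟨c, hc⟩ := k2 n hn _ ⟨511, ⟨by norm_num, cflags.2.2.2.2.2.1⟩, vec_511⟩
  have k4 : (mdl hω).φ n = diagonal d := by
    ext w z
    have := congrFun (hd z) w
    rw [act, mulVec_single_one] at this
    rw [diagonal_apply]
    change _ = _ at this
    simp only [col_apply, Pi.smul_apply, Pi.single_apply, smul_eq_mul, mul_ite, mul_one,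
      mul_zero] at this
    rw [this]; split_ifs with h
    · rw [h]
    · rfl
  have k5 : (mdl hω).φ n = c • 1 := by
    rw [k4]
    ext w z
    have := congrFun hc w
    rw [act, k4] at this
    simp only [mulVec_diagonal, Pi.one_apply, mul_one, Pi.smul_apply, smul_eq_mul] at this
    rw [diagonal_apply, Matrix.smul_apply, one_apply, this]; simp
  obtain ⟨e, he, rfl⟩ := el4_surj hF hω c
  have z1 : zeta hω ∈ ZZ hω := Subgroup.mem_zpowers _
  interval_cases e
  · exfalso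
    have : (mdl hω).φ (n * n⁻¹) = 0 := by rw [map_mul, k5, el4_zero]; simp
    rw [mul_inv_cancel, map_one] at this
    exact one_ne_zero this
  · rw [el4_one, one_smul, ← map_one (mdl hω).φ] at k5
    rw [(mdl hω).inj k5]; exact Subgroup.one_mem _
  · rw [el4_two, ← zeta_eq hω] at k5
    rw [(mdl hω).inj k5]; exact z1
  · have : (mdl hω).φ n = (mdl hω).φ (zeta hω ^ 2) := by
      rw [k5, el4_three, map_pow, zeta_eq, smul_pow, omega_sq hω, one_pow]
    rw [(mdl hω).inj this]; exact pow_mem z1 2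

theorem main (hF : Fintype.card F = 4) : Subgroup.center (threeJ3 F ω) = ZZ hω ∧
    IsSimpleGroup (J3 F ω) :=
  simple_of_dichotomy (ZZ hω) (ZZ_le hω)
    (normal_dichotomy (ZZ hω) (KK hω) 19 (by rw [card_KK]; norm_num) (K_max hω) (core hω hF)
      (fun N _ h => by rw [gen19 hω N h, top_sup_eq])) (noncomm hω)

include hω in
theorem card_center (hF : Fintype.card F = 4) :
    Nat.card (Subgroup.center (threeJ3 F ω)) = 3 := by rw [(main hω hF).1, card_ZZ]

include hω in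
theorem card_J3 (hF : Fintype.card F = 4) : Nat.card (J3 F ω) = 50232960 := by
  have := Subgroup.card_eq_card_quotient_mul_card_subgroup (Subgroup.center (threeJ3 F ω))
  rw [card_G hω, card_center hω hF] at this
  change 150698880 = Nat.card (J3 F ω) * 3 at this
  omega

/-! ### The Hermitian form -/

def herm (x y : F9 → F) : F := ∑ z, x z * y z ^ 2

theorem herm_act (g : threeJ3 F ω) : ∀ x y, herm (act hω g x) (act hω g y) = herm x y := by
  have hg : g ∈ (mdl hω).gen [ca, cb, cc] := gen_abc hω ▸ trivial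
  refine closure_ind_fin (fun g _ => isOfFinOrder_of_finite g)
    (P := fun g => ∀ x y, herm (act hω g x) (act hω g y) = herm x y)
    (fun x y => by rw [act_one, act_one]) ?_ g hg
  rintro s ⟨a, ha, e⟩ g ih x y
  rw [act_mul, act_mul, ← ih x y]
  generalize act hω g x = u
  generalize act hω g y = v
  have key : ∀ a aT, trChk a aT = 0 → mulJ aT (cjJ a) = cone →
      herm (ev ω a *ᵥ u) (ev ω a *ᵥ v) = herm u v := by
    intro a aT ht hu
    have h1 : ev ω (cjJ a) = (ev ω a).map (frobenius F 2) := by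
      ext w z
      rw [map_apply, frobenius_def, ev, ev, ← ent4_cj hω (ι_lt w) (ι_lt z), lo_eq]; rfl
    have h2 := congrArg (ev ω) hu
    rw [ev_mulJ hω, ev_cone, h1, ev_tr ht] at h2
    have h3 : ∀ x y : F9 → F, herm x y = x ⬝ᵥ (frobenius F 2 ∘ y) := fun x y => rfl
    have h4 : frobenius F 2 ∘ (ev ω a *ᵥ v) = (ev ω a).map (frobenius F 2) *ᵥ (frobenius F 2 ∘ v) := by
      ext z; exact RingHom.map_mulVec _ _ _ _
    rw [h3, h3, h4, dotProduct_mulVec, vecMul_mulVec, h2, vecMul_one]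
  rw [act, act, e]
  simp only [List.mem_cons, List.not_mem_nil, or_false] at ha
  rcases ha with rfl | rfl | rfl
  exacts [key _ _ tr_all.1.1 cun.1, key _ _ tr_all.1.2.1 cun.2.1, key _ _ tr_all.1.2.2 cun.2.2]

end J3

end Cfsg.Agent.H5
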