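import Cfsg.Agent.H5.J3B
import Cfsg.Prelude.Def_Classical

set_option autoImplicit false

namespace Cfsg.Agent.H5

open Finset

theorem exists_omega (F : Type*) [Field F] [Fintype F] (hF : Fintype.card F = 4) :
    ∃ ω : F, ω ^ 2 + ω + 1 = 0 := by
  classical
  obtain ⟨ω, h⟩ : ∃ ω : F, ω ∉ ({0, 1} : Finset F) := by
    by_contra hn
    push Not at hn
    have : (univ : Finset F).card ≤ ({0, 1} : Finset F).card := card_le_card fun x _ => hn x
    have h2 : ({0, 1} : Finset F).card ≤ 2 := card_le_two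
    rw [card_univ, hF] at this; omega
  simp only [mem_insert, mem_singleton, not_or] at h
  have h3 := FiniteField.pow_card_sub_one_eq_one ω h.1
  rw [hF] at h3
  refine ⟨ω, mul_left_cancel₀ (sub_ne_zero.2 h.2) ?_⟩
  linear_combination h3

theorem center_map_equiv {G H : Type*} [Group G] [Group H] (e : G ≃* H) :
    (Subgroup.center G).map (e : G →* H) = Subgroup.center H := by
  ext x
  simp only [Subgroup.mem_map, Subgroup.mem_center_iff, MonoidHom.coe_coe]
  constructor
  · rintro ⟨y, hy, rfl⟩ g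
    obtain ⟨g, rfl⟩ := e.surjective g
    rw [← map_mul, hy, map_mul]
  · intro h
    refine ⟨e.symm x, fun g => e.injective ?_, by simp⟩
    simp [h]

/-- the central quotients of isomorphic groups -/
noncomputable def centerQuotEquiv {G H : Type*} [Group G] [Group H] (e : G ≃* H) :
    G ⧸ Subgroup.center G ≃* H ⧸ Subgroup.center H :=
  QuotientGroup.congr _ _ e (center_map_equiv e)

theorem ncard_lines {F V : Type*} [Field F] [Fintype F] [AddCommGroup V] [Module F V] [Finite V]
    (S : Set V) (h0 : (0 : V) ∉ S) (hS : ∀ c : F, c ≠ 0 → ∀ x ∈ S, c • x ∈ S) :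
    S.ncard = (Fintype.card F - 1) * ((fun x => F ∙ x) '' S).ncard := by
  classical
  have hfin := Set.toFinite S
  lift S to Finset V using hfin
  rw [← coe_image, Set.ncard_coe_finset, Set.ncard_coe_finset, card_eq_sum_card_image (fun x => F ∙ x),
    sum_const_nat (m := Fintype.card F - 1), mul_comm]
  intro L hL
  obtain ⟨x, hx, rfl⟩ := mem_image.1 hL
  have hx0 : x ≠ 0 := fun h => h0 (h ▸ hx)
  rw [← Fintype.card_units, ← card_univ]
  symm
  refine card_nbij (fun c : Fˣ => (c : F) • x) ?_ ?_ ?_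
  · intro c _
    simp only [coe_filter, Set.mem_ofPred_eq]
    exact ⟨hS _ c.ne_zero x hx, Submodule.span_singleton_smul_eq c.isUnit x⟩
  · intro c _ d _ h
    exact Units.ext (smul_left_injective F hx0 h)
  · intro y hy
    simp only [coe_filter, Set.mem_ofPred_eq] at hy
    obtain ⟨c, hc⟩ := Submodule.span_singleton_eq_span_singleton.1 hy.2.symm
    exact ⟨c, by simp, hc⟩

theorem det_eq_one_of_gen {G F n : Type*} [Group G] [Field F] [Fintype F] [Fintype n]
    [DecidableEq n] (φ : G →* Matrix n n F) (p : ℕ) (hp : Nat.Coprime p (Fintype.card F - 1))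
    (hgen : ∀ H : Subgroup G, (∀ x, x ^ p = 1 → x ∈ H) → H = ⊤) (g : G) : (φ g).det = 1 := by
  classical
  let d : G →* F := (Matrix.detMonoidHom).comp φ
  let d' : G →* Fˣ := d.toHomUnits
  have : d'.ker = ⊤ := hgen _ fun x hx => by
    rw [MonoidHom.mem_ker]
    have h1 : d' x ^ p = 1 := by rw [← map_pow, hx, map_one]
    have h2 : d' x ^ (Fintype.card F - 1) = 1 := by
      have := pow_card_eq_one (x := d' x)
      rwa [Fintype.card_units] at this
    have := orderOf_dvd_of_pow_eq_one h1
    have := orderOf_dvd_of_pow_eq_one h2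
    exact orderOf_eq_one_iff.1 (Nat.eq_one_of_dvd_coprimes hp ‹_› ‹_›)
  have h : g ∈ d'.ker := by rw [this]; trivial
  exact congrArg Units.val (MonoidHom.mem_ker.1 h)

namespace J3

open Matrix Cfsg.Spor

variable {F : Type} [Field F] [CharP F 2] {ω : F} (hω : ω ^ 2 + ω + 1 = 0) [Fintype F]

theorem act_ne_zero (g : threeJ3 F ω) {x : F9 → F} (hx : x ≠ 0) : act hω g x ≠ 0 := fun h => by
  have := act_inv hω h
  rw [act, mulVec_zero] at this
  exact hx this.symm

include hω in
theorem S1_smul (hF : Fintype.card F = 4) (c : F) (hc : c ≠ 0) : ∀ x ∈ S1 ω, c • x ∈ S1 ω := by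
  have h : ∀ x ∈ S1 ω, ω • x ∈ S1 ω := fun x hx => by
    have := S1_inv hω (zeta hω) x hx
    rwa [act, zeta_eq, smul_mulVec, one_mulVec] at this
  obtain ⟨e, he, rfl⟩ := el4_surj hF hω c
  intro x hx
  interval_cases e
  · exact absurd el4_zero hc
  · rwa [el4_one, one_smul]
  · rw [el4_two]; exact h x hx
  · rw [el4_three, ← omega_sq hω, pow_two, mul_smul]; exact h _ (h x hx)

omit [Fintype F] in
theorem herm_self (x : F9 → F) : herm x x = ∑ z, x z ^ 3 :=
  sum_congr rfl fun z _ => by ring

theorem iso_reach (hF : Fintype.card F = 4) {x : F9 → F} (hx : x ≠ 0) (h : ∑ z, x z ^ 3 = 0) :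
    ∃ g, act hω g x = vec ω 72 := by
  obtain ⟨v, hv, rfl⟩ := vec_surj hF hω x
  obtain ⟨r, hr, -, g, hg⟩ := reach hω v hv
  have h1 := herm_act hω g (vec ω v) (vec ω v)
  rw [hg, herm_self, herm_self, h] at h1
  simp only [List.mem_cons, List.not_mem_nil, or_false] at hr
  rcases hr with rfl | rfl | rfl | rfl
  · refine absurd (hg.trans ?_) (act_ne_zero hω g hx)
    ext z; simp [vec, ent4, bit]
  · rw [vec_one] at h1
    simp [Pi.single_apply] at h1
  · have : vec ω 73 = fun z : F9 => if z.2 = 0 then 1 else 0 :=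
      vec_eq (fun z => if z.2 = 0 then 1 else 0) (by decide +kernel) fun z => by
        split_ifs <;> simp [el4_zero, el4_one]
    rw [this] at h1
    simp only [ite_pow, one_pow, ne_eq, OfNat.ofNat_ne_zero, not_false_eq_true, zero_pow,
      sum_boole] at h1
    rw [show (univ.filter fun z : F9 => z.2 = 0).card = 3 by decide] at h1
    have h2 : (2 : F) = 0 := CharTwo.two_eq_zero
    exact absurd (by push_cast at h1; linear_combination h1 - h2) (one_ne_zero (α := F))
  · exact ⟨g, hg⟩

theorem det_eq_one (hF : Fintype.card F = 4) (g : threeJ3 F ω) : ((mdl hω).φ g).det = 1 :=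
  det_eq_one_of_gen (mdl hω).φ 19 (by rw [hF]; norm_num) (gen19 hω) g

noncomputable def toSU (hF : Fintype.card F = 4) (e : F9 ≃ Fin 9) : threeJ3 F ω →* SU 9 F 2 where
  toFun g := ⟨⟨reindex e e ((mdl hω).φ g), by rw [det_reindex_self, det_eq_one hω hF]⟩, by
    intro u v
    have h := herm_act hω g (u ∘ e) (v ∘ e)
    have k : ∀ u : Fin 9 → F, reindex e e ((mdl hω).φ g) *ᵥ u = act hω g (u ∘ e) ∘ e.symm := by
      intro u; rw [act, reindex_apply, submatrix_mulVec_equiv]; rfl
    change hermForm 9 F 2 (reindex e e ((mdl hω).φ g) *ᵥ u) (reindex e e ((mdl hω).φ g) *ᵥ v) = _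
    rw [k, k, hermForm, hermForm, ← e.sum_comp, ← e.sum_comp]
    simpa [herm] using h⟩
  map_one' := by
    apply Subtype.ext; apply Subtype.ext
    simp
  map_mul' a b := by
    apply Subtype.ext; apply Subtype.ext
    change reindex e e ((mdl hω).φ (a * b)) = reindex e e ((mdl hω).φ a) * reindex e e ((mdl hω).φ b)
    rw [(mdl hω).φ.map_mul, reindex_apply, reindex_apply, reindex_apply, submatrix_mul_equiv]

theorem toSU_inj (hF : Fintype.card F = 4) (e : F9 ≃ Fin 9) : Function.Injective (toSU hω hF e) := by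
  intro a b h
  have : reindex e e ((mdl hω).φ a) = reindex e e ((mdl hω).φ b) :=
    congrArg (fun x : SU 9 F 2 => x.1.1) h
  exact (mdl hω).inj ((reindex e e).injective this)

end J3

end Cfsg.Agent.H5
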