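import Mathlib

/-! Short vectors modulo 2 in a rootless even lattice of rank 24. -/

set_option autoImplicit false

namespace Cfsg.Agent.H5

open Matrix Finset

section
variable (B : Matrix (Fin 24) (Fin 24) ℤ)

def ipB (x y : Fin 24 → ℤ) : ℤ := x ⬝ᵥ (B *ᵥ y)

variable {B}
theorem ipB_comm (hsymm : B.IsSymm) (x y : Fin 24 → ℤ) : ipB B x y = ipB B y x := by
  unfold ipB
  rw [dotProduct_mulVec, ← mulVec_transpose, hsymm.eq, dotProduct_comm]

theorem ipB_add_left (x y z : Fin 24 → ℤ) : ipB B (x + y) z = ipB B x z + ipB B y z := by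
  simp [ipB]
theorem ipB_add_right (x y z : Fin 24 → ℤ) : ipB B x (y + z) = ipB B x y + ipB B x z := by
  simp [ipB, mulVec_add]
theorem ipB_smul_left (c : ℤ) (x z : Fin 24 → ℤ) : ipB B (c • x) z = c * ipB B x z := by
  rw [ipB, ipB, smul_dotProduct, smul_eq_mul]
theorem ipB_smul_right (c : ℤ) (x z : Fin 24 → ℤ) : ipB B x (c • z) = c * ipB B x z := by
  rw [ipB, ipB, mulVec_smul, dotProduct_smul, smul_eq_mul]
theorem ipB_neg_left (x z : Fin 24 → ℤ) : ipB B (-x) z = -ipB B x z := by simp [ipB]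
theorem ipB_neg_right (x z : Fin 24 → ℤ) : ipB B x (-z) = -ipB B x z := by simp [ipB, mulVec_neg]

theorem cong_short (hsymm : B.IsSymm) (hpos : ∀ x : Fin 24 → ℤ, x ≠ 0 → 0 < x ⬝ᵥ (B *ᵥ x))
    (heven : ∀ x : Fin 24 → ℤ, (2 : ℤ) ∣ x ⬝ᵥ (B *ᵥ x))
    (h2 : ∀ x : Fin 24 → ℤ, x ⬝ᵥ (B *ᵥ x) ≠ 2) (x y : Fin 24 → ℤ)
    (hx : ipB B x x ≤ 8) (hy : ipB B y y ≤ 8) (hc : ∀ i, (2 : ℤ) ∣ (x - y) i) :
    y = x ∨ y = -x ∨ (ipB B x y = 0 ∧ ipB B x x = 8 ∧ ipB B y y = 8) := by
  have h4 : ∀ z : Fin 24 → ℤ, z ≠ 0 → 4 ≤ ipB B z z := by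
    intro z hz
    have a := hpos z hz
    have b := h2 z
    obtain ⟨k, hk⟩ := heven z
    unfold ipB; omega
  choose z hz using hc
  have e1 : x = y + (2 : ℤ) • z := by
    ext i; have := hz i; simp only [Pi.sub_apply] at this; simp; omega
  by_cases hz0 : z = 0
  · left; simp [e1, hz0]
  by_cases hz1 : z + y = 0
  · right; left
    have : z = -y := eq_neg_of_add_eq_zero_left hz1
    rw [e1, this]; ext i; simp; ring
  right; right
  have a := h4 z hz0
  have b := h4 _ hz1
  rw [e1] at hx ⊢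
  simp only [ipB_add_left, ipB_add_right, ipB_smul_left, ipB_smul_right] at *
  rw [ipB_comm hsymm z y] at *
  omega

theorem card_orth_le (hsymm : B.IsSymm) (T : Finset (Fin 24 → ℤ))
    (h8 : ∀ x ∈ T, ipB B x x = 8)
    (ho : ∀ x ∈ T, ∀ y ∈ T, y = x ∨ y = -x ∨ ipB B x y = 0) : T.card ≤ 48 := by
  classical
  have key : ∀ U : Finset (Fin 24 → ℤ), U ⊆ T → (∀ x ∈ U, ∀ y ∈ U, y ≠ -x) → U.card ≤ 24 := by
    intro U hU hn
    have li : LinearIndependent ℤ (fun x : U => (x : Fin 24 → ℤ)) := by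
      rw [linearIndependent_iff']
      intro s g hg j hj
      have : ipB B (∑ i ∈ s, g i • (i : Fin 24 → ℤ)) j = g j * 8 := by
        have : ipB B (∑ i ∈ s, g i • (i : Fin 24 → ℤ)) j = ∑ i ∈ s, g i * ipB B i j := by
          simp only [ipB, sum_dotProduct, smul_dotProduct, smul_eq_mul]
        rw [this, sum_eq_single j, h8 _ (hU j.2)]
        · intro i _ hij
          rcases ho i (hU i.2) j (hU j.2) with h | h | h
          · exact absurd (Subtype.ext h).symm hij
          · exact absurd h (hn _ i.2 _ j.2)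
          · simp [h]
        · intro h; exact absurd hj h
      rw [hg] at this
      simp [ipB] at this
      exact this
    have := li.fintype_card_le_finrank
    simpa using this
  have hP := key (T.filter fun x => 0 < toLex x) (filter_subset _ _) (by
    intro x hx y hy e
    have h1 := (mem_filter.1 hx).2
    have h2 := (mem_filter.1 hy).2
    rw [e] at h2
    have : toLex (-x) = -toLex x := rfl
    rw [this] at h2
    exact lt_asymm h1 (neg_pos.1 h2))
  have hN := key (T.filter fun x => ¬ 0 < toLex x) (filter_subset _ _) (by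
    intro x hx y hy e
    have h1 := (mem_filter.1 hx).2
    have h2 := (mem_filter.1 hy).2
    rw [e] at h2
    have : toLex (-x) = -toLex x := rfl
    rw [this, neg_pos] at h2
    have h3 : toLex x = 0 := le_antisymm (not_lt.1 h1) (not_lt.1 h2)
    have h4 : x = 0 := h3
    have := h8 x (mem_filter.1 hx).1
    simp [h4, ipB] at this)
  have := card_filter_add_card_filter_not (s := T) (fun x => 0 < toLex x)
  omega

theorem cross48 (hsymm : B.IsSymm) (hpos : ∀ x : Fin 24 → ℤ, x ≠ 0 → 0 < x ⬝ᵥ (B *ᵥ x))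
    (heven : ∀ x : Fin 24 → ℤ, (2 : ℤ) ∣ x ⬝ᵥ (B *ᵥ x))
    (h2 : ∀ x : Fin 24 → ℤ, x ⬝ᵥ (B *ᵥ x) ≠ 2)
    (h4 : {x : Fin 24 → ℤ | x ⬝ᵥ (B *ᵥ x) = 4}.ncard = 196560)
    (h6 : {x : Fin 24 → ℤ | x ⬝ᵥ (B *ᵥ x) = 6}.ncard = 16773120)
    (h8 : {x : Fin 24 → ℤ | x ⬝ᵥ (B *ᵥ x) = 8}.ncard = 398034000) (x : Fin 24 → ℤ) :
    (∃ y, ipB B y y ≤ 8 ∧ ∀ i, (2 : ℤ) ∣ (x - y) i) ∧
    (ipB B x x = 8 → {y : Fin 24 → ℤ | y ⬝ᵥ (B *ᵥ y) = 8 ∧ ∀ i, (2 : ℤ) ∣ (x - y) i}.ncard = 48) := by
  classical
  have f4 := Set.finite_of_ncard_ne_zero (h4 ▸ (by norm_num : (196560 : ℕ) ≠ 0))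
  have f6 := Set.finite_of_ncard_ne_zero (h6 ▸ (by norm_num : (16773120 : ℕ) ≠ 0))
  have f8 := Set.finite_of_ncard_ne_zero (h8 ▸ (by norm_num : (398034000 : ℕ) ≠ 0))
  set S4 := f4.toFinset
  set S6 := f6.toFinset
  set S8 := f8.toFinset
  have m4 : ∀ y, y ∈ S4 ↔ ipB B y y = 4 := fun y => by simp [S4, ipB]
  have m6 : ∀ y, y ∈ S6 ↔ ipB B y y = 6 := fun y => by simp [S6, ipB]
  have m8 : ∀ y, y ∈ S8 ↔ ipB B y y = 8 := fun y => by simp [S8, ipB]
  have c4 : S4.card = 196560 := by rw [← h4, Set.ncard_eq_toFinset_card _ f4]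
  have c6 : S6.card = 16773120 := by rw [← h6, Set.ncard_eq_toFinset_card _ f6]
  have c8 : S8.card = 398034000 := by rw [← h8, Set.ncard_eq_toFinset_card _ f8]
  let π : (Fin 24 → ℤ) → (Fin 24 → ZMod 2) := fun y i => (y i : ZMod 2)
  have hπ : ∀ y z, π y = π z ↔ ∀ i, (2 : ℤ) ∣ (y - z) i := by
    intro y z
    simp only [π, funext_iff, Pi.sub_apply]
    refine forall_congr' fun i => ?_
    rw [eq_comm, ZMod.intCast_eq_intCast_iff_dvd_sub]; rfl
  let W : (Fin 24 → ZMod 2) → ℕ := fun c =>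
    48 * (({0} : Finset (Fin 24 → ℤ)).filter (π · = c)).card + 24 * ((S4 ∪ S6).filter (π · = c)).card +
      (S8.filter (π · = c)).card
  have hsum : ∑ c, W c = ∑ _c : Fin 24 → ZMod 2, 48 := by
    simp only [W, sum_add_distrib, ← mul_sum]
    rw [← card_eq_sum_card_fiberwise (fun _ _ => mem_univ _),
      ← card_eq_sum_card_fiberwise (fun _ _ => mem_univ _),
      ← card_eq_sum_card_fiberwise (fun _ _ => mem_univ _), card_union_of_disjoint, c4, c6, c8]
    · simp
    · rw [disjoint_left]; intro y a b; rw [m4] at a; rw [m6] at b; omega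
  have i0 : ipB B 0 0 = 0 := by simp [ipB]
  have cs := cong_short hsymm hpos heven h2
  have hle : ∀ c, W c ≤ 48 := by
    intro c
    simp only [W]
    by_cases h0 : π 0 = c
    · have a : (S4 ∪ S6).filter (π · = c) = ∅ := by
        rw [filter_eq_empty_iff]; intro y hy e
        rw [mem_union, m4, m6] at hy
        rcases cs 0 y (by omega) (by omega) ((hπ _ _).1 (h0.trans e.symm)) with h | h | h
        · rw [h] at hy; omega
        · rw [h, neg_zero] at hy; omega
        · omega
      have b : S8.filter (π · = c) = ∅ := by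
        rw [filter_eq_empty_iff]; intro y hy e
        rw [m8] at hy
        rcases cs 0 y (by omega) (by omega) ((hπ _ _).1 (h0.trans e.symm)) with h | h | h
        · rw [h] at hy; omega
        · rw [h, neg_zero] at hy; omega
        · omega
      have := card_filter_le ({0} : Finset (Fin 24 → ℤ)) (π · = c)
      rw [a, b]; simp only [card_singleton, card_empty] at *; omega
    · have a : ({0} : Finset (Fin 24 → ℤ)).filter (π · = c) = ∅ := by
        rw [filter_eq_empty_iff]; intro y hy; rw [mem_singleton.1 hy]; exact h0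
      rw [a]
      by_cases h1 : (S4 ∪ S6).filter (π · = c) = ∅
      · rw [h1]
        simp only [card_empty, mul_zero, zero_add]
        refine card_orth_le hsymm _ (fun y hy => (m8 y).1 (mem_filter.1 hy).1) ?_
        intro y hy z hz
        rw [mem_filter, m8] at hy hz
        rcases cs y z (by omega) (by omega) ((hπ _ _).1 (hy.2.trans hz.2.symm)) with h | h | h
        · exact Or.inl h
        · exact Or.inr (Or.inl h)
        · exact Or.inr (Or.inr h.1)
      · obtain ⟨y, hy⟩ := nonempty_iff_ne_empty.2 h1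
        rw [mem_filter, mem_union, m4, m6] at hy
        have b : S8.filter (π · = c) = ∅ := by
          rw [filter_eq_empty_iff]; intro z hz e
          rw [m8] at hz
          rcases cs y z (by omega) (by omega) ((hπ _ _).1 (hy.2.trans e.symm)) with h | h | h
          · rw [h] at hz; omega
          · rw [h, ipB_neg_left, ipB_neg_right] at hz; omega
          · omega
        have d : (S4 ∪ S6).filter (π · = c) ⊆ {y, -y} := by
          intro z hz
          rw [mem_filter, mem_union, m4, m6] at hz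
          rcases cs y z (by omega) (by omega) ((hπ _ _).1 (hy.2.trans hz.2.symm)) with h | h | h
          · simp [h]
          · simp [h]
          · omega
        have := (card_le_card d).trans (card_le_two)
        rw [b]; simp only [card_empty]; omega
  have heq : W (π x) = 48 :=
    (sum_eq_sum_iff_of_le (fun c _ => hle c)).1 hsum _ (mem_univ _)
  constructor
  · by_contra hn
    push Not at hn
    have a : ∀ S : Finset (Fin 24 → ℤ), (∀ y ∈ S, ipB B y y ≤ 8) → S.filter (π · = π x) = ∅ := by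
      intro S hS
      rw [filter_eq_empty_iff]; intro y hy e
      obtain ⟨i, hi⟩ := hn y (hS y hy)
      exact hi ((hπ _ _).1 e.symm i)
    simp only [W] at heq
    rw [a, a, a] at heq
    · simp at heq
    · intro y hy; rw [m8] at hy; omega
    · intro y hy; rw [mem_union, m4, m6] at hy; omega
    · intro y hy; rw [mem_singleton.1 hy]; omega
  · intro hx
    have a : ∀ S : Finset (Fin 24 → ℤ), (∀ y ∈ S, ipB B y y < 8) → S.filter (π · = π x) = ∅ := by
      intro S hS
      rw [filter_eq_empty_iff]; intro y hy e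
      have := hS y hy
      rcases cs x y (by omega) (by omega) ((hπ _ _).1 e.symm) with h | h | h
      · rw [h] at this; omega
      · rw [h, ipB_neg_left, ipB_neg_right] at this; omega
      · omega
    simp only [W] at heq
    rw [a, a] at heq
    · simp only [card_empty, mul_zero, zero_add] at heq
      have e : {y : Fin 24 → ℤ | y ⬝ᵥ (B *ᵥ y) = 8 ∧ ∀ i, (2 : ℤ) ∣ (x - y) i} =
          ↑(S8.filter (π · = π x)) := by
        ext y
        rw [Set.mem_setOf_eq, mem_coe, mem_filter, m8, eq_comm (a := π y), hπ]; rfl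
      rw [e, Set.ncard_coe_finset, heq]
    · intro y hy; rw [mem_union, m4, m6] at hy; omega
    · intro y hy; rw [mem_singleton.1 hy]; omega

end

end Cfsg.Agent.H5
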