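import Cfsg.Agent.H4.M24
import Cfsg.Agent.H5.Pack

/-! The rank-24 lattice: membership criterion, inner products, monomial automorphisms. -/

set_option autoImplicit false

namespace Cfsg.Agent.H5.Lee

open Finset H4
open scoped Pointwise

abbrev V := GolayPt → ℤ
abbrev Λ := leechLattice

/-- second binary digits of the coordinates -/
def wd (x : V) : GolayPt → ZMod 2 := fun i => ((x i / 2 : ℤ) : ZMod 2)

def IsL (x : V) : Prop :=
  ∃ m : ℤ, (m = 0 ∨ m = 1) ∧ (∀ i, x i % 2 = m) ∧ (∑ i, x i) % 8 = 4 * m ∧ wd x ∈ golayCode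

theorem cast2_eq_zero (a : ℤ) : ((a : ℤ) : ZMod 2) = 0 ↔ a % 2 = 0 := by
  rw [ZMod.intCast_zmod_eq_zero_iff_dvd]; push_cast; omega

theorem cast2_eq (a b : ℤ) : ((a : ℤ) : ZMod 2) = (b : ℤ) ↔ a % 2 = b % 2 := by
  rw [ZMod.intCast_eq_intCast_iff]; rfl

theorem mem_support_wd (x : V) (i : GolayPt) : i ∈ support₂ (wd x) ↔ x i / 2 % 2 = 1 := by
  rw [mem_support₂, wd, Ne, cast2_eq_zero]; omega

theorem isL_of_mem_set {x : V} (h : x ∈ leechSet) : IsL x := by
  obtain ⟨m, h1, h2, h3⟩ := h
  refine ⟨m % 2, by omega, h1, by unfold Int.ModEq at h2; omega, ?_⟩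
  rw [← support_mem_code_iff]
  have e : support₂ (wd x) = univ.filter fun i => x i ≡ m % 2 + 2 [ZMOD 4] := by
    ext i
    have := h1 i
    simp only [mem_support_wd, mem_filter, mem_univ, true_and]; unfold Int.ModEq at this ⊢
    omega
  rw [e]; exact h3 _

theorem mem_set_of_isL {x : V} (h : IsL x) : x ∈ leechSet := by
  obtain ⟨m, h0, h1, h2, h3⟩ := h
  refine ⟨m, fun i => by have := h1 i; unfold Int.ModEq; omega, by unfold Int.ModEq; omega, fun k => ?_⟩
  rw [← support_mem_code_iff] at h3
  by_cases hk : k % 2 = m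
  · by_cases hk2 : k % 4 = m
    · have e : (univ.filter fun i => x i ≡ k [ZMOD 4]) = (support₂ (wd x))ᶜ := by
        ext i
        have := h1 i
        simp only [mem_support_wd, mem_filter, mem_univ, true_and, mem_compl]
        unfold Int.ModEq; omega
      rw [e]; exact compl_mem_code h3
    · have e : (univ.filter fun i => x i ≡ k [ZMOD 4]) = (support₂ (wd x)) := by
        ext i
        have := h1 i
        simp only [mem_support_wd, mem_filter, mem_univ, true_and]
        unfold Int.ModEq; omega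
      rw [e]; exact h3
  · have e : (univ.filter fun i => x i ≡ k [ZMOD 4]) = ∅ := by
      ext i
      have := h1 i
      simp only [mem_filter, mem_univ, true_and, notMem_empty, iff_false]; unfold Int.ModEq
      omega
    rw [e]; exact empty_mem_code

theorem one_mem_golay : (1 : GolayPt → ZMod 2) ∈ golayCode :=
  Submodule.subset_span (Or.inr rfl)

theorem IsL.add {x y : V} (hx : IsL x) (hy : IsL y) : IsL (x + y) := by
  obtain ⟨m, h0, h1, h2, h3⟩ := hx
  obtain ⟨n, k0, k1, k2, k3⟩ := hy
  refine ⟨(m + n) % 2, by omega, fun i => ?_, ?_, ?_⟩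
  · have := h1 i; have := k1 i; simp only [Pi.add_apply]; omega
  · simp only [Pi.add_apply, sum_add_distrib]; omega
  · have : wd (x + y) = wd x + wd y + ((m * n : ℤ) : ZMod 2) • (1 : GolayPt → ZMod 2) := by
      funext i
      have := h1 i; have := k1 i
      simp only [wd, Pi.add_apply, Pi.smul_apply, Pi.one_apply, smul_eq_mul, mul_one]
      rw [← Int.cast_add, ← Int.cast_add, cast2_eq]
      rcases h0 with rfl | rfl <;> rcases k0 with rfl | rfl <;> omega
    rw [this]
    exact add_mem (add_mem h3 k3) (Submodule.smul_mem _ _ one_mem_golay)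

theorem IsL.neg {x : V} (hx : IsL x) : IsL (-x) := by
  obtain ⟨m, h0, h1, h2, h3⟩ := hx
  refine ⟨m, h0, fun i => ?_, ?_, ?_⟩
  · have := h1 i; simp only [Pi.neg_apply]; omega
  · simp only [Pi.neg_apply, sum_neg_distrib]; omega
  · have : wd (-x) = wd x + ((m : ℤ) : ZMod 2) • (1 : GolayPt → ZMod 2) := by
      funext i
      have := h1 i
      simp only [wd, Pi.add_apply, Pi.neg_apply, Pi.smul_apply, Pi.one_apply, smul_eq_mul, mul_one]
      rw [← Int.cast_add, cast2_eq]
      rcases h0 with rfl | rfl <;> omega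
    rw [this]
    exact add_mem h3 (Submodule.smul_mem _ _ one_mem_golay)

theorem isL_zero : IsL 0 :=
  ⟨0, Or.inl rfl, fun _ => rfl, by simp, by
    have : wd 0 = 0 := by funext i; simp [wd]
    rw [this]; exact zero_mem _⟩

theorem mem_iff {x : V} : x ∈ Λ ↔ IsL x := by
  constructor
  · intro h
    induction h using AddSubgroup.closure_induction with
    | mem x hx => exact isL_of_mem_set hx
    | zero => exact isL_zero
    | add x y _ _ hx hy => exact hx.add hy
    | neg x _ hx => exact hx.neg
  · exact fun h => AddSubgroup.subset_closure (mem_set_of_isL h)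

theorem golay_orth {u v : GolayPt → ZMod 2} (hu : u ∈ golayCode) (hv : v ∈ golayCode) :
    ∑ i, u i * v i = 0 := by
  have h := card_inter_even ((support_mem_code_iff u).2 hu) ((support_mem_code_iff v).2 hv)
  have : ∑ i, u i * v i = ((support₂ u ∩ support₂ v).card : ZMod 2) := by
    rw [card_eq_sum_ones, Nat.cast_sum, ← sum_subset (subset_univ (support₂ u ∩ support₂ v))]
    · refine sum_congr rfl fun i hi => ?_
      rw [mem_inter, mem_support₂, mem_support₂] at hi
      rw [zmod2_eq_one_of_ne_zero _ hi.1, zmod2_eq_one_of_ne_zero _ hi.2]; rfl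
    · intro i _ hi
      rw [mem_inter, mem_support₂, mem_support₂] at hi
      by_contra hne
      exact hi ⟨left_ne_zero_of_mul hne, right_ne_zero_of_mul hne⟩
  rw [this]
  exact (ZMod.natCast_eq_zero_iff_even).2 (Nat.even_iff.2 h)

theorem dot8 {x y : V} (hx : x ∈ Λ) (hy : y ∈ Λ) : (8 : ℤ) ∣ dotInt x y := by
  obtain ⟨m, h0, h1, h2, h3⟩ := mem_iff.1 hx
  obtain ⟨n, k0, k1, k2, k3⟩ := mem_iff.1 hy
  have e := golay_orth h3 k3
  simp only [wd] at e
  rw [← Int.cast_zero] at e
  simp only [← Int.cast_mul, ← Int.cast_sum, cast2_eq] at e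
  have hx' : ∀ i, x i = m + 2 * (x i / 2) := fun i => by have := h1 i; omega
  have hy' : ∀ i, y i = n + 2 * (y i / 2) := fun i => by have := k1 i; omega
  have sx : ∑ i, x i = 24 * m + 2 * ∑ i, x i / 2 := by
    rw [sum_congr rfl fun i _ => hx' i, sum_add_distrib, ← mul_sum]; simp [card_golayPt]
  have sy : ∑ i, y i = 24 * n + 2 * ∑ i, y i / 2 := by
    rw [sum_congr rfl fun i _ => hy' i, sum_add_distrib, ← mul_sum]; simp [card_golayPt]
  have d : dotInt x y = 24 * (m * n) + 2 * m * ∑ i, y i / 2 + 2 * n * ∑ i, x i / 2 +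
      4 * ∑ i, x i / 2 * (y i / 2) := by
    rw [dotInt, sum_congr rfl fun i _ => show x i * y i = m * n + 2 * m * (y i / 2) + 2 * n * (x i / 2)
      + 4 * (x i / 2 * (y i / 2)) by rw [hx' i, hy' i]; simp only [← hx' i, ← hy' i]; nth_rw 1 [hx' i, hy' i]; ring]
    simp only [sum_add_distrib, ← mul_sum]; simp [card_golayPt]; ring
  rw [d]
  rcases h0 with rfl | rfl <;> rcases k0 with rfl | rfl <;> omega

/-! ### inner products -/

theorem dot_comm (x y : V) : dotInt x y = dotInt y x := sum_congr rfl fun _ _ => mul_comm _ _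
theorem dot_self (x : V) : dotInt x x = sqNorm x := sum_congr rfl fun _ _ => (sq _).symm
theorem dot_add_left (x y z : V) : dotInt (x + y) z = dotInt x z + dotInt y z := by
  simp [dotInt, add_mul, sum_add_distrib]
theorem dot_add_right (x y z : V) : dotInt x (y + z) = dotInt x y + dotInt x z := by
  simp [dotInt, mul_add, sum_add_distrib]
theorem dot_neg_left (x z : V) : dotInt (-x) z = -dotInt x z := by simp [dotInt]
theorem dot_neg_right (x z : V) : dotInt x (-z) = -dotInt x z := by simp [dotInt]
theorem dot_sub_left (x y z : V) : dotInt (x - y) z = dotInt x z - dotInt y z := by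
  simp [dotInt, sub_mul, sum_sub_distrib]
theorem dot_sub_right (x y z : V) : dotInt x (y - z) = dotInt x y - dotInt x z := by
  simp [dotInt, mul_sub, sum_sub_distrib]
theorem dot_smul_left (c : ℤ) (x z : V) : dotInt (c • x) z = c * dotInt x z := by
  simp only [dotInt, mul_sum, mul_assoc, Pi.smul_apply, smul_eq_mul]
theorem dot_smul_right (c : ℤ) (x z : V) : dotInt x (c • z) = c * dotInt x z := by
  rw [dot_comm, dot_smul_left, dot_comm]
theorem dot_single (i : GolayPt) (c : ℤ) (x : V) : dotInt (Pi.single i c) x = c * x i := by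
  simp [dotInt, Pi.single_apply]
theorem norm_add (x y : V) : sqNorm (x + y) = sqNorm x + sqNorm y + 2 * dotInt x y := by
  simp only [← dot_self, dot_add_left, dot_add_right, dot_comm y x]; ring
theorem norm_sub (x y : V) : sqNorm (x - y) = sqNorm x + sqNorm y - 2 * dotInt x y := by
  simp only [← dot_self, dot_sub_left, dot_sub_right, dot_comm y x]; ring
theorem norm_neg (x : V) : sqNorm (-x) = sqNorm x := by simp [sqNorm]
theorem norm_smul (c : ℤ) (x : V) : sqNorm (c • x) = c ^ 2 * sqNorm x := by
  simp only [← dot_self, dot_smul_left, dot_smul_right]; ring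
theorem norm_nonneg (x : V) : 0 ≤ sqNorm x := sum_nonneg fun _ _ => sq_nonneg _
theorem sq_le_norm (x : V) (i : GolayPt) : x i ^ 2 ≤ sqNorm x :=
  single_le_sum (f := fun i => x i ^ 2) (fun _ _ => sq_nonneg _) (mem_univ i)
theorem eq_zero_of_norm {x : V} (h : sqNorm x = 0) : x = 0 := funext fun i => by
  have := sq_le_norm x i
  exact pow_eq_zero_iff (two_ne_zero) |>.1 (le_antisymm (h ▸ this) (sq_nonneg _))
theorem norm_single (i : GolayPt) (c : ℤ) : sqNorm (Pi.single i c : V) = c ^ 2 := by
  rw [← dot_self, dot_single]; simp [sq]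

/-! ### the group -/

theorem smul_add' (g : Co0) (x y : Λ) : g • (x + y) = g • x + g • y := g.2.1 x y
theorem norm_smul' (g : Co0) (x : Λ) : sqNorm ((g • x : Λ) : V) = sqNorm (x : V) := g.2.2 x

/-- an element of the group as an additive map -/
def hom (g : Co0) : Λ →+ Λ := AddMonoidHom.mk' (fun x => g • x) (smul_add' g)

theorem smul_zero' (g : Co0) : g • (0 : Λ) = 0 := (hom g).map_zero
theorem smul_neg' (g : Co0) (x : Λ) : g • (-x) = -(g • x) := (hom g).map_neg x
theorem smul_sub' (g : Co0) (x y : Λ) : g • (x - y) = g • x - g • y := (hom g).map_sub x y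
theorem smul_zsmul (g : Co0) (c : ℤ) (x : Λ) : g • (c • x) = c • (g • x) := (hom g).map_zsmul c x
theorem smul_nsmul (g : Co0) (c : ℕ) (x : Λ) : g • (c • x) = c • (g • x) := (hom g).map_nsmul c x

theorem dot_smul (g : Co0) (x y : Λ) :
    dotInt ((g • x : Λ) : V) ((g • y : Λ) : V) = dotInt (x : V) (y : V) := by
  have h := norm_smul' g (x + y)
  rw [smul_add', AddSubgroup.coe_add, AddSubgroup.coe_add, norm_add, norm_add, norm_smul',
    norm_smul'] at h
  omega

theorem dot_smul_fix {g : Co0} {x : Λ} (h : g • x = x) (y : Λ) :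
    dotInt (x : V) ((g • y : Λ) : V) = dotInt (x : V) (y : V) := by
  conv_lhs => rw [← h]
  exact dot_smul g x y

theorem finite_norm (n : ℤ) : {x : V | sqNorm x = n}.Finite := by
  refine (Set.Finite.pi' fun _ => Set.finite_Icc (-n) n).subset fun x hx i => ?_
  have := sq_le_norm x i
  rw [hx] at this
  constructor <;> nlinarith

theorem finite_normL (n : ℤ) : {x : Λ | sqNorm (x : V) = n}.Finite :=
  (finite_norm n).preimage Subtype.val_injective.injOn

/-- an additive norm-preserving map of the lattice to itself is an automorphism -/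
noncomputable def mkCo (f : Λ →+ Λ) (h : ∀ x, sqNorm ((f x : Λ) : V) = sqNorm (x : V)) : Co0 :=
  ⟨Equiv.ofBijective f (by
    have hi : Function.Injective f := (injective_iff_map_eq_zero f).2 fun x hx => by
      have := h x
      rw [hx] at this
      exact Subtype.ext (eq_zero_of_norm (by rw [← this]; simp [sqNorm]))
    refine ⟨hi, fun y => ?_⟩
    have := ((finite_normL (sqNorm (y : V))).injOn_iff_bijOn_of_mapsTo (f := f)
      fun x hx => (h x).trans hx).1 hi.injOn
    obtain ⟨x, -, hx⟩ := this.surjOn (show y ∈ {x : Λ | sqNorm (x : V) = sqNorm (y : V)} from rfl)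
    exact ⟨x, hx⟩), fun v w => f.map_add v w, h⟩

theorem mkCo_smul (f : Λ →+ Λ) (h) (x : Λ) : mkCo f h • x = f x := rfl

end Cfsg.Agent.H5.Lee
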