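import Cfsg.Agent.H5.LeeA

/-! Counting short vectors of the rank-24 lattice by a generating function. -/

set_option autoImplicit false

namespace Cfsg.Agent.H5.Lee

open Finset H4

noncomputable def CF : Finset (Finset GolayPt) := (Set.toFinite Code).toFinset

theorem mem_CF {c : Finset GolayPt} : c ∈ CF ↔ c ∈ Code := by simp [CF]

theorem card_CF_filter (k : ℕ) :
    #(CF.filter fun c => #c = k) = countLt 4096 (fun x => Nat.beq (pc24 (cw x)) k) := by
  rw [← ncard_code (A := {c | c ∈ Code ∧ #c = k}) (fun m => Nat.beq (pc24 m) k) (fun _ h => h.1)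
    fun m hm hc => by
      simp only [Set.mem_ofPred_eq, ofMask_mem_of_inC hc, true_and, card_ofMask24 hm, Nat.beq_eq],
    ← Set.ncard_coe_finset]
  congr 1; ext c; simp [mem_CF]

theorem sum_CF (F : ℕ → ℤ) :
    ∑ c ∈ CF, F #c = F 0 + 759 * F 8 + 2576 * F 12 + 759 * F 16 + F 24 := by
  rw [← sum_fiberwise_of_maps_to (t := {0, 8, 12, 16, 24}) (g := fun c => #c)
    fun c hc => by simpa using card_of_mem_code (mem_CF.1 hc)]
  have : ∀ k, ∑ c ∈ CF with #c = k, F #c = (#(CF.filter fun c => #c = k) : ℤ) * F k := fun k => by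
    rw [sum_congr rfl fun c hc => by rw [(mem_filter.1 hc).2], sum_const, nsmul_eq_mul]
  simp only [this, card_CF_filter]
  have c0 : countLt 4096 (fun x => Nat.beq (pc24 (cw x)) 0) = 1 := by decide +kernel
  have c8 : countLt 4096 (fun x => Nat.beq (pc24 (cw x)) 8) = 759 := by decide +kernel
  have c12 : countLt 4096 (fun x => Nat.beq (pc24 (cw x)) 12) = 2576 := by decide +kernel
  have c16 : countLt 4096 (fun x => Nat.beq (pc24 (cw x)) 16) = 759 := by decide +kernel
  have c24 : countLt 4096 (fun x => Nat.beq (pc24 (cw x)) 24) = 1 := by decide +kernel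
  rw [sum_insert (by decide), sum_insert (by decide), sum_insert (by decide), sum_insert (by decide),
    sum_singleton, c0, c8, c12, c16, c24]
  push_cast; ring

/-- the residues modulo 4 of `x` are given by `m` and `c` -/
def Mt (x : V) (m : ℤ) (c : Finset GolayPt) : Prop := ∀ i, x i % 4 = m + if i ∈ c then 2 else 0

theorem Mt.support {x : V} {m : ℤ} {c : Finset GolayPt} (h : Mt x m c) (hm : m = 0 ∨ m = 1) :
    support₂ (wd x) = c := by
  ext i
  have := h i
  rw [mem_support_wd]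
  split_ifs at this with hi <;> simp only [hi, iff_true, iff_false] <;> omega

theorem Mt.sum_iff {x : V} {m : ℤ} {c : Finset GolayPt} (h : Mt x m c) (hm : m = 0 ∨ m = 1)
    (hc : c ∈ Code) : (∑ i, x i) % 8 = 4 * m ↔ (∑ i, x i / 4) % 2 = m := by
  have e : ∑ i, x i = 4 * ∑ i, x i / 4 + 24 * m + 2 * #c := by
    rw [sum_congr rfl fun i _ => show x i = 4 * (x i / 4) + m + if i ∈ c then 2 else 0 by
      have := h i; omega]
    simp only [sum_add_distrib, ← mul_sum, sum_ite_mem, univ_inter, sum_const, card_univ,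
      card_golayPt, nsmul_eq_mul]
    push_cast; ring
  have := card_of_mem_code hc
  omega

theorem mem_iff_Mt {x : V} : x ∈ Λ ↔
    ∃ m : ℤ, (m = 0 ∨ m = 1) ∧ ∃ c ∈ Code, Mt x m c ∧ (∑ i, x i / 4) % 2 = m := by
  rw [mem_iff]
  constructor
  · rintro ⟨m, h0, h1, h2, h3⟩
    have hM : Mt x m (support₂ (wd x)) := fun i => by
      have := h1 i
      simp only [mem_support_wd]; split_ifs <;> omega
    have hc := (support_mem_code_iff _).2 h3
    exact ⟨m, h0, _, hc, hM, (hM.sum_iff h0 hc).1 h2⟩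
  · rintro ⟨m, h0, c, hc, hM, h2⟩
    refine ⟨m, h0, fun i => ?_, (hM.sum_iff h0 hc).2 h2, ?_⟩
    · have := hM i; split_ifs at this <;> omega
    · rw [← support_mem_code_iff, hM.support h0]; exact hc

noncomputable def box : Finset V := Fintype.piFinset fun _ => Icc (-8) 8

theorem mem_box {x : V} : x ∈ box ↔ ∀ i, -8 ≤ x i ∧ x i ≤ 8 := by
  simp only [box, Fintype.mem_piFinset, mem_Icc]

theorem card_box : #box = 17 ^ 24 := by
  rw [box, Fintype.card_piFinset, prod_const, card_univ, card_golayPt, Int.card_Icc]; rfl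

theorem sum_box (g : GolayPt → ℤ → ℤ) :
    ∑ x ∈ box, ∏ i, g i (x i) = ∏ i, ∑ t ∈ Icc (-8 : ℤ) 8, g i t := by rw [box, ← prod_univ_sum]

attribute [irreducible] box

open Classical in
noncomputable def LB : Finset V := box.filter (· ∈ Λ)

def gw (f : ℤ → ℤ) (σ r t : ℤ) : ℤ := if t % 4 = r then σ ^ (t / 4 + 2).toNat * f t else 0

noncomputable def aw (f : ℤ → ℤ) (σ r : ℤ) : ℤ := ∑ t ∈ Icc (-8 : ℤ) 8, gw f σ r t

def WE (a b : ℤ) : ℤ :=
  a ^ 24 + 759 * (a ^ 16 * b ^ 8) + 2576 * (a ^ 12 * b ^ 12) + 759 * (a ^ 8 * b ^ 16) + b ^ 24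

theorem sum_box_prod (f : ℤ → ℤ) (σ m : ℤ) :
    ∑ c ∈ CF, ∑ x ∈ box, ∏ i, gw f σ (m + if i ∈ c then 2 else 0) (x i) =
      WE (aw f σ m) (aw f σ (m + 2)) := by
  have : ∀ c : Finset GolayPt, ∑ x ∈ box, ∏ i, gw f σ (m + if i ∈ c then 2 else 0) (x i) =
      aw f σ m ^ (24 - #c) * aw f σ (m + 2) ^ #c := fun c => by
    rw [sum_box fun i t => gw f σ (m + if i ∈ c then 2 else 0) t]
    rw [prod_congr rfl fun i _ => show ∑ t ∈ Icc (-8 : ℤ) 8, gw f σ (m + if i ∈ c then 2 else 0) t =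
      if i ∈ c then aw f σ (m + 2) else aw f σ m by split_ifs <;> simp [aw]]
    rw [prod_ite, prod_const, prod_const, mul_comm, filter_mem_eq_inter, univ_inter,
      filter_notMem_eq_sdiff, card_univ_sdiff, card_golayPt]
  simp only [this]
  rw [sum_CF fun k => aw f σ m ^ (24 - k) * aw f σ (m + 2) ^ k]
  simp [WE]

open Classical in
theorem prod_gw (f : ℤ → ℤ) (σ m : ℤ) (c : Finset GolayPt) (x : V) :
    ∏ i, gw f σ (m + if i ∈ c then 2 else 0) (x i) =
      if Mt x m c then σ ^ (∑ i, (x i / 4 + 2).toNat) * ∏ i, f (x i) else 0 := by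
  simp only [gw]
  rw [prod_ite_zero, prod_mul_distrib, prod_pow_eq_pow_sum]
  congr 1
  simp [Mt]

theorem neg_one_pow_sum {x : V} (hx : x ∈ box) :
    (-1 : ℤ) ^ (∑ i, (x i / 4 + 2).toNat) = if (∑ i, x i / 4) % 2 = 0 then 1 else -1 := by
  have h : ((∑ i, (x i / 4 + 2).toNat : ℕ) : ℤ) = ∑ i, x i / 4 + 48 := by
    rw [Nat.cast_sum, sum_congr rfl fun i _ => Int.toNat_of_nonneg (a := x i / 4 + 2) (by
      have := mem_box.1 hx i; omega), sum_add_distrib]
    simp [card_golayPt]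
  generalize ∑ i, (x i / 4 + 2).toNat = a at h ⊢
  generalize ∑ i, x i / 4 = b at h ⊢
  split_ifs with h2
  · exact Even.neg_one_pow (Nat.even_iff.2 (by omega))
  · exact Odd.neg_one_pow (Nat.odd_iff.2 (by omega))

noncomputable def TT (f : ℤ → ℤ) : ℤ :=
  WE (aw f 1 0) (aw f 1 2) + WE (aw f (-1) 0) (aw f (-1) 2) +
    (WE (aw f 1 1) (aw f 1 3) - WE (aw f (-1) 1) (aw f (-1) 3))

theorem TT_eq (f : ℤ → ℤ) : TT f = 2 * ∑ x ∈ LB, ∏ i, f (x i) := by
  classical
  have h0 := sum_box_prod f 1 0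
  have h1 := sum_box_prod f (-1) 0
  have h2 := sum_box_prod f 1 1
  have h3 := sum_box_prod f (-1) 1
  rw [show (0 : ℤ) + 2 = 2 by rfl] at h0 h1
  rw [show (1 : ℤ) + 2 = 3 by rfl] at h2 h3
  rw [TT, ← h0, ← h1, ← h2, ← h3, LB, sum_filter, mul_sum]
  simp only [sum_comm (s := CF), ← sum_add_distrib, ← sum_sub_distrib]
  refine sum_congr rfl fun x hx => ?_
  simp only [prod_gw, one_pow, one_mul, neg_one_pow_sum hx]
  generalize ∏ i, f (x i) = P
  clear h0 h1 h2 h3
  by_cases hL : x ∈ Λ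
  · obtain ⟨m, hm, c, hc, hM, hs⟩ := mem_iff_Mt.1 hL
    rw [if_pos hL, sum_eq_single_of_mem c (mem_CF.2 hc)]
    · have n0 : m = 1 → ¬ Mt x 0 c := fun e h => by
        have := h none; have := hM none; omega
      have n1 : m = 0 → ¬ Mt x 1 c := fun e h => by
        have := h none; have := hM none; omega
      generalize (∑ i, x i / 4) % 2 = z at hs ⊢
      subst hs
      rcases hm with rfl | rfl
      · simp [hM, n1]; ring
      · simp [hM, n0]; ring
    · intro d _ hd
      have n : ∀ k : ℤ, (k = 0 ∨ k = 1) → ¬ Mt x k d := fun k hk h =>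
        hd ((h.support hk).symm.trans (hM.support hm))
      simp [n]
  · rw [if_neg hL, mul_zero]
    refine sum_eq_zero fun c hc => ?_
    have n : ∀ k : ℤ, (k = 0 ∨ k = 1) → Mt x k c → ¬ (∑ i, x i / 4) % 2 = k := fun k hk h h' =>
      hL (mem_iff_Mt.2 ⟨k, hk, c, mem_CF.1 hc, h, h'⟩)
    have n0 := n 0 (Or.inl rfl)
    have n1 := n 1 (Or.inr rfl)
    have n2 := Int.emod_two_eq_zero_or_one (∑ i, x i / 4)
    generalize (∑ i, x i / 4) % 2 = z at n0 n1 n2 ⊢
    by_cases a : Mt x 0 c <;> by_cases b : Mt x 1 c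
    · have := n0 a; have := n1 b; omega
    · simp [a, b, n0 a]
    · have : z = 0 := by have := n1 b; omega
      simp [a, b, this]
    · simp [a, b]

theorem digit_sum_pow {α : Type*} (S : Finset α) (φ : α → ℕ) (q j : ℕ) (h : #S < q) :
    (∑ x ∈ S, q ^ φ x) / q ^ j % q = #(S.filter fun x => φ x = j) := by
  obtain ⟨N, hN, hj⟩ : ∃ N, (∀ x ∈ S, φ x ∈ range N) ∧ j < N :=
    ⟨S.sup φ + j + 1, fun x hx => by have := le_sup (f := φ) hx; rw [mem_range]; omega, by omega⟩
  rw [← digit_pack (B := q) (f := fun k => #(S.filter fun x => φ x = k)) (n := N)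
    (fun k _ => lt_of_le_of_lt (card_filter_le _ _) h) hj, pack, ← sum_fiberwise_of_maps_to hN]
  congr 2
  refine sum_congr rfl fun k _ => ?_
  rw [sum_congr rfl fun x hx => by rw [(mem_filter.1 hx).2], sum_const, smul_eq_mul]

theorem card_LB_lt : #LB < 2 ^ 100 := by
  classical
  refine lt_of_le_of_lt (card_filter_le box _) ?_
  rw [card_box]; norm_num

def ew (P : ℤ → Bool) (t : ℤ) : ℕ := 32 * (t ^ 2).toNat + if P t then 1 else 0

noncomputable def gf (P : ℤ → Bool) : ℕ := (TT (fun t => ((2 ^ 100) ^ ew P t : ℕ)) / 2).toNat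

theorem gf_eq (P : ℤ → Bool) : gf P = ∑ x ∈ LB, (2 ^ 100) ^ (∑ i, ew P (x i)) := by
  rw [gf, TT_eq, Int.mul_ediv_cancel_left _ two_ne_zero]
  simp only [← Nat.cast_prod, ← Nat.cast_sum, Int.toNat_natCast, prod_pow_eq_pow_sum]

noncomputable def gfc (P : ℤ → Bool) (n : ℕ) (Q : ℕ → Bool) : ℕ :=
  sumTo (fun k => if Q k then gf P / (2 ^ 100) ^ (32 * n + k) % 2 ^ 100 else 0) 25

theorem ncard_eq_gfc (P : ℤ → Bool) (n : ℕ) (hn : n ≤ 80) (Q : ℕ → Bool) :
    {x : V | x ∈ Λ ∧ sqNorm x = n ∧ Q #(univ.filter fun i => P (x i))}.ncard = gfc P n Q := by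
  classical
  have hle : ∀ x : V, #(univ.filter fun i => P (x i)) < 25 := fun x =>
    lt_of_le_of_lt (card_filter_le _ _) (by rw [card_univ, card_golayPt]; norm_num)
  have hs : ∀ x : V, ∑ i, ew P (x i) = 32 * (sqNorm x).toNat + #(univ.filter fun i => P (x i)) := by
    intro x
    have : ((∑ i, (x i ^ 2).toNat : ℕ) : ℤ) = sqNorm x := by
      rw [Nat.cast_sum]; exact sum_congr rfl fun i _ => Int.toNat_of_nonneg (sq_nonneg _)
    rw [← this, Int.toNat_natCast, card_filter, mul_sum, ← sum_add_distrib]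
    rfl
  rw [gfc, sumTo_eq, ← sum_filter, gf_eq]
  simp only [digit_sum_pow _ _ _ _ card_LB_lt, hs]
  have e : {x : V | x ∈ Λ ∧ sqNorm x = n ∧ Q #(univ.filter fun i => P (x i))} =
      (LB.filter fun x => sqNorm x = n ∧ Q #(univ.filter fun i => P (x i)) : Finset V) := by
    ext x
    simp only [Set.mem_ofPred_eq, coe_filter, LB, mem_filter, mem_box]
    refine ⟨fun h => ⟨⟨fun i => ?_, h.1⟩, h.2⟩, fun h => ⟨h.1.2, h.2⟩⟩
    have := sq_le_norm x i
    rw [h.2.1] at this
    have hn' : (n : ℤ) ≤ 80 := by exact_mod_cast hn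
    constructor <;> nlinarith
  rw [e, Set.ncard_coe_finset, card_eq_sum_card_fiberwise (t := (range 25).filter fun k => Q k)
    (f := fun x => #(univ.filter fun i => P (x i))) fun x hx => by
      simp only [coe_filter, Set.mem_ofPred_eq, mem_range] at hx ⊢
      exact ⟨hle x, hx.2.2⟩]
  refine sum_congr rfl fun k hk => ?_
  rw [filter_filter]
  congr 1
  refine filter_congr fun x _ => ?_
  have h1 := hle x
  have h2 := norm_nonneg x
  rw [mem_filter, mem_range] at hk
  generalize #(univ.filter fun i => P (x i)) = a at h1 ⊢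
  generalize sqNorm x = b at h2 ⊢
  constructor
  · rintro ⟨⟨h1, -⟩, h2⟩; omega
  · intro h
    have : a = k := by omega
    exact ⟨⟨by omega, this ▸ hk.2⟩, this⟩

theorem ncard_norm (n : ℕ) (hn : n ≤ 80) :
    {x : V | x ∈ Λ ∧ sqNorm x = n}.ncard = gfc (fun _ => false) n (fun _ => true) := by
  rw [← ncard_eq_gfc _ _ hn]; simp

theorem gfc_norm : gfc (fun _ => false) 16 (fun _ => true) = 0 ∧
    gfc (fun _ => false) 32 (fun _ => true) = 196560 ∧
    gfc (fun _ => false) 48 (fun _ => true) = 16773120 ∧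
    gfc (fun _ => false) 64 (fun _ => true) = 398034000 := by decide +kernel

theorem ncard_32 : {x : V | x ∈ Λ ∧ sqNorm x = 32}.ncard = 196560 :=
  (ncard_norm 32 (by norm_num)).trans gfc_norm.2.1
theorem ncard_48 : {x : V | x ∈ Λ ∧ sqNorm x = 48}.ncard = 16773120 :=
  (ncard_norm 48 (by norm_num)).trans gfc_norm.2.2.1
theorem ncard_64 : {x : V | x ∈ Λ ∧ sqNorm x = 64}.ncard = 398034000 :=
  (ncard_norm 64 (by norm_num)).trans gfc_norm.2.2.2
theorem norm_ne_16 {x : V} (hx : x ∈ Λ) : sqNorm x ≠ 16 := fun h => by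
  have := (ncard_norm 16 (by norm_num)).trans gfc_norm.1
  rw [Set.ncard_eq_zero ((finite_norm 16).subset fun _ h => h.2)] at this
  exact Set.eq_empty_iff_forall_notMem.1 this x ⟨hx, h⟩

end Cfsg.Agent.H5.Lee
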