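import Cfsg.Agent.H5.LeeD

/-! The monomial subgroup of the automorphism group of the rank-24 lattice. -/

set_option autoImplicit false

namespace Cfsg.Agent.H5.Lee

open Finset H4
open scoped Pointwise

/-- twice the indicator vector -/
def two (s : Finset GolayPt) : V := fun i => if i ∈ s then 2 else 0

theorem two_mem {s : Finset GolayPt} (hs : s ∈ Code) : two s ∈ Λ := by
  refine mem_iff_Mt.2 ⟨0, Or.inl rfl, s, hs, fun i => ?_, ?_⟩
  · unfold two; split_ifs <;> rfl
  · rw [sum_eq_zero fun i _ => by unfold two; split_ifs <;> rfl]; rfl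

theorem single_mem (i : GolayPt) {s : ℤ} (hs : s = 8 ∨ s = -8) : (Pi.single i s : V) ∈ Λ := by
  refine mem_iff.2 ⟨0, Or.inl rfl, fun j => ?_, ?_, ?_⟩
  · rw [Pi.single_apply]; split_ifs <;> omega
  · rw [sum_pi_single']; simp only [mem_univ, if_true]; omega
  · have : wd (Pi.single i s) = 0 := funext fun j => by
      rw [wd, Pi.zero_apply, cast2_eq_zero, Pi.single_apply]; split_ifs <;> omega
    rw [this]; exact zero_mem _

def e8 (i : GolayPt) : Λ := ⟨Pi.single i 8, single_mem i (Or.inl rfl)⟩

theorem support_mem {x : V} (hx : x ∈ Λ) : support₂ (wd x) ∈ Code := by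
  obtain ⟨m, -, -, -, h⟩ := mem_iff.1 hx
  exact (support_mem_code_iff _).2 h

def odd0 : V := fun i => if i = none then -3 else 1

theorem odd0_mem : odd0 ∈ Λ := by
  refine mem_iff_Mt.2 ⟨1, Or.inr rfl, ∅, empty_mem_code, fun i => ?_, by decide⟩
  unfold odd0; split_ifs <;> simp_all

theorem signedPerm_mem {σ : Equiv.Perm GolayPt} (hσ : σ ∈ M24) {c : Finset GolayPt} (hc : c ∈ Code)
    {x : V} (hx : x ∈ Λ) : signedPerm σ c x ∈ Λ := by
  obtain ⟨m, h0, h1, h2, h3⟩ := mem_iff.1 hx
  refine mem_iff.2 ⟨m, h0, fun i => ?_, ?_, ?_⟩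
  · have := h1 (σ.symm i)
    unfold signedPerm; split_ifs <;> omega
  · have h4 := dot8 (two_mem (smul_mem_code (M24.inv_mem hσ) hc)) hx
    have e : ∑ i, signedPerm σ c x i = ∑ i, x i - dotInt (two (σ⁻¹ • c)) x := by
      rw [dotInt, ← sum_sub_distrib, ← Equiv.sum_comp σ]
      refine sum_congr rfl fun i _ => ?_
      simp only [signedPerm, two, Equiv.symm_apply_apply, mem_inv_smul_finset_iff,
        Equiv.Perm.smul_def]
      split_ifs <;> ring
    rw [e]; omega
  · rw [← support_mem_code_iff] at h3 ⊢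
    have h4 := smul_mem_code hσ h3
    have key : ∀ i, i ∈ σ • support₂ (wd x) ↔ x (σ.symm i) / 2 % 2 = 1 := fun i => by
      rw [← mem_support_wd, ← inv_smul_mem_iff]; rfl
    rcases h0 with rfl | rfl
    · have e : support₂ (wd (signedPerm σ c x)) = σ • support₂ (wd x) := by
        ext i
        have := h1 (σ.symm i)
        rw [key, mem_support_wd, signedPerm]; split_ifs <;> omega
      rwa [e]
    · have e : support₂ (wd (signedPerm σ c x)) = symmDiff (σ • support₂ (wd x)) c := by
        ext i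
        have := h1 (σ.symm i)
        rw [mem_symmDiff, key, mem_support_wd, signedPerm]
        split_ifs with h <;> simp only [h, not_true, not_false_iff, and_true, and_false, true_and,
          false_and, or_false, false_or] <;> omega
      rw [e]; exact symmDiff_mem_code h4 hc

theorem norm_signedPerm (σ : Equiv.Perm GolayPt) (c : Finset GolayPt) (x : V) :
    sqNorm (signedPerm σ c x) = sqNorm x := by
  rw [sqNorm, sqNorm, ← σ.symm.sum_comp (fun i => x i ^ 2)]
  refine sum_congr rfl fun i _ => ?_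
  unfold signedPerm; split_ifs <;> ring

noncomputable def mono (σ : M24) (c : Code) : Co0 :=
  mkCo (AddMonoidHom.mk' (fun x => ⟨signedPerm σ c x, signedPerm_mem σ.2 c.2 x.2⟩) fun x y => by
    ext i
    simp only [signedPerm, AddSubgroup.coe_add, Pi.add_apply]
    split_ifs <;> ring) fun x => norm_signedPerm _ _ _

theorem mono_smul (σ : M24) (c : Code) (x : Λ) :
    ((mono σ c • x : Λ) : V) = signedPerm σ c x := rfl

theorem signedPerm_single (σ : Equiv.Perm GolayPt) (c : Finset GolayPt) (i : GolayPt) (s : ℤ) :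
    signedPerm σ c (Pi.single i s) = Pi.single (σ i) (if σ i ∈ c then -s else s) := by
  funext j
  simp only [signedPerm, Pi.single_apply, Equiv.symm_apply_eq]
  by_cases h : j = σ i
  · subst h; simp
  · simp [h]

/-- stabilising the standard cross -/
def IsN (g : Co0) : Prop := ∀ v : Λ, (v : V) ∈ stdCross → ((g • v : Λ) : V) ∈ stdCross

theorem isN_mono (σ : M24) (c : Code) : IsN (mono σ c) := by
  rintro v ⟨i, s, hs, e⟩
  rw [mono_smul, e, signedPerm_single]
  exact ⟨_, _, by split_ifs <;> omega, rfl⟩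

theorem exists_mono {g : Co0} (h : ∀ i, ((g • e8 i : Λ) : V) ∈ stdCross) : ∃ σ c, g = mono σ c := by
  choose τ s hs e using h
  have key : ∀ (x : Λ) i, s i * ((g • x : Λ) : V) (τ i) = 8 * (x : V) i := fun x i => by
    rw [← dot_single, ← dot_single, ← e, dot_smul]; rfl
  have hi : Function.Injective τ := fun i j hij => by
    have h1 := key (e8 i) j
    rw [e i, ← hij, e8] at h1
    simp only [Pi.single_eq_same, Pi.single_apply] at h1
    by_contra hne
    rw [if_neg (Ne.symm hne)] at h1
    rcases hs i with h | h <;> rcases hs j with h' | h' <;> rw [h, h'] at h1 <;> omega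
  let σ := Equiv.ofBijective τ hi.bijective_of_finite
  let c : Finset GolayPt := univ.filter fun j => s (σ.symm j) = -8
  have key2 : ∀ x : Λ, ((g • x : Λ) : V) = signedPerm σ c x := fun x => funext fun j => by
    have := key x (σ.symm j)
    rw [show τ (σ.symm j) = j from σ.apply_symm_apply j] at this
    simp only [signedPerm, c, mem_filter, mem_univ, true_and]
    split_ifs with h
    · rw [h] at this; omega
    · rw [(hs _).resolve_right h] at this; omega
  have hσ : σ ∈ M24 := mem_M24_iff.2 fun t ht => by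
    have := support_mem (g • (⟨two t, two_mem ht⟩ : Λ)).2
    rw [key2] at this
    have e : support₂ (wd (signedPerm σ c (two t))) = σ • t := by
      ext i
      rw [mem_support_wd, ← inv_smul_mem_iff]
      change _ ↔ σ.symm i ∈ t
      unfold signedPerm two
      split_ifs with h1 h2 h2 <;> simp [h2]
    rwa [e] at this
  have hc : c ∈ Code := by
    have := support_mem (g • (⟨odd0, odd0_mem⟩ : Λ)).2
    rw [key2] at this
    have e : support₂ (wd (signedPerm σ c odd0)) = c := by
      ext i
      rw [mem_support_wd]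
      unfold signedPerm odd0
      split_ifs with h1 h2 h2 <;> simp [h1]
    rwa [e] at this
  exact ⟨⟨σ, hσ⟩, ⟨c, hc⟩, Subtype.ext (Equiv.ext fun x => Subtype.ext (key2 x))⟩

theorem IsN.exists_mono {g : Co0} (h : IsN g) : ∃ σ c, g = mono σ c :=
  Lee.exists_mono fun i => h _ ⟨i, 8, Or.inl rfl, rfl⟩

theorem isN_of_e8 {g : Co0} (h : ∀ i, ((g • e8 i : Λ) : V) ∈ stdCross) : IsN g := by
  obtain ⟨σ, c, rfl⟩ := Lee.exists_mono h
  exact isN_mono σ c

theorem mono_inj {σ τ : M24} {c d : Code} (h : mono σ c = mono τ d) : σ = τ ∧ c = d := by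
  have key : ∀ i, (σ : Equiv.Perm GolayPt) i = (τ : Equiv.Perm GolayPt) i ∧
      ((σ : Equiv.Perm GolayPt) i ∈ (c : Finset GolayPt) ↔
        (σ : Equiv.Perm GolayPt) i ∈ (d : Finset GolayPt)) := fun i => by
    have h1 : ((mono σ c • e8 i : Λ) : V) = ((mono τ d • e8 i : Λ) : V) := by rw [h]
    rw [mono_smul, mono_smul, e8, signedPerm_single, signedPerm_single] at h1
    have h2 := congrFun h1 ((σ : Equiv.Perm GolayPt) i)
    rw [Pi.single_eq_same, Pi.single_apply] at h2
    by_cases h3 : (σ : Equiv.Perm GolayPt) i = (τ : Equiv.Perm GolayPt) i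
    · rw [if_pos h3, ← h3] at h2
      refine ⟨h3, ?_⟩
      split_ifs at h2 <;> simp_all
    · rw [if_neg h3] at h2
      split_ifs at h2; omega
  refine ⟨Subtype.ext (Equiv.ext fun i => (key i).1), Subtype.ext (Finset.ext fun j => ?_)⟩
  obtain ⟨i, rfl⟩ := (σ : Equiv.Perm GolayPt).surjective j
  exact (key i).2

theorem card_N : Nat.card {g : Co0 // IsN g} = 4096 * 244823040 := by
  rw [← Nat.card_congr (Equiv.ofBijective (fun p : Code × M24 => (⟨mono p.2 p.1, isN_mono _ _⟩ :
    {g : Co0 // IsN g})) ⟨fun p q h => ?_, fun g => ?_⟩), Nat.card_prod, card_M24,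
    Nat.card_coe_set_eq, ncard_code_eq]
  · have := mono_inj (congrArg Subtype.val h)
    exact Prod.ext this.2 this.1
  · obtain ⟨σ, c, e⟩ := g.2.exists_mono
    exact ⟨(c, σ), Subtype.ext e.symm⟩

theorem ncard_stdCross : stdCross.ncard = 48 := by
  have e : stdCross = (fun p : GolayPt × Bool => (Pi.single p.1 (if p.2 then 8 else -8) : V)) ''
      Set.univ := by
    ext y
    constructor
    · rintro ⟨i, s, rfl | rfl, rfl⟩
      · exact ⟨(i, true), trivial, rfl⟩
      · exact ⟨(i, false), trivial, rfl⟩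
    · rintro ⟨p, -, rfl⟩
      exact ⟨_, _, by split_ifs <;> simp, rfl⟩
  rw [e, Set.ncard_image_of_injective, Set.ncard_univ, Nat.card_prod, Nat.card_eq_fintype_card,
    card_golayPt]
  · simp
  · rintro ⟨i, a⟩ ⟨j, b⟩ h
    have h2 := congrFun h i
    simp only [Pi.single_eq_same, Pi.single_apply] at h2
    by_cases h3 : i = j
    · subst h3; cases a <;> cases b <;> simp_all
    · cases a <;> simp [h3] at h2

theorem four_mem (i j : GolayPt) {s t : ℤ} (hs : s = 4 ∨ s = -4) (ht : t = 4 ∨ t = -4) :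
    (Pi.single i s + Pi.single j t : V) ∈ Λ := by
  refine mem_iff.2 ⟨0, Or.inl rfl, fun k => ?_, ?_, ?_⟩
  · simp only [Pi.add_apply, Pi.single_apply]; split_ifs <;> omega
  · simp only [Pi.add_apply, sum_add_distrib, sum_pi_single', mem_univ, if_true]; omega
  · have : wd (Pi.single i s + Pi.single j t) = 0 := funext fun k => by
      rw [wd, Pi.zero_apply, cast2_eq_zero]
      simp only [Pi.add_apply, Pi.single_apply]; split_ifs <;> omega
    rw [this]; exact zero_mem _

theorem cross_eq {i : GolayPt} {s : ℤ} (hs : s = 8 ∨ s = -8) : cross (Pi.single i s) = stdCross := by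
  symm
  have h48 := (cross_main _ (single_mem i hs)).2 (by rw [norm_single]; rcases hs with rfl | rfl <;> rfl)
  refine Set.eq_of_subset_of_ncard_le ?_ (by rw [h48, ncard_stdCross])
    (Set.finite_of_ncard_ne_zero (by rw [h48]; norm_num))
  rintro y ⟨j, t, ht, rfl⟩
  refine ⟨single_mem j ht, by rw [norm_single, norm_single]; rcases hs with rfl | rfl <;>
    rcases ht with rfl | rfl <;> rfl, _, four_mem i j (s := s / 2) (t := -t / 2) (by omega) (by omega), ?_⟩
  funext k
  simp only [Pi.sub_apply, Pi.smul_apply, Pi.add_apply, Pi.single_apply, nsmul_eq_mul]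
  split_ifs <;> omega

theorem smul_mem_cross (g : Co0) {x y : Λ} (h : (y : V) ∈ cross (x : V)) :
    ((g • y : Λ) : V) ∈ cross ((g • x : Λ) : V) := by
  obtain ⟨-, h1, z, hz, h2⟩ := h
  refine ⟨(g • y).2, by rw [norm_smul', norm_smul', h1], _, (g • (⟨z, hz⟩ : Λ)).2, ?_⟩
  rw [← AddSubgroup.coe_sub, ← smul_sub', ← AddSubgroup.coe_nsmul, ← smul_nsmul]
  congr 2
  exact Subtype.ext h2

/-- one vector of the cross suffices -/
theorem isN_of_one {g : Co0} {x : Λ} (hx : (x : V) ∈ stdCross) (h : ((g • x : Λ) : V) ∈ stdCross) :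
    IsN g := by
  intro v hv
  obtain ⟨i, s, hs, e⟩ := hx
  obtain ⟨j, t, ht, e'⟩ := h
  rw [← cross_eq (i := j) ht, ← e']
  exact smul_mem_cross g (by rwa [e, cross_eq hs])

def NN : Subgroup Co0 where
  carrier := {g | IsN g}
  one_mem' := fun v hv => by rwa [one_smul]
  mul_mem' := fun ha hb v hv => by rw [mul_smul]; exact ha _ (hb v hv)
  inv_mem' := fun {g} hg => isN_of_one (x := g • e8 none) (hg _ ⟨none, 8, Or.inl rfl, rfl⟩)
    (by rw [inv_smul_smul]; exact ⟨none, 8, Or.inl rfl, rfl⟩)

theorem mem_NN {g : Co0} : g ∈ NN ↔ IsN g := Iff.rfl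

end Cfsg.Agent.H5.Lee
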