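import Cfsg.Agent.H5.LeeOps

/-! Soundness of the orbit certificates. -/

set_option autoImplicit false

namespace Cfsg.Agent.H5.Lee

open Finset H4

theorem sum_pow_eq_pack {α : Type*} (S : Finset α) (φ : α → ℕ) (q N : ℕ) (hN : ∀ x ∈ S, φ x < N) :
    ∑ x ∈ S, q ^ φ x = pack q (fun k => #(S.filter fun x => φ x = k)) N := by
  rw [pack, ← sum_fiberwise_of_maps_to (t := range N) fun x hx => mem_range.2 (hN x hx)]
  refine sum_congr rfl fun k _ => ?_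
  rw [sum_congr rfl fun x hx => by rw [(mem_filter.1 hx).2], sum_const, smul_eq_mul]

theorem digit_two {α : Type*} (S : Finset α) (a b : α → ℕ) (q j : ℕ) (h : 2 * #S < q) :
    (∑ x ∈ S, (q ^ a x + q ^ b x)) / q ^ j % q =
      #(S.filter fun x => a x = j) + #(S.filter fun x => b x = j) := by
  obtain ⟨N, ha, hb, hj⟩ : ∃ N, (∀ x ∈ S, a x < N) ∧ (∀ x ∈ S, b x < N) ∧ j < N :=
    ⟨S.sup a + S.sup b + j + 1, fun x hx => by have := le_sup (f := a) hx; omega,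
      fun x hx => by have := le_sup (f := b) hx; omega, by omega⟩
  rw [sum_add_distrib, sum_pow_eq_pack S a q N ha, sum_pow_eq_pack S b q N hb, pack_add,
    digit_pack (fun k _ => by
      have := card_filter_le S fun x => a x = k
      have := card_filter_le S fun x => b x = k
      omega) hj]

theorem chkP_cases (P key D par G bc : ℕ → ℕ) (r n q : ℕ) :
    (r ≤ key q ∧ chkP P key D par G bc r n q = 30) ∨ (key q < r ∧
      (chkP P key D par G bc r n q = 31 ∨ (chkP P key D par G bc r n q = key q ∧ (P q = bc (key q) ∨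
        (par q < n ∧ key (par q) = key q ∧ D (par q) >>> 3 < D q >>> 3 ∧
          mv (G q) (P (par q)) = P q))))) := by
  unfold chkP
  simp only [force_eq, ifz_eq]
  by_cases h1 : Nat.sub (Nat.succ (key q)) r = 0
  · right
    refine ⟨lt_of_sub_succ h1, ?_⟩
    rw [if_pos h1]
    split_ifs with h2 h3 h3
    · exact Or.inr ⟨rfl, Or.inl (xor_eq_zero' h3)⟩
    · exact Or.inl rfl
    · obtain ⟨a, b⟩ := add_eq_zero' h3
      obtain ⟨a1, a2⟩ := add_eq_zero' a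
      obtain ⟨b1, b2⟩ := add_eq_zero' b
      exact Or.inr ⟨rfl, Or.inr ⟨lt_of_sub_succ a1, xor_eq_zero' a2, lt_of_sub_succ b1,
        xor_eq_zero' b2⟩⟩
    · exact Or.inl rfl
  · left
    have : key q + 1 - r ≠ 0 := h1
    exact ⟨by omega, if_neg h1⟩

theorem chkP_le {P key D par G bc : ℕ → ℕ} {r n q : ℕ} (hr : r ≤ 30) :
    chkP P key D par G bc r n q ≤ 31 := by
  rcases chkP_cases P key D par G bc r n q with ⟨-, h⟩ | ⟨h, h1 | ⟨h1, -⟩⟩ <;> omega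

theorem chkP_eq_iff {P key D par G bc : ℕ → ℕ} {r n q k : ℕ} (hr : r ≤ 30) (hk : k < r)
    (h : chkP P key D par G bc r n q ≠ 31) : chkP P key D par G bc r n q = k ↔ key q = k := by
  rcases chkP_cases P key D par G bc r n q with ⟨h0, h⟩ | ⟨h, h1 | ⟨h1, -⟩⟩ <;> omega

theorem reach {K : Subgroup Co0} {P key D par G bc : ℕ → ℕ} {r n : ℕ}
    (hG : ∀ q, ∃ g ∈ K, Rep g (G q)) (hb : ∀ k < r, inL (bc k) = 0 ∧ dt (bc k) (bc k) = 2080)
    (h : ∀ q < n, chkP P key D par G bc r n q ≠ 31) :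
    ∀ q < n, key q < r → ∃ g ∈ K, P q = enc (g • lv (bc (key q)) : Λ) := by
  intro q hq hk
  refine descent (fun q => q < n ∧ key q < r) (fun q => ∃ g ∈ K, P q = enc (g • lv (bc (key q)) : Λ))
    (fun q => D q >>> 3) ?_ q ⟨hq, hk⟩
  rintro q ⟨hq, hk⟩
  rcases chkP_cases P key D par G bc r n q with ⟨h0, -⟩ | ⟨-, h1 | ⟨-, h1 | ⟨h1, h2, h3, h4⟩⟩⟩
  · omega
  · exact absurd h1 (h q hq)
  · exact Or.inl ⟨1, K.one_mem, by rw [one_smul, enc_lv (hb _ hk).1, h1]⟩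
  · refine Or.inr ⟨par q, ⟨h1, h2 ▸ hk⟩, h3, ?_⟩
    rintro ⟨g, hg, e⟩
    obtain ⟨g', hg', hr⟩ := hG q
    refine ⟨g' * g, K.mul_mem hg' hg, ?_⟩
    rw [← h4, e, hr.mv_enc (by rw [norm_smul', h2, norm_lv (hb _ hk).1, (hb _ hk).2]; norm_num), h2,
      mul_smul]

/-- the codes `P q`, `q < n`, enumerate the set `X` of short vectors -/
structure Enum (X : Set Λ) (n : ℕ) (P : ℕ → ℕ) : Prop where
  bd : ∀ y ∈ X, Bd (y : V)
  mem : ∀ q < n, ∃ y ∈ X, P q = enc (y : V)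
  inj : ∀ q < n, ∀ q' < n, P q = P q' → q = q'
  surj : ∀ y ∈ X, ∃ q < n, P q = enc (y : V)

theorem ncard_lv {X : Set Λ} {n : ℕ} {P : ℕ → ℕ} (bd : ∀ y ∈ X, Bd (y : V))
    (mem : ∀ q < n, ∃ y ∈ X, P q = enc (y : V)) (inj : ∀ q < n, ∀ q' < n, P q = P q' → q = q')
    (p : ℕ → Prop) [DecidablePred p] :
    ((fun q => lv (P q)) '' {q | q < n ∧ p q}).ncard = #((range n).filter p) := by
  rw [Set.InjOn.ncard_image, ← Set.ncard_coe_finset]
  · congr 1; ext q; simp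
  · intro q hq q' hq' e
    obtain ⟨y, hy, h⟩ := mem q hq.1
    obtain ⟨y', hy', h'⟩ := mem q' hq'.1
    simp only [h, h', lv_enc (bd y hy), lv_enc (bd y' hy')] at e
    exact inj q hq.1 q' hq'.1 (by rw [h, h', e])

theorem enum_of_card {X : Set Λ} {n : ℕ} {P : ℕ → ℕ} (bd : ∀ y ∈ X, Bd (y : V))
    (mem : ∀ q < n, ∃ y ∈ X, P q = enc (y : V)) (inj : ∀ q < n, ∀ q' < n, P q = P q' → q = q')
    (hf : X.Finite) (hc : X.ncard = n) : Enum X n P := by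
  refine ⟨bd, mem, inj, fun y hy => ?_⟩
  have h1 := ncard_lv bd mem inj fun _ => True
  rw [filter_true_of_mem fun _ _ => trivial, card_range] at h1
  have h2 := Set.eq_of_subset_of_ncard_le (s := (fun q => lv (P q)) '' {q | q < n ∧ True}) (t := X)
    (by
      rintro _ ⟨q, hq, rfl⟩
      obtain ⟨y, hy, h⟩ := mem q hq.1
      simp only [h, lv_enc (bd y hy), hy]) (by rw [h1, hc]) hf
  obtain ⟨q, hq, e⟩ := h2.ge hy
  obtain ⟨y', hy', h⟩ := mem q hq.1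
  simp only [h, lv_enc (bd y' hy')] at e
  exact ⟨q, hq.1, e ▸ h⟩

theorem Enum.ncard {X : Set Λ} {n : ℕ} {P : ℕ → ℕ} (h : Enum X n P) (Q : Λ → Prop) (p : ℕ → Prop)
    [DecidablePred p] (hp : ∀ q < n, ∀ y ∈ X, P q = enc (y : V) → (Q y ↔ p q)) :
    {y | y ∈ X ∧ Q y}.ncard = #((range n).filter p) := by
  rw [← ncard_lv h.bd h.mem h.inj]
  congr 1; ext y
  constructor
  · rintro ⟨hy, hQ⟩
    obtain ⟨q, hq, e⟩ := h.surj y hy
    exact ⟨q, ⟨hq, (hp q hq y hy e).1 hQ⟩, by simp only [e, lv_enc (h.bd y hy)]⟩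
  · rintro ⟨q, hq, rfl⟩
    obtain ⟨y, hy, e⟩ := h.mem q hq.1
    simp only [e, lv_enc (h.bd y hy)]
    exact ⟨hy, (hp q hq.1 y hy e).2 hq.2⟩

/-- the orbits of `K` on `X` (possibly refined) -/
def Orb (K : Subgroup Co0) (X : Set Λ) (r : ℕ) (b : ℕ → Λ) (cnt : ℕ → ℕ) : Prop :=
  X.Finite ∧ ∃ κ : Λ → ℕ, (∀ y ∈ X, κ y < r ∧ ∃ g ∈ K, g • b (κ y) = y) ∧
    ∀ k < r, {y | y ∈ X ∧ κ y = k}.ncard = cnt k

theorem orb_of {K : Subgroup Co0} {S X : Set Λ} {P key : ℕ → ℕ} {b : ℕ → Λ} {r n : ℕ} {cnt : ℕ → ℕ}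
    (hE : Enum S n P) (hf : X.Finite) (hX : X ⊆ S)
    (hkey : ∀ q < n, ∀ y ∈ X, P q = enc (y : V) → key q < r)
    (hK : ∀ g ∈ K, ∀ k < r, g • b k ∈ X)
    (hr : ∀ q < n, key q < r → ∃ g ∈ K, P q = enc (g • b (key q) : Λ))
    (hc : ∀ k < r, #((range n).filter fun q => key q = k) = cnt k) : Orb K X r b cnt := by
  classical
  choose! ι hι1 hι2 using hE.surj
  have hι : ∀ q < n, ∀ y ∈ S, P q = enc (y : V) → ι y = q := fun q hq y hy e =>
    hE.inj _ (hι1 y hy) _ hq ((hι2 y hy).trans e.symm)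
  refine ⟨hf, fun y => key (ι y), fun y hy => ?_, fun k hk => ?_⟩
  · have h1 := hkey _ (hι1 y (hX hy)) y hy (hι2 y (hX hy))
    obtain ⟨g, hg, e⟩ := hr _ (hι1 y (hX hy)) h1
    exact ⟨h1, g, hg, Subtype.ext (enc_inj (hE.bd _ (hX (hK g hg _ h1))) (hE.bd y (hX hy))
      (e.symm.trans (hι2 y (hX hy))))⟩
  · rw [← hc k hk, ← hE.ncard (fun y => y ∈ X ∧ key (ι y) = k) _ fun q hq y hy e => ?_]
    · congr 1; ext y; exact ⟨fun h => ⟨hX h.1, h⟩, fun h => h.2⟩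
    · rw [hι q hq y hy e]
      refine ⟨fun h => h.2, fun h => ⟨?_, h⟩⟩
      obtain ⟨g, hg, e'⟩ := hr q hq (h ▸ hk)
      have h2 := hK g hg _ (h ▸ hk)
      rwa [← Subtype.ext (enc_inj (hE.bd _ (hX h2)) (hE.bd y hy) (e'.symm.trans e))]

theorem Orb.exists {K : Subgroup Co0} {X : Set Λ} {r : ℕ} {b : ℕ → Λ} {cnt : ℕ → ℕ}
    (h : Orb K X r b cnt) {y : Λ} (hy : y ∈ X) : ∃ k < r, ∃ g ∈ K, g • b k = y := by
  obtain ⟨-, κ, h1, -⟩ := h
  exact ⟨_, (h1 y hy).1, (h1 y hy).2⟩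

theorem Orb.ncard {K : Subgroup Co0} {X : Set Λ} {r : ℕ} {b : ℕ → Λ} {cnt : ℕ → ℕ}
    (h : Orb K X r b cnt) (Q : Λ → Prop) (p : ℕ → Prop) [DecidablePred p]
    (hQ : ∀ g ∈ K, ∀ k < r, Q (g • b k) ↔ p k) :
    {y | y ∈ X ∧ Q y}.ncard = ∑ k ∈ range r, if p k then cnt k else 0 := by
  classical
  obtain ⟨hf, κ, h1, h2⟩ := h
  have hf' : {y | y ∈ X ∧ Q y}.Finite := hf.subset fun _ h => h.1
  rw [Set.ncard_eq_toFinset_card _ hf', card_eq_sum_card_fiberwise (t := range r) (f := κ)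
    fun y hy => by
      simp only [Set.Finite.coe_toFinset, Set.mem_ofPred_eq] at hy
      simpa using (h1 y hy.1).1]
  refine sum_congr rfl fun k hk => ?_
  have key : ∀ y ∈ X, κ y = k → (Q y ↔ p k) := fun y hy e => by
    obtain ⟨h3, g, hg, e'⟩ := h1 y hy
    rw [← hQ g hg k (mem_range.1 hk), ← e, e']
  split_ifs with hp
  · rw [← h2 k (mem_range.1 hk), ← Set.ncard_coe_finset]
    congr 1; ext y
    simp only [coe_filter, Set.Finite.mem_toFinset, Set.mem_ofPred_eq]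
    exact ⟨fun h => ⟨h.1.1, h.2⟩, fun h => ⟨⟨h.1, (key y h.1 h.2).2 hp⟩, h.2⟩⟩
  · rw [card_eq_zero, filter_eq_empty_iff]
    intro y hy e
    simp only [Set.Finite.mem_toFinset, Set.mem_ofPred_eq] at hy
    exact hp ((key y hy.1 e).1 hy.2)

/-! ### links -/

/-- packed matrix from a table of entries (5 bits each) -/
noncomputable def genK (C : ℕ) : ℕ :=
  Nat.add (sumTo (fun i => Nat.shiftLeft (Nat.add (sumTo (fun j => Nat.shiftLeft (Nat.land
      (Nat.add (fld C (nat_lit 5) (nat_lit 31) (Nat.add (Nat.mul (nat_lit 24) i) j)) (nat_lit 248))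
      (nat_lit 255)) (Nat.mul (nat_lit 17) (Nat.sub (nat_lit 24) j))) (nat_lit 24))
    (Nat.land (Nat.sub (nat_lit 4160) (Nat.mul (nat_lit 8) (sumTo (fun j => fld C (nat_lit 5)
      (nat_lit 31) (Nat.add (Nat.mul (nat_lit 24) i) j)) (nat_lit 24)))) (nat_lit 255)))
    (Nat.mul (nat_lit 850) i)) (nat_lit 24)) (Nat.shiftLeft (nat_lit 8) (nat_lit 20400))

/-- `KM` is the code of an automorphism mapping the first entries to the second entries -/
noncomputable def lnk (KM : ℕ) (l : List (ℕ × ℕ)) : ℕ :=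
  List.rec (motive := fun _ => ℕ) (certG KM) (fun p _ ih => Nat.add ih (Nat.add (Nat.add (inL p.1)
    (Nat.sub (dt p.1 p.1) (nat_lit 2128))) (Nat.xor (mv KM p.1) p.2))) l

theorem lnk_spec {KM : ℕ} {l : List (ℕ × ℕ)} (h : lnk KM l = 0) :
    Rep (ge KM) KM ∧ ∀ p ∈ l, ge KM • lv p.1 = lv p.2 := by
  induction l with
  | nil => exact ⟨rep_ge h, by simp⟩
  | cons p l ih =>
    obtain ⟨h1, h2⟩ := add_eq_zero' h
    obtain ⟨h2, h3⟩ := add_eq_zero' h2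
    obtain ⟨h2, h4⟩ := add_eq_zero' h2
    obtain ⟨h5, h6⟩ := ih h1
    refine ⟨h5, fun q hq => ?_⟩
    rcases List.mem_cons.1 hq with rfl | hq
    · exact h5.smul_lv h2 (Nat.le_of_sub_eq_zero h4) (xor_eq_zero' h3)
    · exact h6 q hq

end Cfsg.Agent.H5.Lee
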