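import Cfsg.Agent.H5.LeeG

/-! Maximality of the monomial subgroup. -/

set_option autoImplicit false

namespace Cfsg.Agent.H5.Lee

open Finset H4 MulAction

theorem dvd_ncard_of_free {G α : Type*} [Group G] [MulAction G α] (g : G) (p : ℕ) [Fact p.Prime]
    (hg : g ^ p = 1) {O : Set α} (hf : O.Finite) (hinv : ∀ x ∈ O, g • x ∈ O)
    (hfree : ∀ x ∈ O, g • x ≠ x) : p ∣ O.ncard := by
  classical
  haveI := hf.fintype
  let f : Function.End O := fun x => ⟨g • x.1, hinv _ x.2⟩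
  have hp : ∀ n (x : O), ((f ^ n) x : α) = g ^ n • x.1 := fun n => by
    induction n with
    | zero => intro x; rw [pow_zero, pow_zero, one_smul]; rfl
    | succ n ih => intro x; rw [pow_succ', pow_succ', mul_smul, ← ih]; rfl
  have h := Equiv.Perm.card_fixedPoints_modEq (f := f) (p := p) (n := 1)
    (funext fun x => Subtype.ext (by rw [pow_one, hp, hg, one_smul]; rfl))
  have : IsEmpty (Function.fixedPoints f) := ⟨fun x => hfree _ x.1.2 (congrArg Subtype.val x.2)⟩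
  rw [Fintype.card_eq_zero (α := Function.fixedPoints f), ← Nat.card_eq_fintype_card,
    Nat.card_coe_set_eq] at h
  exact (Nat.modEq_zero_iff_dvd).1 h

def dv (m : ℤ) (y : Λ) : Prop := ∀ i, m ∣ (y : V) i

noncomputable instance (m : ℤ) (y : Λ) : Decidable (dv m y) := by unfold dv; infer_instance

theorem dv_smul {g : Co0} (hg : g ∈ NN) (m : ℤ) (y : Λ) : dv m (g • y) ↔ dv m y := by
  obtain ⟨σ, c, rfl⟩ := IsN.exists_mono hg
  have : ∀ i, m ∣ ((mono σ c • y : Λ) : V) i ↔ m ∣ (y : V) ((σ : Equiv.Perm GolayPt).symm i) :=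
    fun i => by rw [mono_smul, signedPerm]; split_ifs <;> simp
  simp only [dv, this]
  exact ⟨fun h i => by simpa using h ((σ : Equiv.Perm GolayPt) i), fun h i => h _⟩

theorem dv_bL {k : ℕ} (hk : k < 19) (m : ℤ) : dv m (bL k) ↔ ∀ i, m ∣ vec (bc1 k) i := by
  rw [dv, bL, lv_val (bc1_chk k hk).1]

theorem dv_chk : (∀ i, 4 ∣ vec (bc1 0) i) ∧ (∀ i, 2 ∣ vec (bc1 0) i) ∧ (∀ i, 2 ∣ vec (bc1 9) i) ∧
    (¬ ∀ i, 4 ∣ vec (bc1 9) i) ∧ (¬ ∀ i, 2 ∣ vec (bc1 2) i) ∧ (¬ ∀ i, 4 ∣ vec (bc1 2) i) ∧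
    (∀ k < 24, k ≠ 0 → (∀ i, 2 ∣ vec (bs k) i) ∧ ¬ ∀ i, 4 ∣ vec (bs k) i) ∧
    vec (ds 0) = Pi.single (gE.pt 5) (-8) ∧
    vec (bc1 0) + vec (bc1 1) = Pi.single (gE.pt 0) 8 := by decide +kernel

theorem orbN' {y : Λ} (hy : y ∈ L2) : (dv 4 y ∧ dv 2 y ∧ ∃ g ∈ NN, g • bL 0 = y) ∨
    (¬ dv 4 y ∧ dv 2 y ∧ ∃ g ∈ NN, g • bL 9 = y) ∨ (¬ dv 4 y ∧ ¬ dv 2 y ∧ ∃ g ∈ NN, g • bL 2 = y) := by
  obtain ⟨k, hk, g, hg, rfl⟩ := orbN hy
  obtain ⟨h1, h2, h3, h4, h5, h6, -⟩ := dv_chk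
  simp only [List.mem_cons, List.not_mem_nil, or_false] at hk
  simp only [dv_smul hg]
  rcases hk with rfl | rfl | rfl <;> rw [dv_bL (by norm_num), dv_bL (by norm_num)]
  · exact Or.inl ⟨h1, h2, g, hg, rfl⟩
  · exact Or.inr (Or.inl ⟨h4, h3, g, hg, rfl⟩)
  · exact Or.inr (Or.inr ⟨h6, h5, g, hg, rfl⟩)

theorem mem_stdCross_of {y : V} (hn : sqNorm y = 64)
    (h : ∀ i j, i ≠ j → 8 ∣ y i + y j ∧ 8 ∣ y i - y j) : y ∈ stdCross := by
  by_cases h8 : ∀ i, 8 ∣ y i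
  · obtain ⟨i, hi⟩ : ∃ i, y i ≠ 0 := by
      by_contra hc
      push Not at hc
      simp [sqNorm, hc] at hn
    have h1 := sq_le_norm y i
    have h2 := h8 i
    have h3 : y i = 8 ∨ y i = -8 := by
      have : -8 ≤ y i ∧ y i ≤ 8 := by constructor <;> nlinarith
      omega
    refine ⟨i, y i, h3, funext fun j => ?_⟩
    rw [Pi.single_apply]
    split_ifs with hj
    · rw [hj]
    · rw [sqNorm, ← add_sum_erase _ _ (mem_univ i)] at hn
      have h4 : y i ^ 2 = 64 := by rcases h3 with h | h <;> rw [h] <;> rfl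
      have h5 : ∑ x ∈ univ.erase i, y x ^ 2 = 0 := by omega
      rw [sum_eq_zero_iff_of_nonneg fun _ _ => sq_nonneg _] at h5
      exact pow_eq_zero_iff two_ne_zero |>.1 (h5 j (by simp [hj]))
  · push Not at h8
    obtain ⟨i, hi⟩ := h8
    obtain ⟨k, hk⟩ := exists_ne i
    have h1 : ∑ _j : GolayPt, (16 : ℤ) ≤ sqNorm y := sum_le_sum fun j _ => by
      have h2 : y j % 8 = 4 := by
        by_cases e : j = i
        · have := h _ _ hk; subst e; omega
        · have := h _ _ e; omega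
      have : y j ≤ -4 ∨ 4 ≤ y j := by omega
      rcases this with h | h <;> nlinarith
    simp [card_golayPt, hn] at h1

theorem dot_smul_e8 (h : Co0) (i : GolayPt) (a : Λ) :
    dotInt ((h • e8 i : Λ) : V) (a : V) = 8 * ((h⁻¹ • a : Λ) : V) i := by
  rw [← dot_smul h⁻¹, inv_smul_smul, e8, dot_single]

theorem claimA {h : Co0} (H : ∀ a ∈ L2, dv 4 a → dv 4 (h⁻¹ • a)) : h ∈ NN := by
  refine isN_of_one (x := e8 none) ⟨_, 8, Or.inl rfl, rfl⟩ (mem_stdCross_of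
    (by rw [norm_smul', norm_e8]) fun i j hij => ?_)
  have key : ∀ t : ℤ, (t = 4 ∨ t = -4) →
      32 ∣ 4 * ((h • e8 none : Λ) : V) i + t * ((h • e8 none : Λ) : V) j := fun t ht => by
    let a : Λ := ⟨_, four_mem i j (Or.inl rfl) ht⟩
    have h1 := dot_smul_e8 h none a
    have h2 := H a (by
      change sqNorm (_ + _) = _
      rw [norm_add, norm_single, norm_single, dot_single, Pi.single_eq_of_ne hij]
      rcases ht with rfl | rfl <;> rfl) (fun k => by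
        simp only [a, Pi.add_apply, Pi.single_apply]; split_ifs <;> omega) none
    rw [dot_comm, dot_add_left, dot_single, dot_single] at h1
    omega
  have := key 4 (Or.inl rfl)
  have := key (-4) (Or.inr rfl)
  omega

theorem claimB {h : Co0} (H : ∀ k < 24, k ≠ 0 → dv 2 (h⁻¹ • bb k)) : h ∈ NN := by
  refine isN_of_one (x := e8 none) ⟨_, 8, Or.inl rfl, rfl⟩ ?_
  have hn : sqNorm ((h • e8 none : Λ) : V) = 64 := by rw [norm_smul', norm_e8]
  have h1 : ∀ k < 24, k ≠ 0 → 16 ∣ dotInt (bb k : V) ((h • e8 none : Λ) : V) := fun k hk h0 => by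
    have := H k hk h0 none
    rw [dot_comm, dot_smul_e8]; omega
  generalize h • e8 none = y at hn h1
  have h2 : y = ∑ k ∈ range 24, (dotInt (bb k : V) (y : V) / 8) • dd k :=
    Subtype.ext (eq_sum_dd fun k _ => dot8 (bb k).2 y.2)
  have h3 : y = (dotInt (bb 0 : V) (y : V) / 8 % 2) • dd 0 +
      2 • ∑ k ∈ range 24, (dotInt (bb k : V) (y : V) / 16) • dd k := by
    refine h2.trans ?_
    rw [smul_sum, sum_range_succ', sum_range_succ' _ 23, add_comm (_ • dd 0), add_assoc]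
    congr 1
    · refine sum_congr rfl fun k hk => ?_
      have := h1 (k + 1) (by have := mem_range.1 hk; omega) (by omega)
      rw [two_smul, ← add_smul]; congr 1; omega
    · rw [two_smul, ← add_smul, ← add_smul]; congr 1; omega
  generalize ∑ k ∈ range 24, (dotInt (bb k : V) (y : V) / 16) • dd k = z at h3
  rcases Int.emod_two_eq_zero_or_one (dotInt (bb 0 : V) (y : V) / 8) with e | e <;> rw [e] at h3
  · rw [h3, zero_smul, zero_add, AddSubgroup.coe_nsmul, ← natCast_zsmul, norm_smul] at hn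
    exact absurd (by push_cast at hn; omega) (norm_ne_16 z.2)
  · have h4 : (dd 0 : V) = Pi.single (gE.pt 5) (-8) := (dd_val (by norm_num)).trans dv_chk.2.2.2.2.2.2.2.1
    rw [← cross_eq (i := gE.pt 5) (Or.inr rfl), ← h4]
    refine ⟨y.2, by rw [hn, h4, norm_single]; rfl, -z, (-z).2, ?_⟩
    rw [h3]; simp

theorem trans_of_lt {H : Subgroup Co0} (hH : NN < H) {y : Λ} (hy : y ∈ L2) :
    ∃ g ∈ H, g • bL 0 = y := by
  obtain ⟨h, hh, hN⟩ := SetLike.exists_of_lt hH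
  have step : ∀ {k l : ℕ} {a : Λ}, (∃ g ∈ NN, g • bL k = a) → (∃ g ∈ NN, g • bL l = h⁻¹ • a) →
      ∃ g ∈ H, g • bL k = bL l := by
    rintro k l a ⟨g, hg, rfl⟩ ⟨g', hg', e⟩
    exact ⟨g'⁻¹ * h⁻¹ * g, H.mul_mem (H.mul_mem (H.inv_mem (hH.le hg')) (H.inv_mem hh)) (hH.le hg),
      by rw [mul_smul, mul_smul, ← e, inv_smul_smul]⟩
  have h92 : ∃ g ∈ H, g • bL 9 = bL 2 := by
    by_contra hc
    refine hN (claimB fun k hk h0 => by_contra fun hd => hc ?_)
    have h1 := dv_chk.2.2.2.2.2.2.1 k hk h0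
    rw [← bb_val hk] at h1
    rcases orbN' (y := bb k) (norm_bb hk) with h2 | h2 | h2
    · exact absurd h2.1 h1.2
    · rcases orbN' (smul_mem_L2 h⁻¹ (y := bb k) (norm_bb hk)) with h3 | h3 | h3
      · exact absurd h3.2.1 hd
      · exact absurd h3.2.1 hd
      · exact step h2.2.2 h3.2.2
    · exact absurd h1.1 h2.2.1
  obtain ⟨g1, hg1, e1⟩ := h92
  have h09 : ∃ g ∈ H, g • bL 0 = bL 9 := by
    by_contra hc
    refine hN (claimA fun a ha h4 => by_contra fun hd => hc ?_)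
    rcases orbN' ha with h2 | h2 | h2
    · rcases orbN' (smul_mem_L2 h⁻¹ ha) with h3 | h3 | h3
      · exact absurd h3.1 hd
      · exact step h2.2.2 h3.2.2
      · obtain ⟨g, hg, e⟩ := step h2.2.2 h3.2.2
        exact ⟨g1⁻¹ * g, H.mul_mem (H.inv_mem hg1) hg, by rw [mul_smul, e, ← e1, inv_smul_smul]⟩
    · exact absurd h4 h2.1
    · exact absurd h4 h2.1
  obtain ⟨g0, hg0, e0⟩ := h09
  rcases orbN' hy with ⟨-, -, g, hg, rfl⟩ | ⟨-, -, g, hg, rfl⟩ | ⟨-, -, g, hg, rfl⟩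
  · exact ⟨g, hH.le hg, rfl⟩
  · exact ⟨g * g0, H.mul_mem (hH.le hg) hg0, by rw [mul_smul, e0]⟩
  · exact ⟨g * g1 * g0, H.mul_mem (H.mul_mem (hH.le hg) hg1) hg0, by rw [mul_smul, mul_smul, e0, e1]⟩

def sh : Equiv.Perm GolayPt := Equiv.optionCongr (Equiv.addRight 1)

theorem sh_mem : sh ∈ M24 := mem_M24_of_rep (gE.rep_code sh) (by decide +kernel)

noncomputable def lam : Co0 := mono ⟨sh, sh_mem⟩ ⟨∅, empty_mem_code⟩

theorem lam_apply (x : Λ) (i : GolayPt) : ((lam • x : Λ) : V) i = (x : V) (sh⁻¹ i) := by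
  rw [lam, mono_smul, signedPerm, if_neg (notMem_empty _)]; rfl

theorem lam_pow : lam ^ 23 = 1 := by
  have h : ∀ n (x : Λ) i, ((lam ^ n • x : Λ) : V) i = (x : V) ((sh⁻¹ ^ n) i) := fun n => by
    induction n with
    | zero => simp
    | succ n ih => intro x i; rw [pow_succ', mul_smul, lam_apply, ih, pow_succ]; rfl
  refine Subtype.ext (Equiv.ext fun x => Subtype.ext (funext fun i => (h 23 x i).trans ?_))
  rw [show sh⁻¹ ^ 23 = 1 by decide +kernel]; rfl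

def od : Λ := ⟨odd0, odd0_mem⟩

theorem lam_free {y : Λ} (hy : y ∈ L2) (hd : dotInt (od : V) (y : V) = 0) : lam • y ≠ y := by
  intro e
  have h1 : ∀ t : ZMod 23, (y : V) (some (t + 1)) = (y : V) (some t) := fun t => by
    conv_lhs => rw [← e, lam_apply]
    exact congrArg _ (Equiv.Perm.inv_eq_iff_eq.2 rfl)
  have h2 : ∀ t : ZMod 23, (y : V) (some t) = (y : V) (some 0) := fun t => by
    obtain ⟨n, rfl⟩ := ZMod.natCast_zmod_surjective t
    induction n with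
    | zero => simp
    | succ n ih => rw [Nat.cast_succ, h1, ih]
  have h3 : sqNorm (y : V) = 32 := hy
  simp only [sqNorm, dotInt, Fintype.sum_option, h2, od, odd0, if_true, reduceCtorEq, if_false,
    sum_const, card_univ, ZMod.card, nsmul_eq_mul] at h3 hd
  generalize (y : V) none = a at *
  generalize (y : V) (some 0) = b at *
  push_cast at h3 hd
  have : -1 ≤ b ∧ b ≤ 1 := by constructor <;> nlinarith
  have : b = 0 := by omega
  subst this
  have : a = 0 := by omega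
  subst this
  simp at h3

theorem inv_conj_pow {G : Type*} [Group G] (a b : G) (n : ℕ) : (a⁻¹ * b * a) ^ n = a⁻¹ * b ^ n * a := by
  simpa using conj_pow (a := a⁻¹) (b := b) (i := n)

theorem k0_chk : ∀ k < 19, dt (bc1 0) (bc1 k) = 2048 → k ∈ [1, 7, 12, 14, 18] := by decide +kernel

theorem eq_top_of_lt {H : Subgroup Co0} (hH : NN < H) : H = ⊤ := by
  classical
  let Q : Λ → Prop := fun y => ∃ g ∈ H, g • bL 0 = bL 0 ∧ g • bL 1 = y
  have hQ : ∀ g ∈ H, g • bL 0 = bL 0 → ∀ y, Q y → Q (g • y) := by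
    rintro g hg h0 _ ⟨g', hg', e, rfl⟩
    exact ⟨g * g', H.mul_mem hg hg', by rw [mul_smul, e, h0], mul_smul _ _ _⟩
  have hd : ∀ y, Q y → dotInt (bL 0 : V) (y : V) = 0 := by
    rintro _ ⟨g, -, e, rfl⟩
    rw [dot_smul_fix e, dot_bL (by norm_num) (by norm_num)]; decide +kernel
  have h1 := orb1.ncard Q (fun k => Q (bL k)) fun g hg k _ =>
    ⟨fun h => by simpa using hQ g⁻¹ (H.inv_mem (hH.le hg.2)) (K1.inv_mem hg).1 _ h,
      hQ g (hH.le hg.2) hg.1 _⟩
  obtain ⟨h, hh, e⟩ := trans_of_lt hH (y := od) (by change _ = _; decide +kernel)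
  have hl : lam • od = od := Subtype.ext (funext fun i => by rw [lam_apply]; revert i; decide +kernel)
  have h2 : 23 ∣ {y | y ∈ L2 ∧ Q y}.ncard := by
    haveI : Fact (Nat.Prime 23) := ⟨by norm_num⟩
    refine dvd_ncard_of_free (h⁻¹ * lam * h) 23 (by rw [inv_conj_pow, lam_pow]; simp)
      ((finite_normL 32).subset fun _ h => h.1) (fun y hy => ⟨smul_mem_L2 _ hy.1, hQ _
        (H.mul_mem (H.mul_mem (H.inv_mem hh) (hH.le (show lam ∈ NN from isN_mono _ _))) hh)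
        (by rw [mul_smul, mul_smul, e, hl, ← e, inv_smul_smul]) _ hy.2⟩) fun y hy e' => ?_
    refine lam_free (smul_mem_L2 h hy.1) (by rw [← e, dot_smul, hd _ hy.2]) ?_
    rwa [mul_smul, mul_smul, inv_smul_eq_iff] at e'
  have h3 : ∀ k < 19, k ∉ [1, 7, 12, 14, 18] → ¬ Q (bL k) := fun k hk hk' h => hk' (k0_chk k hk (by
    have := hd _ h
    rw [dot_bL (by norm_num) hk] at this; omega))
  have h4 : Q (bL 1) := ⟨1, H.one_mem, one_smul _ _, one_smul _ _⟩
  have c : d20 TOT1 1 = 2 ∧ d20 TOT1 7 = 45056 ∧ d20 TOT1 12 = 4928 ∧ d20 TOT1 14 = 42240 ∧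
    d20 TOT1 18 = 924 := by decide +kernel
  rw [h1, ← sum_subset (s₁ := {1, 7, 12, 14, 18}) (by decide) fun k hk hk' =>
    if_neg (h3 k (mem_range.1 hk) (by simpa using hk')), sum_insert (by decide), sum_insert (by decide),
    sum_insert (by decide), sum_insert (by decide), sum_singleton, if_pos h4, c.1, c.2.1, c.2.2.1,
    c.2.2.2.1, c.2.2.2.2] at h2
  have h5 : Q (bL 7) ∧ Q (bL 12) ∧ Q (bL 14) ∧ Q (bL 18) := by
    split_ifs at h2 <;> first | exact ⟨‹_›, ‹_›, ‹_›, ‹_›⟩ | exact absurd h2 (by norm_num)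
  have h6 : ∀ y ∈ L2, dotInt (bL 0 : V) (y : V) = 0 → Q y := fun y hy h0 => by
    obtain ⟨k, hk, g, hg, rfl⟩ := orb1.exists hy
    refine hQ g (hH.le hg.2) hg.1 _ ?_
    have := k0_chk k hk (by rw [dot_smul_fix hg.1, dot_bL (by norm_num) hk] at h0; omega)
    simp only [List.mem_cons, List.not_mem_nil, or_false] at this
    rcases this with rfl | rfl | rfl | rfl | rfl
    exacts [h4, h5.1, h5.2.1, h5.2.2.1, h5.2.2.2]
  refine eq_top_iff.2 fun g _ => ?_
  obtain ⟨g1, hg1, e1⟩ := trans_of_lt hH (smul_mem_L2 g (bL_mem (k := 0) (by norm_num)))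
  have e1' : (g1⁻¹ * g) • bL 0 = bL 0 := by rw [mul_smul, ← e1, inv_smul_smul]
  obtain ⟨g2, hg2, e2, e3⟩ := h6 _ (smul_mem_L2 (g1⁻¹ * g) (bL_mem (k := 1) (by norm_num)))
    (by rw [dot_smul_fix e1', hd _ h4])
  have h7 : ((bL 0 + bL 1 : Λ) : V) ∈ stdCross := ⟨gE.pt 0, 8, Or.inl rfl, by
    rw [AddSubgroup.coe_add, bL, bL, lv_val (bc1_chk 0 (by norm_num)).1,
      lv_val (bc1_chk 1 (by norm_num)).1]; exact dv_chk.2.2.2.2.2.2.2.2⟩
  have h8 : g2⁻¹ * (g1⁻¹ * g) ∈ NN := isN_of_one h7 (by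
    rw [smul_add', mul_smul, mul_smul g2⁻¹, e1', ← e3, inv_smul_smul, inv_smul_eq_iff.2 e2.symm]
    exact h7)
  simpa using H.mul_mem hg1 (H.mul_mem hg2 (hH.le h8))

theorem coatom_NN : IsCoatom NN := by
  refine ⟨fun h => ?_, fun H hH => eq_top_of_lt hH⟩
  obtain ⟨g, e⟩ := trans2 (bL_mem (k := 2) (by norm_num))
  have := dv_smul (g := g) (h ▸ trivial) 4 (bL 0)
  rw [e, dv_bL (by norm_num), dv_bL (by norm_num)] at this
  exact dv_chk.2.2.2.2.2.1 (this.2 dv_chk.1)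

end Cfsg.Agent.H5.Lee
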