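import Cfsg.Agent.H5.LeeI

/-! Orbits of stabilisers of short vectors. -/

set_option autoImplicit false

namespace Cfsg.Agent.H5.Lee

open Finset H4 MulAction

noncomputable def v0 : Λ := lv V0
noncomputable def x1 : Λ := lv X1
noncomputable def z1 : Λ := lv Z1
def L3 : Set Λ := {x | sqNorm (x : V) = 48}
def SD (u : Λ) (d : ℤ) : Set Λ := {y | y ∈ L2 ∧ dotInt (u : V) (y : V) = d}
abbrev St (x : Λ) : Subgroup Co0 := stabilizer Co0 x

theorem cd_chk : bc1 0 = V0 ∧ (inL V0 = 0 ∧ dt V0 V0 = 2080) ∧ (inL X1 = 0 ∧ dt X1 X1 = 2080) ∧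
    (inL Z1 = 0 ∧ dt Z1 Z1 = 2080) ∧ d20 TOT1 (32 + 9) = 552 ∧ d20 TOT1 (32 + 4) = 11178 := by
  decide +kernel

theorem smul_mem_SD {g : Co0} {u y : Λ} {d : ℤ} : g • y ∈ SD (g • u) d ↔ y ∈ SD u d := by
  simp only [SD, L2, Set.mem_ofPred_eq, norm_smul', dot_smul]

theorem smul_mem_SD' {g : Co0} {u y : Λ} {d : ℤ} (h : g • u = u) : g • y ∈ SD u d ↔ y ∈ SD u d := by
  conv_lhs => rw [← h]
  exact smul_mem_SD

theorem ncard_SA : (SD u0 24).ncard = 552 := (ncard_u0 9 (by norm_num)).trans cd_chk.2.2.2.2.1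
theorem ncard_SB : (SD u0 (-16)).ncard = 11178 := (ncard_u0 4 (by norm_num)).trans cd_chk.2.2.2.2.2

theorem u0_mem : u0 ∈ L3 := by
  change _ = _
  rw [u0, norm_lv U0_chk.1, U0_chk.2.1]; rfl

theorem u0_eq : u0 = v0 + bL 2 := Subtype.ext (by
  rw [AddSubgroup.coe_add, u0, v0, bL, lv_val U0_chk.1, lv_val cd_chk.2.1.1,
    lv_val (bc1_chk 2 (by norm_num)).1, U0_chk.2.2, cd_chk.1])

theorem gens3 {G : Tr} {A B C : ℕ} (h : ∀ a < 8, lnk (genK (G.get a)) [(A, A), (B, B), (C, C)] = 0) :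
    ∀ a < 8, ∃ g ∈ St (lv A) ⊓ St (lv B) ⊓ St (lv C), Rep g (genK (G.get a)) := fun a ha => by
  obtain ⟨h1, h2⟩ := lnk_spec (h a ha)
  exact ⟨_, ⟨⟨h2 (A, A) (by simp), h2 (B, B) (by simp)⟩, h2 (C, C) (by simp)⟩, h1⟩

theorem bases_SD {B r d : ℕ} {K : Subgroup Co0} (hK : K ≤ St u0)
    (h : ∀ k < r, (inL (bB B k) = 0 ∧ dt (bB B k) (bB B k) = 2080) ∧ dt U0 (bB B k) = d) :
    ∀ g ∈ K, ∀ k < r, g • lv (bB B k) ∈ SD u0 (d - 2048) := fun g hg k hk =>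
  (smul_mem_SD' (hK hg)).2 ⟨mem_L2_of (h k hk).1, by rw [u0, dot_lv U0_chk.1 (h k hk).1.1, (h k hk).2]⟩

def TA : ℕ := 0x160004d000b000016000010004d000b000001
def TU : ℕ := 0x10000100001000a20007000070000a200001
def TB : ℕ := 0x160014a001ce00483000b000e70004d000a50000b000268002a000001

theorem bA_chk : ∀ k < 8, (inL (bB BA k) = 0 ∧ dt (bB BA k) (bB BA k) = 2080) ∧
    dt U0 (bB BA k) = 2072 := by decide +kernel
theorem bU_chk : ∀ k < 8, (inL (bB BU k) = 0 ∧ dt (bB BU k) (bB BU k) = 2080) ∧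
    dt U0 (bB BU k) = 2072 := by decide +kernel
theorem bB_chk : ∀ k < 12, (inL (bB BB k) = 0 ∧ dt (bB BB k) (bB BB k) = 2080) ∧
    dt U0 (bB BB k) = 2032 := by decide +kernel

theorem injA : ∀ q < 552, ∀ q' < 552, pE IA q = pE IA q' → q = q' :=
  pE_inj srtA.1 ((s1024_blk _).zero_below (c := 1) (fun j hj => by
    obtain rfl : j = 0 := by omega
    exact srtA.2) (by norm_num))

theorem injB : ∀ q < 11178, ∀ q' < 11178, pE IB q = pE IB q' → q = q' :=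
  pE_inj srtB.1 ((s1024_blk _).zero_below (c := 11) (sumTo_zero srtB.2) (by norm_num))

noncomputable abbrev KM : Subgroup Co0 := St u0 ⊓ St v0 ⊓ St x1
noncomputable abbrev KU : Subgroup Co0 := St u0 ⊓ St v0 ⊓ St z1

theorem orbA : Enum (SD u0 24) 552 (pE IA) ∧ Orb KM (SD u0 24) 8 (fun k => lv (bB BA k)) (d20 TA) :=
  orb_list (fun _ h => h.1) ncard_SA injA (gens3 GB_chk) (fun k hk => (bA_chk k hk).1)
    (bases_SD (K := KM) (fun _ h => h.1.1) bA_chk) (by norm_num) (by norm_num)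
    ((sum_blocks (c := 1) (s1024_blk _) (by norm_num)).trans ((sum_range_one _).trans cA))
    (by decide +kernel) (by decide +kernel)

theorem orbU : Orb KU (SD u0 24) 8 (fun k => lv (bB BU k)) (d20 TU) :=
  (orb_list (fun _ h => h.1) ncard_SA injA (gens3 GU_chk) (fun k hk => (bU_chk k hk).1)
    (bases_SD (K := KU) (fun _ h => h.1.1) bU_chk) (by norm_num) (by norm_num)
    ((sum_blocks (c := 1) (s1024_blk _) (by norm_num)).trans ((sum_range_one _).trans cU))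
    (by decide +kernel) (by decide +kernel)).2

theorem orbB : Orb KM (SD u0 (-16)) 12 (fun k => lv (bB BB k)) (d20 TB) :=
  (orb_list (fun _ h => h.1) ncard_SB injB (gens3 GB_chk) (fun k hk => (bB_chk k hk).1)
    (bases_SD (K := KM) (fun _ h => h.1.1) bB_chk) (by norm_num) (by norm_num)
    ((sum_blocks (c := 6) (s1024_blk _).dbl (by norm_num)).trans cB)
    (by decide +kernel) (by decide +kernel)).2

section
variable {S : Set Λ} {r A C : ℕ} {B cnt : ℕ → ℕ} {H : Subgroup Co0}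

theorem Orb.cnt3 (h : Orb (H ⊓ St (lv A) ⊓ St (lv C)) S r (fun k => lv (B k)) cnt)
    (hb : ∀ k < r, inL (B k) = 0) (hA : inL A = 0) (hC : inL C = 0) (R : ℤ → ℤ → Prop)
    [DecidableRel R] : {y | y ∈ S ∧ R (dotInt (lv A : V) (y : V)) (dotInt (lv C : V) (y : V))}.ncard =
      ∑ k ∈ range r, if R ((dt A (B k) : ℤ) - 2048) ((dt C (B k) : ℤ) - 2048) then cnt k else 0 :=
  h.ncard _ _ fun g hg k hk => by
    rw [dot_smul_fix hg.1.2, dot_smul_fix hg.2, dot_lv hA (hb k hk), dot_lv hC (hb k hk)]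

theorem Orb.ex3 (h : Orb (H ⊓ St (lv A) ⊓ St (lv C)) S r (fun k => lv (B k)) cnt)
    (hb : ∀ k < r, inL (B k) = 0) (hA : inL A = 0) (hC : inL C = 0) {y : Λ} (hy : y ∈ S) :
    ∃ k < r, dotInt (lv A : V) (y : V) = (dt A (B k) : ℤ) - 2048 ∧
      dotInt (lv C : V) (y : V) = (dt C (B k) : ℤ) - 2048 ∧
      ∃ g ∈ H ⊓ St (lv A) ⊓ St (lv C), g • lv (B k) = y := by
  obtain ⟨k, hk, g, hg, rfl⟩ := h.exists hy
  exact ⟨k, hk, by rw [dot_smul_fix hg.1.2, dot_lv hA (hb k hk)],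
    by rw [dot_smul_fix hg.2, dot_lv hC (hb k hk)], g, hg, rfl⟩

theorem Orb.same3 (h : Orb (H ⊓ St (lv A) ⊓ St (lv C)) S r (fun k => lv (B k)) cnt)
    (hb : ∀ k < r, inL (B k) = 0) (hA : inL A = 0) (hC : inL C = 0)
    (sep : ∀ k < r, ∀ l < r, dt A (B k) = dt A (B l) → dt C (B k) = dt C (B l) → k = l)
    {y y' : Λ} (hy : y ∈ S) (hy' : y' ∈ S)
    (e1 : dotInt (lv A : V) (y : V) = dotInt (lv A : V) (y' : V))
    (e2 : dotInt (lv C : V) (y : V) = dotInt (lv C : V) (y' : V)) :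
    ∃ g ∈ H ⊓ St (lv A) ⊓ St (lv C), g • y = y' := by
  obtain ⟨k, hk, a1, a2, g, hg, rfl⟩ := h.ex3 hb hA hC hy
  obtain ⟨l, hl, b1, b2, g', hg', rfl⟩ := h.ex3 hb hA hC hy'
  obtain rfl := sep k hk l hl (by omega) (by omega)
  exact ⟨g' * g⁻¹, mul_mem hg' (inv_mem hg), by rw [mul_smul, inv_smul_smul]⟩

end

theorem sepA : ∀ k < 8, ∀ l < 8, dt V0 (bB BA k) = dt V0 (bB BA l) →
    dt X1 (bB BA k) = dt X1 (bB BA l) → k = l := by decide +kernel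
theorem sepU : ∀ k < 8, ∀ l < 8, dt V0 (bB BU k) = dt V0 (bB BU l) →
    dt Z1 (bB BU k) = dt Z1 (bB BU l) → k = l := by decide +kernel
theorem sepB : ∀ k < 12, ∀ l < 12, dt V0 (bB BB k) = dt V0 (bB BB l) →
    dt X1 (bB BB k) = dt X1 (bB BB l) → k = l := by decide +kernel

theorem hV0 : inL V0 = 0 := cd_chk.2.1.1
theorem hX1 : inL X1 = 0 := cd_chk.2.2.1.1
theorem hZ1 : inL Z1 = 0 := cd_chk.2.2.2.1.1
theorem hBA : ∀ k < 8, inL (bB BA k) = 0 := fun k hk => (bA_chk k hk).1.1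
theorem hBU : ∀ k < 8, inL (bB BU k) = 0 := fun k hk => (bU_chk k hk).1.1
theorem hBB : ∀ k < 12, inL (bB BB k) = 0 := fun k hk => (bB_chk k hk).1.1
theorem v0_mem : v0 ∈ L2 := mem_L2_of cd_chk.2.1
theorem x1_mem : x1 ∈ L2 := mem_L2_of cd_chk.2.2.1
theorem z1_mem : z1 ∈ L2 := mem_L2_of cd_chk.2.2.2.1

theorem lists_chk : (∀ k < 8, dt V0 (bB BU k) = 2064 → ∃ p ∈ mul', p.1 = k) ∧
    (∀ k < 8, dt X1 (bB BA k) = 2048 → (∃ p ∈ hal, p.1 = k) ∧ dt V0 (bB BA k) ∈ [2080, 2056, 2064]) ∧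
    (∀ k < 12, dt V0 (bB BB k) = 2048 → ∃ p ∈ mbl, p.1 = k) ∧
    (∀ k < 12, ∃ p ∈ hbl, p.1 = k ∧ p.2.1 < 5) ∧ (∀ k < 5, ∃ p ∈ cbl, p.1 = k) ∧
    (∀ k < 5, ∀ l < 5, dt X1 (bB BB k) = dt X1 (bB BB l) → k = l) ∧
    ∀ k < 12, dt X1 (bB BB k) ∈ [2080, 2040, 2064, 2048, 2056] := by decide +kernel

theorem tr275 {y : Λ} (hy : y ∈ SD u0 24) (h : dotInt (v0 : V) (y : V) = 16) :
    ∃ g : Co0, g • u0 = u0 ∧ g • v0 = v0 ∧ g • z1 = y := by
  obtain ⟨k, hk, a1, -, g, hg, rfl⟩ := orbU.ex3 hBU hV0 hZ1 hy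
  obtain ⟨p, hp, rfl⟩ := lists_chk.1 k hk (by unfold v0 at h; omega)
  have h2 := (lnk_spec (mul_chk p hp)).2
  refine ⟨g * ge (genK p.2.2), ?_, ?_, ?_⟩ <;> rw [mul_smul]
  · rw [u0, h2 (U0, U0) (by simp)]; exact hg.1.1
  · rw [v0, h2 (V0, V0) (by simp)]; exact hg.1.2
  · rw [z1, h2 _ List.mem_cons_self]

theorem tr100 {y : Λ} (hy : y ∈ SD u0 24) (h : dotInt (x1 : V) (y : V) = 0) :
    ∃ g : Co0, g • u0 = u0 ∧ g • x1 = x1 ∧ g • v0 = y := by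
  obtain ⟨k, hk, -, a1, g, hg, rfl⟩ := orbA.2.ex3 hBA hV0 hX1 hy
  obtain ⟨p, hp, rfl⟩ := (lists_chk.2.1 k hk (by unfold x1 at h; omega)).1
  have h2 := (lnk_spec (hal_chk p hp)).2
  refine ⟨g * ge (genK p.2.2), ?_, ?_, ?_⟩ <;> rw [mul_smul]
  · rw [u0, h2 (U0, U0) (by simp)]; exact hg.1.1
  · rw [x1, h2 (X1, X1) (by simp)]; exact hg.2
  · rw [v0, h2 _ List.mem_cons_self]

theorem dots100 {y : Λ} (hy : y ∈ SD u0 24) (h : dotInt (x1 : V) (y : V) = 0) :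
    dotInt (v0 : V) (y : V) = 32 ∨ dotInt (v0 : V) (y : V) = 8 ∨ dotInt (v0 : V) (y : V) = 16 := by
  obtain ⟨k, hk, a2, a1, -⟩ := orbA.2.ex3 hBA hV0 hX1 hy
  have := (lists_chk.2.1 k hk (by unfold x1 at h; omega)).2
  simp only [List.mem_cons, List.not_mem_nil, or_false] at this
  unfold v0; omega

theorem tr2025 {y : Λ} (hy : y ∈ SD u0 (-16)) (h : dotInt (v0 : V) (y : V) = 0) :
    ∃ g : Co0, g • u0 = u0 ∧ g • v0 = v0 ∧ g • x1 = y := by
  obtain ⟨k, hk, a1, -, g, hg, rfl⟩ := orbB.ex3 hBB hV0 hX1 hy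
  obtain ⟨p, hp, rfl⟩ := lists_chk.2.2.1 k hk (by unfold v0 at h; omega)
  have h2 := (lnk_spec (mbl_chk p hp)).2
  refine ⟨g * ge (genK p.2.2), ?_, ?_, ?_⟩ <;> rw [mul_smul]
  · rw [u0, h2 (U0, U0) (by simp)]; exact hg.1.1
  · rw [v0, h2 (V0, V0) (by simp)]; exact hg.1.2
  · rw [x1, h2 _ List.mem_cons_self]

theorem orbHS {y : Λ} (hy : y ∈ SD u0 (-16)) :
    ∃ k < 5, ∃ g : Co0, g • u0 = u0 ∧ g • x1 = x1 ∧ g • lv (bB BB k) = y := by
  obtain ⟨k, hk, g, hg, rfl⟩ := orbB.exists hy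
  obtain ⟨p, hp, rfl, h5⟩ := lists_chk.2.2.2.1 k hk
  have h2 := (lnk_spec (hbl_chk p hp)).2
  refine ⟨_, h5, g * ge (genK p.2.2), ?_, ?_, ?_⟩ <;> rw [mul_smul]
  · rw [u0, h2 (U0, U0) (by simp)]; exact hg.1.1
  · rw [x1, h2 (X1, X1) (by simp)]; exact hg.2
  · rw [h2 _ List.mem_cons_self]

theorem sameHS {y y' : Λ} (hy : y ∈ SD u0 (-16)) (hy' : y' ∈ SD u0 (-16))
    (e : dotInt (x1 : V) (y : V) = dotInt (x1 : V) (y' : V)) :
    ∃ g : Co0, g • u0 = u0 ∧ g • x1 = x1 ∧ g • y = y' := by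
  obtain ⟨k, hk, g, a1, a2, rfl⟩ := orbHS hy
  obtain ⟨l, hl, g', b1, b2, rfl⟩ := orbHS hy'
  rw [dot_smul_fix a2, dot_smul_fix b2, x1, dot_lv hX1 (hBB k (by omega)),
    dot_lv hX1 (hBB l (by omega))] at e
  obtain rfl := lists_chk.2.2.2.2.2.1 k hk l hl (by omega)
  refine ⟨g' * g⁻¹, ?_, ?_, ?_⟩ <;> rw [mul_smul]
  · rw [inv_smul_eq_iff.2 a1.symm, b1]
  · rw [inv_smul_eq_iff.2 a2.symm, b2]
  · rw [inv_smul_smul]

theorem tr11178 {y : Λ} (hy : y ∈ SD u0 (-16)) : ∃ g : Co0, g • u0 = u0 ∧ g • x1 = y := by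
  obtain ⟨k, hk, g, a1, a2, rfl⟩ := orbHS hy
  obtain ⟨p, hp, rfl⟩ := lists_chk.2.2.2.2.1 k hk
  have h2 := (lnk_spec (cbl_chk p hp)).2
  refine ⟨g * ge (genK p.2.2), ?_, ?_⟩ <;> rw [mul_smul]
  · rw [u0, h2 (U0, U0) (by simp)]; exact a1
  · rw [x1, h2 _ List.mem_cons_self]

theorem dotsB {y : Λ} (hy : y ∈ SD u0 (-16)) : dotInt (x1 : V) (y : V) = 32 ∨
    dotInt (x1 : V) (y : V) = -8 ∨ dotInt (x1 : V) (y : V) = 16 ∨ dotInt (x1 : V) (y : V) = 0 ∨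
    dotInt (x1 : V) (y : V) = 8 := by
  obtain ⟨k, hk, -, a1, -⟩ := orbB.ex3 hBB hV0 hX1 hy
  have := lists_chk.2.2.2.2.2.2 k hk
  simp only [List.mem_cons, List.not_mem_nil, or_false] at this
  unfold x1; omega

/-! ### vectors of norm 48 -/

theorem trans_uv {u v : Λ} (hu : u ∈ L3) (hv : v ∈ SD u 24) : ∃ g : Co0, g • u0 = u ∧ g • v0 = v := by
  have h1 : sqNorm (u : V) = 48 := hu
  have h2 : sqNorm (v : V) = 32 := hv.1
  obtain ⟨g, e1, e2⟩ := trans_m8 hv.1 (w := u - v) (by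
    change _ = _
    rw [AddSubgroup.coe_sub, norm_sub, h1, h2, hv.2]; rfl) (by
    rw [AddSubgroup.coe_sub, dot_sub_right, dot_self, dot_comm, h2, hv.2]; rfl)
  rw [bL, cd_chk.1] at e1
  exact ⟨g, by rw [u0_eq, smul_add', v0, e1, e2]; abel, e1⟩

theorem ncard_SD_smul (g : Co0) (u : Λ) (d : ℤ) : (SD (g • u) d).ncard = (SD u d).ncard :=
  (ncard_smul g _ _ fun _ => smul_mem_SD.symm).symm

theorem sum_const_of_le {α : Type*} {S : Finset α} {f : α → ℕ} {c : ℕ} (h : ∀ x ∈ S, f x ≤ c)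
    (e : ∑ x ∈ S, f x = #S * c) : ∀ x ∈ S, f x = c := by
  rw [← smul_eq_mul, ← sum_const] at e
  exact (sum_eq_sum_iff_of_le h).1 e

theorem exists_SD {u : Λ} (hu : u ∈ L3) : ∃ v, v ∈ SD u 24 := by
  classical
  let F2 := (finite_normL 32).toFinset
  let F3 := (finite_normL 48).toFinset
  have c2 : #F2 = 196560 := (Set.ncard_eq_toFinset_card _ _).symm.trans ncard_L2
  have c3 : #F3 = 16773120 := (Set.ncard_eq_toFinset_card _ _).symm.trans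
    ((ncard_val fun x => sqNorm x = 48).trans ncard_48)
  have h1 : ∀ u : Λ, #(F2.filter fun v : Λ => dotInt (u : V) (v : V) = 24) = (SD u 24).ncard := fun u => by
    rw [← Set.ncard_coe_finset]; congr 1; ext v; simp [F2, SD, L2]
  have h2 : ∀ v ∈ F2, #(F3.filter fun u : Λ => dotInt (u : V) (v : V) = 24) = 47104 := fun v hv => by
    have hv' : sqNorm (v : V) = 32 := by simpa [F2] using hv
    rw [← (ncard_dots hv').2.1, ← Set.ncard_coe_finset]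
    refine Set.ncard_congr (fun u _ => u - v) (fun u hu => ?_) (fun _ _ _ _ e => sub_left_injective e)
      fun w hw => ⟨w + v, ?_, add_sub_cancel_right w v⟩
    · simp only [coe_filter, F3, Set.Finite.mem_toFinset, Set.mem_ofPred_eq, L2] at hu ⊢
      rw [AddSubgroup.coe_sub, norm_sub, dot_sub_right, dot_self, dot_comm (v : V), hu.1, hu.2, hv']
      exact ⟨rfl, rfl⟩
    · simp only [coe_filter, F3, Set.Finite.mem_toFinset, Set.mem_ofPred_eq, L2] at hw ⊢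
      rw [AddSubgroup.coe_add, norm_add, dot_add_left, dot_self, dot_comm (w : V), hw.1, hw.2, hv']
      exact ⟨rfl, rfl⟩
  have h3 := sum_card_bipartiteAbove_eq_sum_card_bipartiteBelow (s := F3) (t := F2)
    fun u v : Λ => dotInt (u : V) (v : V) = 24
  simp only [bipartiteAbove, bipartiteBelow, h1] at h3
  rw [sum_congr rfl h2, sum_const, c2] at h3
  have h4 := sum_const_of_le (S := F3) (f := fun u => (SD u 24).ncard) (c := 552) (fun u hu => by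
    rcases (SD u 24).eq_empty_or_nonempty with e | ⟨v, hv⟩
    · simp [e]
    · obtain ⟨g, rfl, -⟩ := trans_uv (by simpa [F3, L3] using hu) hv
      rw [ncard_SD_smul, ncard_SA]) (by rw [h3, c3]; rfl) u (by simpa [F3, L3] using hu)
  exact Set.nonempty_of_ncard_ne_zero (by rw [h4]; norm_num)

theorem trans3 {u : Λ} (hu : u ∈ L3) : ∃ g : Co0, g • u0 = u := by
  obtain ⟨v, hv⟩ := exists_SD hu
  obtain ⟨g, h, -⟩ := trans_uv hu hv
  exact ⟨g, h⟩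

theorem trans_ux {u x : Λ} (hu : u ∈ L3) (hx : x ∈ SD u (-16)) :
    ∃ g : Co0, g • u0 = u ∧ g • x1 = x := by
  obtain ⟨g, rfl⟩ := trans3 hu
  obtain ⟨x, rfl⟩ := MulAction.surjective g x
  obtain ⟨h, e1, e2⟩ := tr11178 (smul_mem_SD.1 hx)
  exact ⟨g * h, by rw [mul_smul, e1], by rw [mul_smul, e2]⟩

theorem trans_uvz {u v x : Λ} (hu : u ∈ L3) (hv : v ∈ SD u 24) (hx : x ∈ SD u 24)
    (h : dotInt (v : V) (x : V) = 16) : ∃ g : Co0, g • u0 = u ∧ g • v0 = v ∧ g • z1 = x := by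
  obtain ⟨g, rfl, rfl⟩ := trans_uv hu hv
  obtain ⟨x, rfl⟩ := MulAction.surjective g x
  obtain ⟨h, e1, e2, e3⟩ := tr275 (smul_mem_SD.1 hx) (by rwa [dot_smul] at h)
  exact ⟨g * h, by rw [mul_smul, e1], by rw [mul_smul, e2], by rw [mul_smul, e3]⟩

theorem trans_uvx {u v x : Λ} (hu : u ∈ L3) (hv : v ∈ SD u 24) (hx : x ∈ SD u (-16))
    (h : dotInt (v : V) (x : V) = 0) : ∃ g : Co0, g • u0 = u ∧ g • v0 = v ∧ g • x1 = x := by
  obtain ⟨g, rfl, rfl⟩ := trans_uv hu hv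
  obtain ⟨x, rfl⟩ := MulAction.surjective g x
  obtain ⟨h, e1, e2, e3⟩ := tr2025 (smul_mem_SD.1 hx) (by rwa [dot_smul] at h)
  exact ⟨g * h, by rw [mul_smul, e1], by rw [mul_smul, e2], by rw [mul_smul, e3]⟩

theorem conj_smul' {g h : Co0} {a b : Λ} (e : h • a = b) : (g * h * g⁻¹) • g • a = g • b := by
  rw [mul_smul, inv_smul_smul, mul_smul, e]

theorem eq_iff_dot {x y : Λ} (hx : x ∈ L2) (hy : y ∈ L2) : y = x ↔ dotInt (x : V) (y : V) = 32 := by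
  have h1 : sqNorm (x : V) = 32 := hx
  have h2 : sqNorm (y : V) = 32 := hy
  refine ⟨fun e => by rw [e, dot_self, h1], fun e => Subtype.ext (sub_eq_zero.1 (eq_zero_of_norm ?_))⟩
  rw [norm_sub, dot_comm, h1, h2, e]; rfl

theorem mem_SD_iff {u v : Λ} (hu : sqNorm (u : V) = 48) :
    (sqNorm (v : V) = 32 ∧ sqNorm ((u : V) - (v : V)) = 32) ↔ v ∈ SD u 24 := by
  simp only [SD, L2, Set.mem_ofPred_eq, norm_sub, hu]
  omega

/-- counts in terms of two further vectors -/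
theorem cntA (g : Co0) (R : ℤ → ℤ → Prop) [DecidableRel R] : {y | y ∈ SD (g • u0) 24 ∧
    R (dotInt ((g • v0 : Λ) : V) (y : V)) (dotInt ((g • x1 : Λ) : V) (y : V))}.ncard = ∑ k ∈ range 8,
      if R ((dt V0 (bB BA k) : ℤ) - 2048) ((dt X1 (bB BA k) : ℤ) - 2048) then d20 TA k else 0 :=
  (ncard_smul g _ _ fun y => by simp only [smul_mem_SD, dot_smul]; rfl).symm.trans
    (orbA.2.cnt3 hBA hV0 hX1 R)

theorem cntU (g : Co0) (R : ℤ → ℤ → Prop) [DecidableRel R] : {y | y ∈ SD (g • u0) 24 ∧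
    R (dotInt ((g • v0 : Λ) : V) (y : V)) (dotInt ((g • z1 : Λ) : V) (y : V))}.ncard = ∑ k ∈ range 8,
      if R ((dt V0 (bB BU k) : ℤ) - 2048) ((dt Z1 (bB BU k) : ℤ) - 2048) then d20 TU k else 0 :=
  (ncard_smul g _ _ fun y => by simp only [smul_mem_SD, dot_smul]; rfl).symm.trans
    (orbU.cnt3 hBU hV0 hZ1 R)

theorem cntB (g : Co0) (R : ℤ → ℤ → Prop) [DecidableRel R] : {y | y ∈ SD (g • u0) (-16) ∧
    R (dotInt ((g • v0 : Λ) : V) (y : V)) (dotInt ((g • x1 : Λ) : V) (y : V))}.ncard = ∑ k ∈ range 12,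
      if R ((dt V0 (bB BB k) : ℤ) - 2048) ((dt X1 (bB BB k) : ℤ) - 2048) then d20 TB k else 0 :=
  (ncard_smul g _ _ fun y => by simp only [smul_mem_SD, dot_smul]; rfl).symm.trans
    (orbB.cnt3 hBB hV0 hX1 R)

theorem hs_base {v w : Λ} (hv : sqNorm (v : V) = 48) (hw : sqNorm (w : V) = 48)
    (hvw : dotInt (v : V) (w : V) = -32) : ∃ g : Co0, g • u0 = v ∧ g • x1 = -(v + w) :=
  trans_ux hv ⟨by
    change _ = _
    rw [AddSubgroup.coe_neg, AddSubgroup.coe_add, norm_neg, norm_add, hv, hw, hvw]; rfl, by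
    rw [AddSubgroup.coe_neg, AddSubgroup.coe_add, dot_neg_right, dot_add_right, dot_self, hv, hvw]; rfl⟩

theorem xor_self' (a : ℕ) : Nat.xor a a = 0 := Nat.xor_self a

theorem exists_inv : ∃ t : Co0, t • u0 = u0 ∧ t • x1 = x1 ∧ orderOf t = 2 ∧
    ∀ y ∈ SD u0 24, dotInt (x1 : V) (y : V) = 0 → t • y ≠ y := by
  obtain ⟨h1, h2, h3, h4⟩ := inv_chk
  obtain ⟨h5, h6⟩ := lnk_spec h1
  refine ⟨_, h6 (U0, U0) (by simp), h6 (X1, X1) (by simp), orderOf_eq_prime ?_ ?_, fun y hy e e' => ?_⟩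
  · refine ext_bb fun k hk => Subtype.ext ?_
    have n := norm_bb hk
    refine enc_inj (bd_of_norm (by rw [norm_smul', n]; norm_num))
      (bd_of_norm (by rw [norm_smul', n]; norm_num)) ?_
    rw [sq, mul_smul, ← h5.mv_enc (by rw [norm_smul', n]; norm_num), ← h5.mv_enc (by rw [n]; norm_num),
      one_smul, enc_bb hk, h2 k hk]
  · intro e
    have := h5.mv_enc (x := v0) (by rw [show sqNorm (v0 : V) = 32 from v0_mem]; norm_num)
    rw [e, one_smul, v0, enc_lv hV0] at this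
    exact h3 this
  · obtain ⟨q, hq, e2⟩ := orbA.1.surj y hy
    have h7 : chkI q = 0 := (s1024_blk _).zero_below (c := 1) (fun j hj => by
      obtain rfl : j = 0 := by omega
      exact h4) (by norm_num) q hq
    have h8 := dt_enc (bd_lv hX1) (bd_L2 y hy.1)
    have h9 := h5.mv_enc (x := y) (by rw [show sqNorm (y : V) = 32 from hy.1]; norm_num)
    rw [enc_lv hX1, ← x1, e, ← e2] at h8
    rw [e', ← e2] at h9
    have : dt X1 (pE IA q) = 2048 := by omega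
    simp only [chkI, force_eq, ifz_eq, this, h9] at h7
    rw [if_pos (xor_self' _), if_pos (xor_self' _)] at h7
    exact one_ne_zero h7

end Cfsg.Agent.H5.Lee
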