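import Cfsg.Agent.H5.LeeJ

set_option autoImplicit false

namespace Cfsg.Agent.H5.Lee

open MulAction

theorem hs_iff {v w x : Λ} {a b : ℤ} : (sqNorm (x : V) = 32 ∧ dotInt (v : V) (x : V) = a ∧
    dotInt (w : V) (x : V) = b) ↔ x ∈ SD v a ∧ dotInt ((-(v + w) : Λ) : V) (x : V) = -(a + b) := by
  simp only [SD, L2, Set.mem_ofPred_eq, AddSubgroup.coe_neg, AddSubgroup.coe_add, dot_neg_left,
    dot_add_left]
  omega

theorem fix_w {g : Co0} {v w : Λ} (h1 : g • v = v) (h2 : g • (-(v + w)) = -(v + w)) : g • w = w := by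
  rw [smul_neg', smul_add', h1] at h2
  simpa using h2

theorem trans_uxv {u x y : Λ} (hu : u ∈ L3) (hx : x ∈ SD u (-16)) (hy : y ∈ SD u 24)
    (h : dotInt (x : V) (y : V) = 0) : ∃ g : Co0, g • u0 = u ∧ g • x1 = x ∧ g • v0 = y := by
  obtain ⟨g, h1, h2, h3⟩ := trans_uvx hu hy hx (by rwa [dot_comm])
  exact ⟨g, h1, h3, h2⟩

theorem hs_mem {v w : Λ} (hv : sqNorm (v : V) = 48) (hw : sqNorm (w : V) = 48)
    (hvw : dotInt (v : V) (w : V) = -32) : -(v + w) ∈ SD v (-16) := ⟨by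
    change _ = _
    rw [AddSubgroup.coe_neg, AddSubgroup.coe_add, norm_neg, norm_add, hv, hw, hvw]; rfl, by
    rw [AddSubgroup.coe_neg, AddSubgroup.coe_add, dot_neg_right, dot_add_right, dot_self, hv, hvw]; rfl⟩

theorem orbit_eq {K : Subgroup Co0} {y : Λ} {S : Set Λ} (h1 : ∀ g ∈ K, g • y ∈ S)
    (h2 : ∀ z ∈ S, ∃ g ∈ K, g • y = z) : orbit K y = S := by
  ext z
  exact ⟨fun ⟨g, e⟩ => e ▸ h1 g g.2, fun hz => by
    obtain ⟨g, hg, e⟩ := h2 z hz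
    exact ⟨⟨g, hg⟩, e⟩⟩

theorem exists_of_ncard {α : Type*} {S : Set α} {n : ℕ} (h : S.ncard = n + 1) : ∃ y, y ∈ S :=
  Set.nonempty_of_ncard_ne_zero (by omega)

/-- orbits of the stabiliser of `g • u0`, `g • x1` -/
theorem orbit_HS (g : Co0) {y : Λ} {d : ℤ} (hy : y ∈ SD (g • u0) (-16))
    (hd : dotInt ((g • x1 : Λ) : V) (y : V) = d) : orbit (St (g • u0) ⊓ St (g • x1) : Subgroup Co0) y =
      {z | z ∈ SD (g • u0) (-16) ∧ dotInt ((g • x1 : Λ) : V) (z : V) = d} := by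
  refine orbit_eq (fun h hh => ⟨(smul_mem_SD' hh.1).2 hy, by rw [dot_smul_fix hh.2, hd]⟩) fun z hz => ?_
  obtain ⟨y, rfl⟩ := MulAction.surjective g y
  obtain ⟨z, rfl⟩ := MulAction.surjective g z
  simp only [Set.mem_ofPred_eq, smul_mem_SD, dot_smul] at hy hd hz
  obtain ⟨h, e1, e2, rfl⟩ := sameHS hy hz.1 (hd.trans hz.2.symm)
  exact ⟨g * h * g⁻¹, ⟨conj_smul' e1, conj_smul' e2⟩, conj_smul' rfl⟩

end Cfsg.Agent.H5.Lee
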