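import Cfsg.Agent.H5.OnxS

/-! The triple cover of the O'Nan group as a subgroup of `SL(45, 7)`. -/

set_option autoImplicit false
set_option maxRecDepth 100000

namespace Cfsg.Agent.H5.On

open Mdl

section

variable {G : Type*} [Group G] [Finite G] {φ : G →* Matrix (Fin 45) (Fin 45) (ZMod 7)}
  {inj : Function.Injective φ}

theorem simple_j (h0 : ∀ s < 2, (c45md φ inj).In ⊤ (jg0 s)) (ht : (c45md φ inj).gn jg0 2 = ⊤) :
    IsSimpleGroup G ∧ Nat.card G = 175560 := by
  have hc : Nat.card G = 175560 := by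
    rw [← Subgroup.card_top, ← ht]; exact (jex0 h0).2.2.1
  have hK := (jex0 h0).2.2.2
  refine ⟨simple_of_prim _ 5 (by rw [hK]; norm_num) (fun h => ?_) (jmax h0 ht) (jcore2 h0)
    fun N _ hN => ?_, hc⟩
  · rw [h, Subgroup.card_top, hc] at hK; norm_num at hK
  · rw [eq_top_iff, ← ht]
    exact gn_le (in_of_chkP hN ((jel0 h0).mono le_top) jP)

theorem simple_m (h0 : ∀ s < 2, (c45md φ inj).In ⊤ (mg0 s)) (ht : (c45md φ inj).gn mg0 2 = ⊤) :
    IsSimpleGroup G ∧ Nat.card G = 7920 := by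
  have hc : Nat.card G = 7920 := by
    rw [← Subgroup.card_top, ← ht]; exact (mex0 h0).2.2.1
  have hK := (mex0 h0).2.2.2
  refine ⟨simple_of_prim _ 5 (by rw [hK]; norm_num) (fun h => ?_) (mmax h0 ht) (mcore2 h0)
    fun N _ hN => ?_, hc⟩
  · rw [h, Subgroup.card_top, hc] at hK; norm_num at hK
  · rw [eq_top_iff, ← ht]
    exact gn_le (in_of_chkP hN ((mel0 h0).mono le_top) mP)

theorem sub_j (h0 : ∀ s < 2, (c45md φ inj).In ⊤ (jg0 s)) :
    IsSimpleGroup ((c45md φ inj).gn jg0 2) ∧ Nat.card ((c45md φ inj).gn jg0 2) = 175560 :=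
  let m' := c45md (G := (c45md φ inj).gn jg0 2) (φ.comp (Subgroup.subtype _))
    (inj.comp Subtype.val_injective)
  simple_j (fun s hs => (in_gn h0 s hs).sub m' (fun _ => rfl) rfl) (gn_sub_top m' (fun _ => rfl) rfl)

theorem sub_m (h0 : ∀ s < 2, (c45md φ inj).In ⊤ (mg0 s)) :
    IsSimpleGroup ((c45md φ inj).gn mg0 2) ∧ Nat.card ((c45md φ inj).gn mg0 2) = 7920 :=
  let m' := c45md (G := (c45md φ inj).gn mg0 2) (φ.comp (Subgroup.subtype _))
    (inj.comp Subtype.val_injective)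
  simple_m (fun s hs => (in_gn h0 s hs).sub m' (fun _ => rfl) rfl) (gn_sub_top m' (fun _ => rfl) rfl)

variable (h : ∀ s < 3, (c45md φ inj).In ⊤ (dg s)) (ht : (c45md φ inj).gn dg 3 = ⊤)
include h

theorem hb : ∀ s < 2, (c45md φ inj).In ⊤ (bg0 s) := top_cons h

theorem el : (c45md φ inj).El ⊤ de := (del (hb h) (h 0 (by decide))).mono le_top

theorem card_H : Nat.card ((c45md φ inj).gn bg0 2) = 11261376 := (aex0 (hb h)).2.2.1

include ht

theorem gen (N : Subgroup G) (hN : ∀ x : G, x ^ 5 = 1 → x ∈ N) : N = ⊤ := by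
  rw [eq_top_iff, ← ht]
  exact gn_le (in_of_chkP hN (el h) dP)

theorem card_G : Nat.card G = 1382446517760 := by
  have h1 : Nat.card G ≤ 1382446517760 := by
    rw [← Subgroup.card_top, ← ht]; exact dub (hb h) (h 0 (by decide))
  have a1 := (s2dv0 (in_of_chkE (el h) s2E)).trans (Subgroup.card_subgroup_dvd_card _)
  have a2 := (s3dv0 (in_of_chkE (el h) s3E)).trans (Subgroup.card_subgroup_dvd_card _)
  have a3 := (e31dv0 (in_of_chkE (el h) e31E)).trans (Subgroup.card_subgroup_dvd_card _)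
  have a4 := (show 1045 ∣ 175560 by norm_num).trans
    ((sub_j (in_of_chkE (el h) jE)).2 ▸ Subgroup.card_subgroup_dvd_card _)
  have a5 := (show 343 ∣ 11261376 by norm_num).trans (card_H h ▸ Subgroup.card_subgroup_dvd_card _)
  exact le_antisymm h1 (Nat.le_of_dvd Nat.card_pos
    (Nat.Coprime.mul_dvd_of_dvd_of_dvd (by norm_num) (Nat.Coprime.mul_dvd_of_dvd_of_dvd (by norm_num)
      (Nat.Coprime.mul_dvd_of_dvd_of_dvd (by norm_num)
        (Nat.Coprime.mul_dvd_of_dvd_of_dvd (by norm_num) a1 a2) a3) a4) a5))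

theorem simple : Subgroup.center G = (c45md φ inj).gn ag2 2 ∧
    IsSimpleGroup (G ⧸ Subgroup.center G) := by
  have h0 := hb h
  have h1 := h 0 (by decide)
  refine simple_of_dichotomy _ (gn_le fun s hs => ?_)
    (normal_dichotomy _ _ 5 (by rw [card_H h]; norm_num) (fun M hM => ?_) (fun N hN hle => ?_)
      fun N _ hN => by rw [gen h ht N hN, top_sup_eq])
    ⟨(c45md φ inj).elt (bg0 0), (c45md φ inj).elt (bg0 1), fun e =>
      ne_of_canon (m := c45md φ inj) (@Cfg.Ok.canon _ _ c45 c45_ok _ _ (ZMod.charP 7) _ rfl rfl φ inj) nc ?_⟩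
  · interval_cases s
    exacts [mem_center_of_chkZ (atop2 h0 _ hs) dZ0 ht, mem_center_of_chkZ (atop2 h0 _ hs) dZ1 ht]
  · rw [← ht]; exact dmax h0 h1 M hM (ht ▸ le_top)
  · refine acore2 h0 N hN ((normal_le_Lc hN hle _).trans
      (Subgroup.eq_of_le_of_card_ge (dLL1 h0 h1) ?_).ge)
    rw [(aex0 h0).2.2.2]
    exact (dex h0 h1 (card_H h) (by rw [ht, Subgroup.card_top, card_G h ht]) 1 (by decide)).le
  · rw [← (h0 0 (by decide)).elt, ← (h0 1 (by decide)).elt, ← map_mul, e, map_mul]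

theorem card_Z : Nat.card (Subgroup.center G) = 3 := (simple h ht).1 ▸ (aex1 (hb h)).2.2.2

theorem card_Q : Nat.card (G ⧸ Subgroup.center G) = 460815505920 := by
  have := (Subgroup.center G).card_eq_card_quotient_mul_card_subgroup
  rw [card_G h ht, card_Z h ht] at this
  omega

theorem subs : (∃ K : Subgroup (G ⧸ Subgroup.center G), Nat.card K = 3753792) ∧
    (∃ K : Subgroup (G ⧸ Subgroup.center G), IsSimpleGroup K ∧ Nat.card K = 175560) ∧
    ∃ K : Subgroup (G ⧸ Subgroup.center G), IsSimpleGroup K ∧ Nat.card K = 7920 := by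
  refine ⟨⟨((c45md φ inj).gn bg0 2).map (QuotientGroup.mk' _), ?_⟩, ?_, ?_⟩
  · have := card_map_quot (Z := Subgroup.center G) (K := (c45md φ inj).gn bg0 2)
      ((simple h ht).1.le.trans ((ale1 (hb h)).trans (ale0 (hb h))))
    rw [card_H h, card_Z h ht] at this
    omega
  · obtain ⟨a, b⟩ := sub_j (in_of_chkE (el h) jE)
    obtain ⟨K, ⟨e⟩⟩ := exists_sub_quot (Subgroup.center G) _ a (by rw [b, card_Z h ht]; norm_num)
    exact ⟨K, e.symm.isSimpleGroup, (Nat.card_congr e.toEquiv).symm.trans b⟩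
  · obtain ⟨a, b⟩ := sub_m (in_of_chkE (el h) mE)
    obtain ⟨K, ⟨e⟩⟩ := exists_sub_quot (Subgroup.center G) _ a (by rw [b, card_Z h ht]; norm_num)
    exact ⟨K, e.symm.isSimpleGroup, (Nat.card_congr e.toEquiv).symm.trans b⟩

end

noncomputable abbrev m0 := c45md (G := GL (Fin 45) (ZMod 7)) (Units.coeHom _) Units.val_injective

theorem h00 : ∀ s < 3, m0.In ⊤ (dg s) := in_of_chkI m0 (fun _ => rfl) dI

noncomputable abbrev m1 := c45md (G := m0.gn dg 3) ((Units.coeHom _).comp (Subgroup.subtype _))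
    (Units.val_injective.comp Subtype.val_injective)

theorem h10 : ∀ s < 3, m1.In ⊤ (dg s) := fun s hs => (in_gn h00 s hs).sub m1 (fun _ => rfl) rfl

theorem det_one (g : m0.gn dg 3) : Matrix.GeneralLinearGroup.det g.1 = 1 := by
  have := gen h10 (gn_sub_top m1 (fun _ => rfl) rfl)
    (Matrix.GeneralLinearGroup.det.comp (Subgroup.subtype _)).ker fun x hx => by
      have : Fact (Nat.Prime 7) := ⟨by norm_num⟩
      have h1 := congrArg (Matrix.GeneralLinearGroup.det.comp (Subgroup.subtype _)) hx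
      have h2 := ZMod.units_pow_card_sub_one_eq_one 7
        (Matrix.GeneralLinearGroup.det.comp (Subgroup.subtype _) x)
      rw [map_pow, map_one] at h1
      rwa [show 7 - 1 = 5 + 1 from rfl, pow_succ, h1, one_mul] at h2
  exact (this ▸ Subgroup.mem_top g : g ∈ (Matrix.GeneralLinearGroup.det.comp (Subgroup.subtype _)).ker)

noncomputable abbrev m2 := c45md (G := Matrix.SpecialLinearGroup (Fin 45) (ZMod 7))
  Matrix.SpecialLinearGroup.coeMonoidHom Subtype.val_injective

theorem ex_SL {n R : Type*} [Fintype n] [DecidableEq n] [CommRing R] (g : GL n R)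
    (h : Matrix.GeneralLinearGroup.det g = 1) : ∃ x : Matrix.SpecialLinearGroup n R,
      Matrix.SpecialLinearGroup.coeMonoidHom x = Units.coeHom _ g :=
  ⟨⟨g.1, congrArg Units.val h⟩, rfl⟩

theorem h20 : ∀ s < 3, m2.In ⊤ (dg s) := fun s hs => by
  obtain ⟨g, -, e⟩ := h10 s hs
  obtain ⟨x, hx⟩ := ex_SL _ (det_one g)
  exact ⟨x, Subgroup.mem_top _, hx.trans e⟩

/-- the group -/
noncomputable abbrev G0 := m2.gn dg 3

instance : Finite G0 := Finite.of_injective (fun g => g.1.1) fun _ _ e => Subtype.ext (Subtype.ext e)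

noncomputable abbrev m3 := c45md (G := G0)
  (Matrix.SpecialLinearGroup.coeMonoidHom.comp (Subgroup.subtype _))
  (Subtype.val_injective.comp Subtype.val_injective)

theorem h30 : ∀ s < 3, m3.In ⊤ (dg s) := fun s hs => (in_gn h20 s hs).sub m3 (fun _ => rfl) rfl

theorem ht3 : m3.gn dg 3 = ⊤ := gn_sub_top m3 (fun _ => rfl) rfl

end Cfsg.Agent.H5.On
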