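import Mathlib

set_option autoImplicit false

open Matrix Complex
open scoped Real

namespace Cfsg.Agent.H5.Theta

/-- real positive definite symmetric matrices -/
def PD {n : ℕ} (A : Matrix (Fin n) (Fin n) ℝ) : Prop :=
  A.IsSymm ∧ ∀ x : Fin n → ℝ, x ≠ 0 → 0 < x ⬝ᵥ A *ᵥ x

theorem sum1 (a b : ℝ) (ha : 0 < a) : Summable fun n : ℤ => Real.exp (-a * n ^ 2 + b * n) := by
  have h := (summable_jacobiTheta₂_term_iff (-(b / (2 * π) : ℝ) * I) ((a / π : ℝ) * I)).2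
    (by simp; positivity)
  have h2 := h.norm
  refine h2.congr fun n => ?_
  rw [norm_jacobiTheta₂_term]
  congr 1
  simp only [neg_mul, mul_im, ofReal_re, ofReal_im, I_re, I_im, neg_im, mul_one, mul_zero, add_zero]
  field_simp
  ring

theorem sumPi : ∀ (n : ℕ) (f : Fin n → ℤ → ℝ) (hf : ∀ i, Summable (f i)) (h0 : ∀ i x, 0 ≤ f i x),
    Summable fun x : Fin n → ℤ => ∏ i, f i (x i)
  | 0, f, hf, h0 => Summable.of_finite
  | n + 1, f, hf, h0 => by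
    have ih := sumPi n (fun i => f i.succ) (fun i => hf _) (fun i x => h0 _ _)
    have := (hf 0).mul_of_nonneg ih (fun x => h0 _ _) (fun x => Finset.prod_nonneg fun i _ => h0 _ _)
    rw [← (Fin.consEquiv fun _ : Fin (n + 1) => ℤ).summable_iff]
    refine this.congr fun x => ?_
    simp [Fin.prod_univ_succ, Fin.consEquiv]

theorem PD.bound {n : ℕ} {A : Matrix (Fin n) (Fin n) ℝ} (h : PD A) :
    ∃ ε : ℝ, 0 < ε ∧ ∀ x : Fin n → ℝ, ε * ∑ i, x i ^ 2 ≤ x ⬝ᵥ A *ᵥ x := by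
  obtain ⟨m, hm, hm2⟩ := (isCompact_sphere (0 : Fin n → ℝ) 1).exists_forall_le'
    (f := fun x => x ⬝ᵥ A *ᵥ x) (a := 0) (by fun_prop) (fun x hx => h.2 x (by
      rintro rfl; simp at hx))
  refine ⟨m / (n + 1), by positivity, fun x => ?_⟩
  by_cases hx : x = 0
  · subst hx; simp
  have hn : 0 < ‖x‖ := norm_pos_iff.2 hx
  have h1 := hm2 (‖x‖⁻¹ • x) (by simp [norm_smul, hn.ne'])
  simp only [mulVec_smul, smul_dotProduct, dotProduct_smul, smul_eq_mul] at h1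
  have h2 : ∑ i, x i ^ 2 ≤ (n + 1) * ‖x‖ ^ 2 := by
    calc ∑ i, x i ^ 2 ≤ ∑ i : Fin n, ‖x‖ ^ 2 := Finset.sum_le_sum fun i _ => by
          have := norm_le_pi_norm x i
          rw [← sq_abs]; rw [Real.norm_eq_abs] at this
          gcongr
      _ = n * ‖x‖ ^ 2 := by simp
      _ ≤ (n + 1) * ‖x‖ ^ 2 := by nlinarith
  have h3 : m * ‖x‖ ^ 2 ≤ x ⬝ᵥ A *ᵥ x := by
    have : m * ‖x‖ ^ 2 ≤ ‖x‖⁻¹ * (‖x‖⁻¹ * (x ⬝ᵥ A *ᵥ x)) * ‖x‖ ^ 2 := by gcongr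
    refine this.trans_eq ?_
    field_simp
  calc m / (n + 1) * ∑ i, x i ^ 2 ≤ m / (n + 1) * ((n + 1) * ‖x‖ ^ 2) := by gcongr
    _ = m * ‖x‖ ^ 2 := by field_simp
    _ ≤ _ := h3

/-- complexified matrix -/
noncomputable def mc {n : ℕ} (A : Matrix (Fin n) (Fin n) ℝ) : Matrix (Fin n) (Fin n) ℂ :=
  A.map (algebraMap ℝ ℂ)

/-- integer vector as complex vector -/
def ci {n : ℕ} (x : Fin n → ℤ) : Fin n → ℂ := fun i => x i

/-- integer vector as real vector -/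
def ri {n : ℕ} (x : Fin n → ℤ) : Fin n → ℝ := fun i => x i

theorem q_ci {n : ℕ} (A : Matrix (Fin n) (Fin n) ℝ) (x : Fin n → ℤ) :
    ci x ⬝ᵥ mc A *ᵥ ci x = ((ri x ⬝ᵥ A *ᵥ ri x : ℝ) : ℂ) := by
  simp [ci, ri, mc, dotProduct, mulVec]

theorem PD.summable {n : ℕ} {A : Matrix (Fin n) (Fin n) ℝ} (h : PD A) {a : ℂ} (ha : 0 < a.re)
    (b : Fin n → ℂ) :
    Summable fun x : Fin n → ℤ => ‖cexp (-a * (ci x ⬝ᵥ mc A *ᵥ ci x) + b ⬝ᵥ ci x)‖ := by
  obtain ⟨ε, hε, hb⟩ := h.bound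
  have := sumPi n (fun i t => Real.exp (-(a.re * ε) * t ^ 2 + (b i).re * t))
    (fun i => sum1 _ _ (by positivity)) (fun i x => (Real.exp_pos _).le)
  refine this.of_nonneg_of_le (fun _ => norm_nonneg _) fun x => ?_
  rw [Complex.norm_exp, ← Real.exp_sum, q_ci]
  apply Real.exp_le_exp.2
  have h1 := hb (ri x)
  have h2 : (b ⬝ᵥ ci x).re = ∑ i, (b i).re * x i := by
    simp [dotProduct, ci]
  rw [add_re, h2, Finset.sum_add_distrib, ← Finset.mul_sum]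
  have h3 : (-a * ((ri x ⬝ᵥ A *ᵥ ri x : ℝ) : ℂ)).re = -(a.re * (ri x ⬝ᵥ A *ᵥ ri x)) := by
    rw [re_mul_ofReal]; simp
  rw [h3]
  have : a.re * (ε * ∑ i, ri x i ^ 2) ≤ a.re * (ri x ⬝ᵥ A *ᵥ ri x) := by gcongr
  simp only [ri] at this ⊢
  nlinarith

theorem PD.det_ne {n : ℕ} {A : Matrix (Fin n) (Fin n) ℝ} (h : PD A) : A.det ≠ 0 := by
  intro h0
  obtain ⟨v, hv, hv2⟩ := Matrix.exists_mulVec_eq_zero_iff.2 h0
  have := h.2 v hv
  rw [hv2] at this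
  simp at this

theorem symm_dot {K : Type*} [CommRing K] {n : ℕ} {A : Matrix (Fin n) (Fin n) K} (h : A.IsSymm)
    (x y : Fin n → K) : x ⬝ᵥ A *ᵥ y = y ⬝ᵥ A *ᵥ x := by
  rw [dotProduct_mulVec, dotProduct_comm, ← mulVec_transpose, h.eq]

theorem PD.inv {n : ℕ} {A : Matrix (Fin n) (Fin n) ℝ} (h : PD A) : PD A⁻¹ := by
  have hu : IsUnit A.det := h.det_ne.isUnit
  refine ⟨?_, fun w hw => ?_⟩
  · rw [IsSymm, transpose_nonsing_inv, h.1.eq]
  · have h1 : A *ᵥ (A⁻¹ *ᵥ w) = w := by rw [mulVec_mulVec, mul_nonsing_inv _ hu, one_mulVec]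
    have h2 : A⁻¹ *ᵥ w ≠ 0 := by
      intro h0; rw [h0, mulVec_zero] at h1; exact hw h1.symm
    have := h.2 _ h2
    rw [h1, dotProduct_comm] at this
    exact this

theorem q_cons {K : Type*} [CommRing K] {n : ℕ} {A : Matrix (Fin (n + 1)) (Fin (n + 1)) K}
    (h : A.IsSymm) (x0 : K) (x : Fin n → K) :
    (Fin.cons x0 x : Fin (n + 1) → K) ⬝ᵥ A *ᵥ (Fin.cons x0 x : Fin (n + 1) → K) =
      A 0 0 * x0 ^ 2 + 2 * x0 * ((fun j => A 0 j.succ) ⬝ᵥ x) +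
        x ⬝ᵥ (A.submatrix Fin.succ Fin.succ) *ᵥ x := by
  have : ∀ j : Fin n, A j.succ 0 = A 0 j.succ := fun j => h.apply _ _
  simp only [dotProduct, mulVec, Fin.sum_univ_succ, Fin.cons_zero, Fin.cons_succ, submatrix_apply,
    mul_add, Finset.sum_add_distrib, this, Finset.mul_sum]
  have : ∑ i, x i * (A 0 i.succ * x0) = ∑ i, x0 * (A 0 i.succ * x i) :=
    Finset.sum_congr rfl fun i _ => by ring
  rw [this]
  have : ∑ i, 2 * x0 * (A 0 i.succ * x i) = 2 * ∑ i, x0 * (A 0 i.succ * x i) := by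
    rw [Finset.mul_sum]; exact Finset.sum_congr rfl fun i _ => by ring
  rw [this]
  ring

theorem PD.sub {n : ℕ} {A : Matrix (Fin (n + 1)) (Fin (n + 1)) ℝ} (h : PD A) :
    PD (A.submatrix Fin.succ Fin.succ) := by
  refine ⟨h.1.submatrix _, fun x hx => ?_⟩
  have := h.2 (Fin.cons 0 x) (by
    intro h0; apply hx; funext i; simpa using congrFun h0 i.succ)
  rw [q_cons h.1] at this
  simpa using this

theorem PD.schur {n : ℕ} {A : Matrix (Fin (n + 1)) (Fin (n + 1)) ℝ} (h : PD A) :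
    0 < A 0 0 - (fun j => A 0 j.succ) ⬝ᵥ (A.submatrix Fin.succ Fin.succ)⁻¹ *ᵥ
      (fun j => A 0 j.succ) := by
  set u : Fin n → ℝ := fun j => A 0 j.succ
  set A' := A.submatrix Fin.succ Fin.succ
  have hu : IsUnit A'.det := h.sub.det_ne.isUnit
  have := h.2 (Fin.cons 1 (-(A'⁻¹ *ᵥ u))) (by
    intro h0; simpa using congrFun h0 0)
  rw [q_cons h.1] at this
  have h1 : A' *ᵥ (A'⁻¹ *ᵥ u) = u := by rw [mulVec_mulVec, mul_nonsing_inv _ hu, one_mulVec]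
  change 0 < A 0 0 * 1 ^ 2 + 2 * 1 * (u ⬝ᵥ -(A'⁻¹ *ᵥ u)) + -(A'⁻¹ *ᵥ u) ⬝ᵥ A' *ᵥ -(A'⁻¹ *ᵥ u) at this
  rw [mulVec_neg, h1, neg_dotProduct, dotProduct_neg, dotProduct_neg,
    dotProduct_comm (A'⁻¹ *ᵥ u) u] at this
  linarith

theorem schur_id {K : Type*} [Field K] {n : ℕ} {A C : Matrix (Fin (n + 1)) (Fin (n + 1)) K}
    {C' : Matrix (Fin n) (Fin n) K} (h : A.IsSymm) (hC : A * C = 1)
    (hC' : C' * A.submatrix Fin.succ Fin.succ = 1) (s : K)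
    (hs : s = A 0 0 - (fun j => A 0 j.succ) ⬝ᵥ C' *ᵥ (fun j => A 0 j.succ)) (hs0 : s ≠ 0)
    (w0 : K) (w : Fin n → K) :
    (Fin.cons w0 w : Fin (n + 1) → K) ⬝ᵥ C *ᵥ (Fin.cons w0 w : Fin (n + 1) → K) =
      (w0 - (fun j => A 0 j.succ) ⬝ᵥ C' *ᵥ w) ^ 2 / s + w ⬝ᵥ C' *ᵥ w := by
  set u : Fin n → K := fun j => A 0 j.succ
  set A' := A.submatrix Fin.succ Fin.succ
  have hsy : ∀ j : Fin n, A j.succ 0 = A 0 j.succ := fun j => h.apply _ _
  obtain ⟨z, hz⟩ : ∃ z, z = C *ᵥ (Fin.cons w0 w : Fin (n + 1) → K) := ⟨_, rfl⟩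
  have h1 : A *ᵥ z = Fin.cons w0 w := by rw [hz, mulVec_mulVec, hC, one_mulVec]
  rw [← hz]
  obtain ⟨z0, z', rfl⟩ : ∃ z0 z', z = Fin.cons z0 z' := ⟨z 0, Fin.tail z, (Fin.cons_self_tail z).symm⟩
  have e0 : w0 = A 0 0 * z0 + u ⬝ᵥ z' := by
    have := congrFun h1 0
    simp only [mulVec, dotProduct, Fin.sum_univ_succ, Fin.cons_zero, Fin.cons_succ] at this
    rw [← this]; rfl
  have e1 : w = z0 • u + A' *ᵥ z' := by
    funext i
    have := congrFun h1 i.succ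
    simp only [mulVec, dotProduct, Fin.sum_univ_succ, Fin.cons_zero, Fin.cons_succ, hsy] at this
    rw [← this]; simp [u, A', mulVec, dotProduct, mul_comm]
  have e2 : C' *ᵥ w = z0 • C' *ᵥ u + z' := by
    rw [e1, mulVec_add, mulVec_smul, mulVec_mulVec, hC', one_mulVec]
  have hA' : A'.IsSymm := h.submatrix _
  have hAC : A' * C' = 1 := mul_eq_one_comm.1 hC'
  have e3 : (A' *ᵥ z') ⬝ᵥ C' *ᵥ u = u ⬝ᵥ z' := by
    rw [dotProduct_comm, symm_dot hA', mulVec_mulVec, hAC, one_mulVec, dotProduct_comm]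
  have e4 : (Fin.cons w0 w : Fin (n + 1) → K) ⬝ᵥ (Fin.cons z0 z' : Fin (n + 1) → K) =
      w0 * z0 + w ⬝ᵥ z' := by simp [dotProduct, Fin.sum_univ_succ]
  rw [e4, e2]
  have e5 : w ⬝ᵥ C' *ᵥ u = z0 * (u ⬝ᵥ C' *ᵥ u) + u ⬝ᵥ z' := by
    rw [e1, add_dotProduct, smul_dotProduct, e3, smul_eq_mul]
  rw [dotProduct_add, dotProduct_add, dotProduct_smul, dotProduct_smul, e5, smul_eq_mul,
    smul_eq_mul, e0]
  have : A 0 0 = s + u ⬝ᵥ C' *ᵥ u := by rw [hs]; ring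
  rw [this]
  field_simp
  ring

theorem mc_symm {n : ℕ} {A : Matrix (Fin n) (Fin n) ℝ} (h : A.IsSymm) : (mc A).IsSymm := h.map _

theorem mc_mul {n : ℕ} (A C : Matrix (Fin n) (Fin n) ℝ) : mc (A * C) = mc A * mc C :=
  Matrix.map_mul

theorem mc_one {n : ℕ} : mc (1 : Matrix (Fin n) (Fin n) ℝ) = 1 :=
  Matrix.map_one _ (map_zero _) (map_one _)

theorem q_expand {n : ℕ} {C : Matrix (Fin n) (Fin n) ℂ} (h : C.IsSymm) (v w : Fin n → ℂ) :
    (v + w) ⬝ᵥ C *ᵥ (v + w) = v ⬝ᵥ C *ᵥ v + 2 * (w ⬝ᵥ C *ᵥ v) + w ⬝ᵥ C *ᵥ w := by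
  rw [mulVec_add, add_dotProduct, dotProduct_add, dotProduct_add, symm_dot h v w]; ring

theorem PD.summable' {n : ℕ} {A : Matrix (Fin n) (Fin n) ℝ} (h : PD A) {a : ℂ} (ha : 0 < a.re)
    (w : Fin n → ℂ) :
    Summable fun x : Fin n → ℤ => ‖cexp (-a * ((ci x + w) ⬝ᵥ mc A *ᵥ (ci x + w)))‖ := by
  have := (h.summable ha ((-2 * a) • (w ᵥ* mc A))).mul_right ‖cexp (-a * (w ⬝ᵥ mc A *ᵥ w))‖
  refine this.congr fun x => ?_
  rw [← norm_mul, ← Complex.exp_add, q_expand (mc_symm h.1), smul_dotProduct, ← dotProduct_mulVec,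
    smul_eq_mul]
  congr 2; ring

theorem re_pi_div {a : ℂ} (ha : 0 < a.re) : 0 < ((π : ℂ) / a).re := by
  rw [div_eq_mul_inv, re_ofReal_mul, inv_re]
  refine mul_pos Real.pi_pos (div_pos ha <| normSq_pos.mpr ?_)
  rintro rfl; simp at ha

theorem ci_cons {n : ℕ} (x0 : ℤ) (x : Fin n → ℤ) :
    ci (Fin.cons x0 x : Fin (n + 1) → ℤ) = Fin.cons (x0 : ℂ) (ci x) := by
  funext i; refine Fin.cases ?_ (fun j => ?_) i <;> simp [ci]

theorem tsum_cons {n : ℕ} (f : (Fin (n + 1) → ℤ) → ℂ) (hf : Summable f) :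
    ∑' x, f x = ∑' x0 : ℤ, ∑' x : Fin n → ℤ, f (Fin.cons x0 x) := by
  rw [← (Fin.consEquiv fun _ : Fin (n + 1) => ℤ).tsum_eq]
  rw [← (Fin.consEquiv fun _ : Fin (n + 1) => ℤ).summable_iff] at hf
  exact hf.tsum_prod

theorem tsum_cons' {n : ℕ} (f : (Fin (n + 1) → ℤ) → ℂ) (hf : Summable f) :
    ∑' x, f x = ∑' x : Fin n → ℤ, ∑' x0 : ℤ, f (Fin.cons x0 x) := by
  rw [tsum_cons f hf]
  rw [← (Fin.consEquiv fun _ : Fin (n + 1) => ℤ).summable_iff] at hf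
  exact (Summable.tsum_comm (f := fun (x0 : ℤ) (x : Fin n → ℤ) => f (Fin.cons x0 x)) hf).symm

theorem poisson : ∀ (n : ℕ) (A : Matrix (Fin n) (Fin n) ℝ), PD A → ∃ κ : ℂ, ∀ a : ℂ, 0 < a.re →
    ∀ b : Fin n → ℂ, ∑' x : Fin n → ℤ, cexp (-(π * a) * (ci x ⬝ᵥ mc A *ᵥ ci x) + 2 * π * (b ⬝ᵥ ci x))
      = κ * (1 / a ^ (1 / 2 : ℂ)) ^ n *
        ∑' y : Fin n → ℤ, cexp (-(π / a) * ((ci y + I • b) ⬝ᵥ mc A⁻¹ *ᵥ (ci y + I • b)))
  | 0, A, h => ⟨1, fun a ha b => by simp [dotProduct]⟩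
  | n + 1, A, h => by
    obtain ⟨κ, hκ⟩ := poisson n _ h.sub
    obtain ⟨s, hs⟩ : ∃ s, s = A 0 0 - (fun j => A 0 j.succ) ⬝ᵥ
      (A.submatrix Fin.succ Fin.succ)⁻¹ *ᵥ (fun j => A 0 j.succ) := ⟨_, rfl⟩
    have hs0 : 0 < s := hs ▸ h.schur
    refine ⟨κ * (1 / (s : ℂ) ^ (1 / 2 : ℂ)), fun a ha b => ?_⟩
    have ha0 : a ≠ 0 := by rintro rfl; simp at ha
    have hpa : 0 < ((π : ℂ) * a).re := by rw [re_ofReal_mul]; exact mul_pos Real.pi_pos ha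
    obtain ⟨b0, b', rfl⟩ : ∃ b0 b', b = Fin.cons b0 b' :=
      ⟨b 0, Fin.tail b, (Fin.cons_self_tail b).symm⟩
    set A' := A.submatrix Fin.succ Fin.succ with hA'
    obtain ⟨u, hu⟩ : ∃ u : Fin n → ℂ, u = fun j => mc A 0 j.succ := ⟨_, rfl⟩
    obtain ⟨C', hC'⟩ : ∃ C', C' = mc A'⁻¹ := ⟨_, rfl⟩
    have hC's : C'.IsSymm := hC' ▸ mc_symm h.sub.inv.1
    have hsc : (s : ℂ) = mc A 0 0 - u ⬝ᵥ C' *ᵥ u := by
      rw [hs, hu, hC']; simp [mc, dotProduct, mulVec]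
    have hL : Summable fun x : Fin (n + 1) → ℤ => cexp (-(π * a) * (ci x ⬝ᵥ mc A *ᵥ ci x) +
        2 * π * ((Fin.cons b0 b' : Fin (n + 1) → ℂ) ⬝ᵥ ci x)) := by
      have := (h.summable hpa ((2 * π : ℂ) • (Fin.cons b0 b' : Fin (n + 1) → ℂ))).of_norm
      simpa only [smul_dotProduct, smul_eq_mul] using this
    have hR := (h.inv.summable' (re_pi_div ha) (I • (Fin.cons b0 b' : Fin (n + 1) → ℂ))).of_norm
    rw [tsum_cons _ hL, tsum_cons' _ hR]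
    -- the intermediate double family
    let F : ℤ → (Fin n → ℤ) → ℂ := fun x0 y =>
      cexp (-π * (a * s) * x0 ^ 2 + 2 * π * (b0 + I * (u ⬝ᵥ C' *ᵥ (ci y + I • b'))) * x0) *
        cexp (-(π / a) * ((ci y + I • b') ⬝ᵥ C' *ᵥ (ci y + I • b')))
    have e1 : ∀ x0 : ℤ, ∑' x : Fin n → ℤ, cexp (-(π * a) *
        (ci (Fin.cons x0 x : Fin (n + 1) → ℤ) ⬝ᵥ mc A *ᵥ ci (Fin.cons x0 x : Fin (n + 1) → ℤ)) +
        2 * π * ((Fin.cons b0 b' : Fin (n + 1) → ℂ) ⬝ᵥ ci (Fin.cons x0 x : Fin (n + 1) → ℤ))) =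
        κ * (1 / a ^ (1 / 2 : ℂ)) ^ n * ∑' y, F x0 y := by
      intro x0
      have := hκ a ha (b' - (a * x0) • u)
      rw [← hC'] at this
      have e : ∀ x : Fin n → ℤ, cexp (-(π * a) *
        (ci (Fin.cons x0 x : Fin (n + 1) → ℤ) ⬝ᵥ mc A *ᵥ ci (Fin.cons x0 x : Fin (n + 1) → ℤ)) +
        2 * π * ((Fin.cons b0 b' : Fin (n + 1) → ℂ) ⬝ᵥ ci (Fin.cons x0 x : Fin (n + 1) → ℤ))) =
          cexp (-(π * a) * mc A 0 0 * x0 ^ 2 + 2 * π * b0 * x0) *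
          cexp (-(π * a) * (ci x ⬝ᵥ mc A' *ᵥ ci x) + 2 * π * ((b' - (a * x0) • u) ⬝ᵥ ci x)) := by
        intro x
        rw [← Complex.exp_add, ci_cons, q_cons (mc_symm h.1), ← hu, sub_dotProduct, smul_dotProduct]
        have e4 : (Fin.cons b0 b' : Fin (n + 1) → ℂ) ⬝ᵥ (Fin.cons (x0 : ℂ) (ci x) : Fin (n + 1) → ℂ) =
          b0 * x0 + b' ⬝ᵥ ci x := by simp [dotProduct, Fin.sum_univ_succ]
        have e5 : (mc A).submatrix Fin.succ Fin.succ = mc A' := rfl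
        rw [e4, e5, smul_eq_mul]
        congr 1; ring
      simp_rw [e]
      rw [tsum_mul_left, this, mul_left_comm, ← tsum_mul_left]
      congr 1
      refine tsum_congr fun y => ?_
      simp only [F]
      rw [← Complex.exp_add, ← Complex.exp_add]
      congr 1
      have : ci y + I • (b' - (a * x0) • u) = (ci y + I • b') + (-(I * a * x0)) • u := by
        funext i; simp; ring
      rw [this, q_expand hC's, smul_dotProduct, smul_dotProduct, mulVec_smul, dotProduct_smul, hsc]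
      simp only [smul_eq_mul]
      field_simp
      ring_nf
      simp only [I_sq]
      ring
    have e2 : ∀ y : Fin n → ℤ, ∑' x0 : ℤ, F x0 y = 1 / (s : ℂ) ^ (1 / 2 : ℂ) * (1 / a ^ (1 / 2 : ℂ)) *
        ∑' y0 : ℤ, cexp (-(π / a) * ((ci (Fin.cons y0 y : Fin (n + 1) → ℤ) +
          I • (Fin.cons b0 b' : Fin (n + 1) → ℂ)) ⬝ᵥ mc A⁻¹ *ᵥ (ci (Fin.cons y0 y : Fin (n + 1) → ℤ) +
          I • (Fin.cons b0 b' : Fin (n + 1) → ℂ)))) := by
      intro y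
      have has : 0 < (a * s).re := by rw [re_mul_ofReal]; positivity
      simp only [F]
      rw [tsum_mul_right, Complex.tsum_exp_neg_quadratic has, mul_assoc, ← tsum_mul_right]
      congr 1
      · rw [mul_comm a, cpow_def_of_ne_zero (mul_ne_zero (by exact_mod_cast hs0.ne') ha0),
          cpow_def_of_ne_zero ha0, cpow_def_of_ne_zero (by exact_mod_cast hs0.ne'),
          Complex.log_ofReal_mul hs0 ha0, add_mul, Complex.exp_add, Complex.ofReal_log hs0.le]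
        field_simp
      refine tsum_congr fun y0 => ?_
      rw [← Complex.exp_add]
      congr 1
      have e3 : ci (Fin.cons y0 y : Fin (n + 1) → ℤ) + I • (Fin.cons b0 b' : Fin (n + 1) → ℂ) =
          Fin.cons (y0 + I * b0) (ci y + I • b') := by
        funext i; refine Fin.cases ?_ (fun j => ?_) i <;> simp [ci]
      have hAC : mc A * mc A⁻¹ = 1 := by
        rw [← mc_mul, mul_nonsing_inv _ h.det_ne.isUnit, mc_one]
      have hAC' : C' * (mc A).submatrix Fin.succ Fin.succ = 1 := by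
        have e5 : (mc A).submatrix Fin.succ Fin.succ = mc A' := rfl
        rw [e5, hC', ← mc_mul, nonsing_inv_mul _ h.sub.det_ne.isUnit, mc_one]
      have hs' : (s : ℂ) ≠ 0 := by exact_mod_cast hs0.ne'
      rw [e3, schur_id (mc_symm h.1) hAC hAC' s (by rw [hsc, hu]) hs', ← hu]
      field_simp
      ring_nf
      simp only [I_sq, I_pow_three, I_pow_four]
      ring
    have hF : Summable (Function.uncurry F) := by
      apply Summable.of_norm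
      have h1 := sum1 (π * (a.re * s)) (2 * π * (b0 + I * (u ⬝ᵥ C' *ᵥ (I • b'))).re) (by positivity)
      have h2 := h.sub.inv.summable' (re_pi_div ha) (I • b')
      rw [← hA', ← hC'] at h2
      refine (h1.mul_of_nonneg h2 (fun _ => (Real.exp_pos _).le) (fun _ => norm_nonneg _)).congr ?_
      rintro ⟨x0, y⟩
      simp only [Function.uncurry, F]
      rw [norm_mul, Complex.norm_exp (_ + _)]
      congr 2
      have : (u ⬝ᵥ C' *ᵥ ci y).im = 0 := by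
        rw [hu, hC']; simp [mc, ci, dotProduct, mulVec]
      rw [mulVec_add, dotProduct_add]
      generalize u ⬝ᵥ C' *ᵥ (I • b') = P at *
      generalize u ⬝ᵥ C' *ᵥ ci y = R at *
      simp [this, pow_two]
    simp_rw [e1]
    rw [tsum_mul_left, ← hF.tsum_comm]
    simp_rw [e2]
    rw [tsum_mul_left]
    ring

end Cfsg.Agent.H5.Theta
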