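import Cfsg.Agent.H5.Theta1

set_option autoImplicit false

open Matrix Complex ModularForm SlashInvariantForm MatrixGroups EisensteinSeries
open UpperHalfPlane hiding I
open scoped Real

namespace Cfsg.Agent.H5.Theta

/-- integer matrix as a real matrix -/
def mr {n : ℕ} (B : Matrix (Fin n) (Fin n) ℤ) : Matrix (Fin n) (Fin n) ℝ := B.map (Int.castRingHom ℝ)

theorem mr_q {n : ℕ} (B : Matrix (Fin n) (Fin n) ℤ) (x : Fin n → ℤ) :
    ri x ⬝ᵥ mr B *ᵥ ri x = ((x ⬝ᵥ B *ᵥ x : ℤ) : ℝ) := by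
  simp [ri, mr, dotProduct, mulVec]

theorem mr_pd {n : ℕ} {B : Matrix (Fin n) (Fin n) ℤ} (hsymm : B.IsSymm)
    (hpos : ∀ x : Fin n → ℤ, x ≠ 0 → 0 < x ⬝ᵥ (B *ᵥ x)) (hdet : B.det ≠ 0) : PD (mr B) := by
  have hs : (mr B).IsSymm := hsymm.map _
  have h0 : ∀ x : Fin n → ℤ, 0 ≤ x ⬝ᵥ (B *ᵥ x) := fun x => by
    by_cases hx : x = 0
    · subst hx; simp
    · exact (hpos x hx).le
  have h1 : ∀ q : Fin n → ℚ, 0 ≤ (fun i => (q i : ℝ)) ⬝ᵥ mr B *ᵥ (fun i => (q i : ℝ)) := by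
    intro q
    obtain ⟨N, hN⟩ : ∃ N : ℕ, N = ∏ i, (q i).den := ⟨_, rfl⟩
    have hN0 : 0 < N := hN ▸ Finset.prod_pos fun i _ => (q i).pos
    have : ∀ i, ∃ z : ℤ, (z : ℝ) = N * (q i : ℝ) := fun i => by
      obtain ⟨c, hc⟩ : (q i).den ∣ N := hN ▸ Finset.dvd_prod_of_mem _ (Finset.mem_univ i)
      refine ⟨c * (q i).num, ?_⟩
      rw [hc, Rat.cast_def]
      have : ((q i).den : ℝ) ≠ 0 := by exact_mod_cast (q i).den_nz
      push_cast
      field_simp
    choose z hz using this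
    have e : ri z = (N : ℝ) • fun i => (q i : ℝ) := funext fun i => hz i
    have h2 : (0 : ℝ) ≤ ri z ⬝ᵥ mr B *ᵥ ri z := by rw [mr_q]; exact_mod_cast h0 z
    rw [e, mulVec_smul, smul_dotProduct, dotProduct_smul, smul_eq_mul, smul_eq_mul] at h2
    have hN' : (0 : ℝ) < N := by exact_mod_cast hN0
    exact nonneg_of_mul_nonneg_right (nonneg_of_mul_nonneg_right h2 hN' |> fun h => by
      simpa [mul_comm] using h) hN'
  have h2 : ∀ x : Fin n → ℝ, 0 ≤ x ⬝ᵥ mr B *ᵥ x := by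
    intro x
    have hd : DenseRange (Pi.map fun (_ : Fin n) (q : ℚ) => (q : ℝ)) :=
      DenseRange.piMap fun _ => Rat.denseRange_cast
    refine hd.induction_on x (isClosed_le continuous_const (by fun_prop)) fun q => h1 q
  refine ⟨hs, fun x hx => (h2 x).lt_of_ne fun h3 => hx ?_⟩
  have hd : (mr B).det ≠ 0 := by
    rw [mr, ← RingHom.mapMatrix_apply, ← RingHom.map_det]; simpa using hdet
  have h4 : mr B *ᵥ x = 0 := by
    obtain ⟨y, hy⟩ : ∃ y, y = mr B *ᵥ x := ⟨_, rfl⟩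
    have h5 : ∀ t : ℝ, 0 ≤ (y ⬝ᵥ mr B *ᵥ y) * (t * t) + (2 * (y ⬝ᵥ y)) * t + 0 := fun t => by
      have := h2 (x + t • y)
      rw [mulVec_add, add_dotProduct, dotProduct_add, dotProduct_add, ← h3, mulVec_smul,
        dotProduct_smul, smul_dotProduct, smul_dotProduct, dotProduct_smul, symm_dot hs x y,
        ← hy] at this
      simp only [smul_eq_mul] at this
      linarith
    have h6 := discrim_le_zero h5
    rw [discrim] at h6
    have : y ⬝ᵥ y = 0 := by nlinarith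
    rw [← hy]; exact dotProduct_self_eq_zero.1 this
  by_contra hx0
  exact hd (Matrix.exists_mulVec_eq_zero_iff.1 ⟨x, hx0, h4⟩)

variable {B : Matrix (Fin 24) (Fin 24) ℤ}

/-- theta function in the variable `a` -/
noncomputable def th (B : Matrix (Fin 24) (Fin 24) ℤ) (a : ℂ) : ℂ :=
  ∑' x : Fin 24 → ℤ, cexp (-(π * a) * ((x ⬝ᵥ B *ᵥ x : ℤ) : ℂ))

theorem q_ci' (x : Fin 24 → ℤ) : ci x ⬝ᵥ mc (mr B) *ᵥ ci x = ((x ⬝ᵥ B *ᵥ x : ℤ) : ℂ) := by
  rw [q_ci, mr_q]; simp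

theorem th_summable (h : PD (mr B)) {a : ℂ} (ha : 0 < a.re) :
    Summable fun x : Fin 24 → ℤ => ‖cexp (-(π * a) * ((x ⬝ᵥ B *ᵥ x : ℤ) : ℂ))‖ := by
  have hpa : 0 < ((π : ℂ) * a).re := by rw [re_ofReal_mul]; exact mul_pos Real.pi_pos ha
  simpa only [q_ci', zero_dotProduct, add_zero] using h.summable hpa 0

theorem th_one_ne (h : PD (mr B)) : th B 1 ≠ 0 := by
  have hs := th_summable h (a := 1) (by simp)
  have e : ∀ x : Fin 24 → ℤ, cexp (-(π * (1 : ℂ)) * ((x ⬝ᵥ B *ᵥ x : ℤ) : ℂ)) =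
      ((‖cexp (-(π * (1 : ℂ)) * ((x ⬝ᵥ B *ᵥ x : ℤ) : ℂ))‖ : ℝ) : ℂ) := fun x => by
    rw [Complex.norm_exp, ofReal_exp]
    congr 1
    generalize x ⬝ᵥ B *ᵥ x = m
    simp
  rw [th, tsum_congr e, ← ofReal_tsum, ofReal_ne_zero]
  exact (hs.tsum_pos (fun _ => norm_nonneg _) 0 (norm_pos_iff.2 (Complex.exp_ne_zero _))).ne'

theorem th_inv (hsymm : B.IsSymm) (h : PD (mr B)) (hdet : B.det = 1) {a : ℂ} (ha : 0 < a.re) :
    th B a⁻¹ = a ^ 12 * th B a := by
  obtain ⟨κ, hκ⟩ := poisson 24 _ h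
  have hu : IsUnit B.det := hdet ▸ isUnit_one
  have key : ∀ a : ℂ, 0 < a.re → th B a = κ * (a ^ 12)⁻¹ * th B a⁻¹ := by
    intro a ha
    have ha0 : a ≠ 0 := by rintro rfl; simp at ha
    have := hκ a ha 0
    simp only [q_ci', zero_dotProduct, mul_zero, add_zero, smul_zero] at this
    rw [th, this]
    congr 1
    · congr 1
      rw [one_div, inv_pow, ← cpow_nat_mul, show ((24 : ℕ) : ℂ) * (1 / 2) = (12 : ℕ) by norm_num,
        cpow_natCast]
    · let e : (Fin 24 → ℤ) ≃ (Fin 24 → ℤ) :=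
        { toFun := fun x => B *ᵥ x
          invFun := fun y => B⁻¹ *ᵥ y
          left_inv := fun x => by
            simp only [mulVec_mulVec, nonsing_inv_mul _ hu, one_mulVec]
          right_inv := fun x => by
            simp only [mulVec_mulVec, mul_nonsing_inv _ hu, one_mulVec] }
      rw [th, ← e.tsum_eq]
      refine tsum_congr fun x => ?_
      have e1 : ci (e x) = mc (mr B) *ᵥ ci x := by
        funext i; simp [e, ci, mc, mr, mulVec, dotProduct]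
      rw [e1, mulVec_mulVec, ← mc_mul, nonsing_inv_mul _ h.det_ne.isUnit, mc_one, one_mulVec,
        dotProduct_comm, q_ci', div_eq_mul_inv]
  have h1 := key 1 (by simp)
  have hκ1 : κ = 1 := by
    have h2 := th_one_ne h
    simp only [one_pow, inv_one, mul_one] at h1
    exact mul_right_cancel₀ h2 (by rw [← h1, one_mul])
  have ha0 : a ≠ 0 := by rintro rfl; simp at ha
  rw [key a ha, hκ1]
  field_simp

/-- theta function on the upper half plane -/
noncomputable def thH (B : Matrix (Fin 24) (Fin 24) ℤ) (τ : ℍ) : ℂ := th B (-I * τ)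

theorem re_arg (τ : ℍ) : 0 < (-I * (τ : ℂ)).re := by simpa using τ.im_pos

theorem thH_hasSum (h : PD (mr B)) (h0 : ∀ x : Fin 24 → ℤ, 0 ≤ x ⬝ᵥ (B *ᵥ x))
    (heven : ∀ x : Fin 24 → ℤ, (2 : ℤ) ∣ x ⬝ᵥ (B *ᵥ x)) (τ : ℍ) :
    HasSum (fun m : ℕ => (({x : Fin 24 → ℤ | x ⬝ᵥ (B *ᵥ x) = 2 * m}.ncard : ℕ) : ℂ) •
      Function.Periodic.qParam 1 τ ^ m) (thH B τ) := by
  have := (th_summable h (re_arg τ)).of_norm.hasSum.tsum_fiberwise
    (fun x => ((x ⬝ᵥ (B *ᵥ x)) / 2).toNat)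
  refine (congrArg (HasSum · (thH B τ)) (funext fun m => Eq.symm ?_)).mp this
  have e : (fun x : Fin 24 → ℤ => ((x ⬝ᵥ (B *ᵥ x)) / 2).toNat) ⁻¹' {m} =
      {x : Fin 24 → ℤ | x ⬝ᵥ (B *ᵥ x) = 2 * m} := by
    ext x
    have := h0 x
    have := heven x
    simp only [Set.mem_preimage, Set.mem_singleton_iff, Set.mem_ofPred_eq]
    omega
  rw [e]
  have e2 : ∀ b : {x : Fin 24 → ℤ | x ⬝ᵥ (B *ᵥ x) = 2 * m},
      cexp (-(π * (-I * τ)) * (((b : Fin 24 → ℤ) ⬝ᵥ B *ᵥ (b : Fin 24 → ℤ) : ℤ) : ℂ)) =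
        Function.Periodic.qParam 1 τ ^ m := fun b => by
    rw [show (b : Fin 24 → ℤ) ⬝ᵥ B *ᵥ (b : Fin 24 → ℤ) = 2 * m from b.2, Function.Periodic.qParam,
      ← Complex.exp_nat_mul]
    congr 1
    push_cast
    ring
  rw [tsum_congr e2, tsum_const, Nat.card_coe_set_eq, nsmul_eq_mul, smul_eq_mul]

theorem thH_S (hsymm : B.IsSymm) (h : PD (mr B)) (hdet : B.det = 1) :
    (thH B ∣[(12 : ℤ)] ModularGroup.S) = thH B := by
  ext z
  suffices th B (-I * (-(z : ℂ)⁻¹)) * ((z : ℂ) ^ 12)⁻¹ = th B (-I * z) by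
    rw [SL_slash_apply, UpperHalfPlane.modular_S_smul, ModularGroup.denom_S]
    simpa [thH]
  have : -I * (-(z : ℂ)⁻¹) = (-I * z)⁻¹ := by
    rw [mul_inv]; simp
  rw [this, th_inv hsymm h hdet (re_arg z), mul_pow]
  have : (-I) ^ 12 = 1 := by
    rw [show 12 = 2 * 6 from rfl, pow_mul, neg_sq, I_sq]; norm_num
  rw [this]
  field_simp [z.ne_zero]

theorem thH_T (heven : ∀ x : Fin 24 → ℤ, (2 : ℤ) ∣ x ⬝ᵥ (B *ᵥ x)) :
    (thH B ∣[(12 : ℤ)] ModularGroup.T) = thH B := by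
  ext z
  suffices th B (-I * (1 + z)) = th B (-I * z) by
    rw [SL_slash_apply, modular_T_smul, ModularGroup.denom_apply]
    simpa [thH, ModularGroup.T]
  refine tsum_congr fun x => ?_
  obtain ⟨m, hm⟩ := heven x
  rw [hm, Complex.exp_eq_exp_iff_exists_int]
  exact ⟨m, by push_cast; ring⟩

theorem thH_holo (h : PD (mr B)) (h0 : ∀ x : Fin 24 → ℤ, 0 ≤ x ⬝ᵥ (B *ᵥ x)) :
    DifferentiableOn ℂ (fun z => th B (-I * z)) {z | 0 < z.im} := by
  intro z hz
  have hz' : 0 < z.im := hz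
  have hs := th_summable h (a := (z.im / 2 : ℝ)) (by simpa using hz')
  have := differentiableOn_tsum_of_summable_norm (U := {w : ℂ | z.im / 2 < w.im})
    (F := fun (x : Fin 24 → ℤ) (w : ℂ) => cexp (-(π * (-I * w)) * ((x ⬝ᵥ B *ᵥ x : ℤ) : ℂ))) hs
    (fun x => by fun_prop) (isOpen_lt continuous_const Complex.continuous_im) (fun x w hw => by
      have hw' : z.im / 2 < w.im := hw
      rw [Complex.norm_exp, Complex.norm_exp]
      apply Real.exp_le_exp.2
      have := h0 x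
      generalize x ⬝ᵥ B *ᵥ x = m at *
      have hm : (0 : ℝ) ≤ m := by exact_mod_cast this
      simp
      have : π * (z.im / 2) ≤ π * w.im := by gcongr
      nlinarith)
  exact (this.differentiableAt ((isOpen_lt continuous_const Complex.continuous_im).mem_nhds
    (show z.im / 2 < z.im by linarith))).differentiableWithinAt

/-- the theta series as a modular form of weight 12 -/
noncomputable def thM (hsymm : B.IsSymm) (h : PD (mr B)) (hdet : B.det = 1)
    (h0 : ∀ x : Fin 24 → ℤ, 0 ≤ x ⬝ᵥ (B *ᵥ x))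
    (heven : ∀ x : Fin 24 → ℤ, (2 : ℤ) ∣ x ⬝ᵥ (B *ᵥ x)) : ModularForm 𝒮ℒ 12 where
  toFun := thH B
  slash_action_eq' A hA := by
    obtain ⟨A, rfl⟩ := hA
    exact slash_action_generators_SL2Z (thH_S hsymm h hdet) (thH_T heven) A
  holo' := by
    rw [UpperHalfPlane.mdifferentiable_iff]
    refine (thH_holo h h0).congr fun z hz => ?_
    simp [thH, ofComplex_apply_of_im_pos hz]
  bdd_at_cusps' hc := by
    rw [Subgroup.IsArithmetic.isCusp_iff_isCusp_SL2Z] at hc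
    rw [OnePoint.isBoundedAt_iff_forall_SL2Z hc]
    intro γ _
    rw [slash_action_generators_SL2Z (thH_S hsymm h hdet) (thH_T heven)]
    exact isBoundedAtImInfty_of_hasSum_qExpansion one_pos (thH_hasSum h h0 heven)

/-- the comparison form -/
noncomputable def cmp : ModularForm 𝒮ℒ 12 :=
  (7 / 12 : ℂ) • ModularForm.mcast (by decide) (E₄.pow 3) +
    (5 / 12 : ℂ) • ModularForm.mcast (by decide) (E₆.pow 2)

theorem cmp_q : qExpansion 1 cmp = (7 / 12 : ℂ) • (qExpansion 1 E₄ * qExpansion 1 E₄ * qExpansion 1 E₄) +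
      (5 / 12 : ℂ) • (qExpansion 1 E₆ * qExpansion 1 E₆) := by
  rw [cmp, FunLike.coe_add, ModularForm.qExpansion_add one_pos one_mem_strictPeriods_SL]
  simp only [FunLike.coe_smul,
    ModularForm.qExpansion_smul one_pos one_mem_strictPeriods_SL, ModularForm.qExpansion_mcast,
    ModularForm.qExpansion_pow one_pos one_mem_strictPeriods_SL]
  congr 2 <;> ring

theorem e4c (m : ℕ) : (qExpansion 1 E₄).coeff m =
    if m = 0 then 1 else 240 * (ArithmeticFunction.sigma 3 m : ℂ) := by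
  rw [E_qExpansion_coeff _ ⟨2, rfl⟩, show bernoulli 4 = -1 / 30 by decide +kernel]
  norm_num

theorem e6c (m : ℕ) : (qExpansion 1 E₆).coeff m =
    if m = 0 then 1 else -504 * (ArithmeticFunction.sigma 5 m : ℂ) := by
  rw [E_qExpansion_coeff _ ⟨3, rfl⟩, show bernoulli 6 = 1 / 42 by decide +kernel]
  norm_num

theorem cmp_c : (qExpansion 1 cmp).coeff 0 = 1 ∧ (qExpansion 1 cmp).coeff 1 = 0 ∧
    (qExpansion 1 cmp).coeff 2 = 196560 ∧ (qExpansion 1 cmp).coeff 3 = 16773120 ∧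
    (qExpansion 1 cmp).coeff 4 = 398034000 := by
  have s1 : ArithmeticFunction.sigma 3 1 = 1 := by decide +kernel
  have s2 : ArithmeticFunction.sigma 3 2 = 9 := by decide +kernel
  have s3 : ArithmeticFunction.sigma 3 3 = 28 := by decide +kernel
  have s4 : ArithmeticFunction.sigma 3 4 = 73 := by decide +kernel
  have t1 : ArithmeticFunction.sigma 5 1 = 1 := by decide +kernel
  have t2 : ArithmeticFunction.sigma 5 2 = 33 := by decide +kernel
  have t3 : ArithmeticFunction.sigma 5 3 = 244 := by decide +kernel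
  have t4 : ArithmeticFunction.sigma 5 4 = 1057 := by decide +kernel
  rw [cmp_q]
  simp only [map_add, PowerSeries.coeff_smul, PowerSeries.coeff_mul, Finset.Nat.antidiagonal_succ,
    Finset.Nat.antidiagonal_zero, Finset.sum_cons, Finset.sum_singleton, Finset.sum_map,
    Function.Embedding.coe_prodMap, Function.Embedding.coeFn_mk, Prod.map, Function.Embedding.refl_apply,
    Function.Embedding.coe_refl, id, e4c, e6c, Nat.succ_eq_add_one]
  norm_num [s1, s2, s3, s4, t1, t2, t3, t4]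

theorem counts (hsymm : B.IsSymm) (hpos : ∀ x : Fin 24 → ℤ, x ≠ 0 → 0 < x ⬝ᵥ (B *ᵥ x))
    (heven : ∀ x : Fin 24 → ℤ, (2 : ℤ) ∣ x ⬝ᵥ (B *ᵥ x)) (hdet : B.det = 1)
    (h2 : ∀ x : Fin 24 → ℤ, x ⬝ᵥ (B *ᵥ x) ≠ 2) (m : ℕ) :
    (({x : Fin 24 → ℤ | x ⬝ᵥ (B *ᵥ x) = 2 * m}.ncard : ℕ) : ℂ) = (qExpansion 1 cmp).coeff m := by
  have h := mr_pd hsymm hpos (by rw [hdet]; exact one_ne_zero)
  have h0 : ∀ x : Fin 24 → ℤ, 0 ≤ x ⬝ᵥ (B *ᵥ x) := fun x => by
    by_cases hx : x = 0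
    · subst hx; simp
    · exact (hpos x hx).le
  have hq : ∀ m : ℕ, (({x : Fin 24 → ℤ | x ⬝ᵥ (B *ᵥ x) = 2 * m}.ncard : ℕ) : ℂ) =
      (qExpansion 1 (thM hsymm h hdet h0 heven)).coeff m :=
    ModularFormClass.qExpansion_coeff_unique one_pos one_mem_strictPeriods_SL
      (f := thM hsymm h hdet h0 heven) (thH_hasSum h h0 heven)
  have : thM hsymm h hdet h0 heven - cmp = 0 := by
    apply sturm_bound_levelOne
    rw [FunLike.coe_sub, ModularForm.qExpansion_sub one_pos one_mem_strictPeriods_SL]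
    refine lt_of_lt_of_le ?_ (PowerSeries.nat_le_order _ 2 fun i hi => ?_)
    · decide
    · rw [map_sub, ← hq]
      interval_cases i
      · have : {x : Fin 24 → ℤ | x ⬝ᵥ (B *ᵥ x) = 2 * (0 : ℕ)} = {0} := by
          ext x
          simp only [Set.mem_ofPred_eq, Set.mem_singleton_iff]
          refine ⟨fun hx => by_contra fun h1 => ?_, by rintro rfl; simp⟩
          have := hpos x h1
          omega
        rw [this, cmp_c.1]; simp
      · have : {x : Fin 24 → ℤ | x ⬝ᵥ (B *ᵥ x) = 2 * (1 : ℕ)} = ∅ := by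
          ext x
          simpa using h2 x
        rw [this, cmp_c.2.1]; simp
  rw [hq, sub_eq_zero.1 this]

end Cfsg.Agent.H5.Theta
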